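/-
Orbit certificate certK (generated): part 4.
-/
import Cfsg.Agent.Lib.Helper10.CertK0
set_option autoImplicit false
open Cfsg Cfsg.Agent.Lib.Helper28
namespace Cfsg.Agent.Lib.Helper10

set_option maxRecDepth 1000000 in
theorem certK_f6 : allFrom certKstep (2944 * 6) 2944 = true := by decide +kernel

set_option maxRecDepth 1000000 in
theorem certK_f7 : allFrom certKstep (2944 * 7) 2944 = true := by decide +kernel

end Cfsg.Agent.Lib.Helper10
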