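/-
Orbit certificate certK (generated): size of class 0.
-/
import Cfsg.Agent.Lib.Helper10.CertK0
set_option autoImplicit false
open Cfsg Cfsg.Agent.Lib.Helper28
namespace Cfsg.Agent.Lib.Helper10

set_option maxRecDepth 1000000 in
theorem certK_cnt0 : certK.cntCl 0 = 1 := by
  rw [cntCl_of_chunks (m := 512) (by norm_num) certK_okP rfl]
  decide +kernel

end Cfsg.Agent.Lib.Helper10
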