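/-
Orbit certificate certK (generated): assembly.
-/
import Cfsg.Agent.Lib.Helper10.CertK1
import Cfsg.Agent.Lib.Helper10.CertK2
import Cfsg.Agent.Lib.Helper10.CertK3
import Cfsg.Agent.Lib.Helper10.CertK4
import Cfsg.Agent.Lib.Helper10.CertK5
import Cfsg.Agent.Lib.Helper10.CertK6
import Cfsg.Agent.Lib.Helper10.CertK7
import Cfsg.Agent.Lib.Helper10.CertK8
import Cfsg.Agent.Lib.Helper10.CertK9
import Cfsg.Agent.Lib.Helper10.CertKc0
import Cfsg.Agent.Lib.Helper10.CertKc1
import Cfsg.Agent.Lib.Helper10.CertKc2
import Cfsg.Agent.Lib.Helper10.CertKc3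
import Cfsg.Agent.Lib.Helper10.CertKc4
import Cfsg.Agent.Lib.Helper10.CertKc5
set_option autoImplicit false
open Cfsg Cfsg.Agent.Lib.Helper28
namespace Cfsg.Agent.Lib.Helper10

theorem certK_forest : forestChkB certK.gens (rootChk certK.l0 certK.l1 certK.l2 certK.l3 certK.P1 certK.P2 certK.P3 certK.n0)
    certK.rts certKL certKPG 512 certK.n = true := by
  show allBelow certKstep (2944 * 16) = true
  apply allBelow_of_pieces (by norm_num)
  intro i hi
  interval_cases i
  · exact certK_f0
  · exact certK_f1
  · exact certK_f2
  · exact certK_f3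
  · exact certK_f4
  · exact certK_f5
  · exact certK_f6
  · exact certK_f7
  · exact certK_f8
  · exact certK_f9
  · exact certK_f10
  · exact certK_f11
  · exact certK_f12
  · exact certK_f13
  · exact certK_f14
  · exact certK_f15

theorem certK_L : certK.L = joinC certKL (120 * 512) := rfl

theorem certK_PG : certK.PG = joinC certKPG (40 * 512) := rfl

set_option maxRecDepth 1000000 in
theorem certK_valid : certK.Valid where
  b1 := by decide +kernel
  b2 := by decide +kernel
  b3 := by decide +kernel
  g := by decide +kernel
  f := by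
    rw [certK_L, certK_PG]
    exact forestChk_of_chunks (by norm_num) certK_okL certK_okP certK_forest
  s := by
    rw [certK_L]
    exact sortChk_of_chunks (by norm_num) certK_okL certK_sort
  c := by decide +kernel

theorem certK_ent (k : ℕ) : entL certK.L k = entB certKL 512 k := by
  rw [certK_L]
  exact entL_joinC (by norm_num) certK_okL k

set_option maxRecDepth 1000000 in
theorem certK_good : certK.Good (8) (8) where
  v := certK_valid
  l3 := rfl
  n0 := by decide +kernel
  r := by
    simp only [certK_ent]
    decide +kernel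
  sep := by
    simp only [certK_ent]
    decide +kernel

set_option maxRecDepth 1000000 in
theorem certK_rinv0 : certK.rinv 0 = 32 := by
  unfold Cert.rinv
  rw [certK_ent]
  decide +kernel

set_option maxRecDepth 1000000 in
theorem certK_rinv1 : certK.rinv 1 = 16 := by
  unfold Cert.rinv
  rw [certK_ent]
  decide +kernel

set_option maxRecDepth 1000000 in
theorem certK_rinv2 : certK.rinv 2 = 8 := by
  unfold Cert.rinv
  rw [certK_ent]
  decide +kernel

set_option maxRecDepth 1000000 in
theorem certK_rinv3 : certK.rinv 3 = 0 := by
  unfold Cert.rinv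
  rw [certK_ent]
  decide +kernel

set_option maxRecDepth 1000000 in
theorem certK_rinv4 : certK.rinv 4 = -8 := by
  unfold Cert.rinv
  rw [certK_ent]
  decide +kernel

set_option maxRecDepth 1000000 in
theorem certK_rinv5 : certK.rinv 5 = -16 := by
  unfold Cert.rinv
  rw [certK_ent]
  decide +kernel

end Cfsg.Agent.Lib.Helper10
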