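import Mathlib

set_option autoImplicit false

namespace Cfsg.Agent.Lib.Helper10

theorem card_carrier_dvd {K : Type*} [Group K] [Finite K] (C : ConjClasses K) :
    Nat.card C.carrier ∣ Nat.card K := by
  obtain ⟨g, rfl⟩ := ConjClasses.exists_rep C
  rw [← ConjAct.orbit_eq_carrier_conjClasses, Nat.card_coe_set_eq, ← MulAction.index_stabilizer]
  exact Subgroup.index_dvd_card _

/-- An automorphism of prime order `p` not dividing `|K|` that fixes a conjugacy class fixes one of its elements. -/
theorem exists_fixed_in_class {K : Type*} [Group K] [Finite K] (φ : MulAut K) (p : ℕ) [Fact p.Prime]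
    (hφ : φ ^ p = 1) (hp : ¬ p ∣ Nat.card K) (C : ConjClasses K)
    (hC : ConjClasses.map φ.toMonoidHom C = C) : ∃ k ∈ C.carrier, φ k = k := by
  classical
  have h1 : ∀ k, k ∈ C.carrier → φ k ∈ C.carrier := by
    intro k hk
    rw [ConjClasses.mem_carrier_iff_mk_eq] at hk ⊢
    rw [← hC, ← hk]
    rfl
  have h2 : ∀ (j : ℕ) k, k ∈ C.carrier → (φ ^ j) k ∈ C.carrier := by
    intro j
    induction j with
    | zero => intro k hk; simpa using hk
    | succ j ih =>
      intro k hk
      rw [pow_succ', MulAut.mul_apply]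
      exact h1 _ (ih k hk)
  have h3 : ∀ k, φ.toEquiv k ∈ C.carrier ↔ k ∈ C.carrier := by
    intro k
    refine ⟨fun hk => ?_, h1 k⟩
    have := h2 (p - 1) _ hk
    have hpp : p - 1 + 1 = p := Nat.sub_add_cancel (Fact.out : p.Prime).one_le
    have e : (φ ^ (p - 1)) (φ k) = k := by
      rw [← MulAut.mul_apply, ← pow_succ, hpp, hφ]
      rfl
    simpa [e] using this
  have : Fintype C.carrier := Fintype.ofFinite _
  let σ : Equiv.Perm C.carrier := Equiv.Perm.subtypePerm (φ.toEquiv : Equiv.Perm K) h3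
  have hσ : σ ^ p ^ 1 = 1 := by
    ext ⟨k, hk⟩
    rw [pow_one]
    have e : ∀ j : ℕ, ((σ ^ j) ⟨k, hk⟩ : K) = (φ ^ j) k := by
      intro j
      induction j with
      | zero => simp
      | succ j ih =>
        rw [pow_succ', pow_succ', Equiv.Perm.mul_apply, MulAut.mul_apply, ← ih]
        rfl
    rw [e p, hφ]
    rfl
  have hcard : ¬ p ∣ Fintype.card C.carrier := by
    intro h
    apply hp
    rw [Fintype.card_eq_nat_card] at h
    exact h.trans (card_carrier_dvd C)
  obtain ⟨⟨k, hk⟩, hfix⟩ := Equiv.Perm.exists_fixed_point_of_prime hcard hσ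
  exact ⟨k, hk, congrArg Subtype.val hfix⟩

end Cfsg.Agent.Lib.Helper10
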