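import Mathlib
import Cfsg.Prelude.Def_OddOrderChar

set_option autoImplicit false

namespace Cfsg.Agent.Lib.Helper10

/-- In a finite group `C = N ⋊ Q` (all inside `G`), an element of `C` of order coprime to `|Q|` lies in `N`. -/
theorem mem_of_coprime_compl {G : Type*} [Group G] [Finite G] (C N Q : Subgroup G) (hN : N ≤ C) (hQ : Q ≤ C)
    (hnorm : ∀ c ∈ C, ∀ u ∈ N, c * u * c⁻¹ ∈ N) (hinf : N ⊓ Q = ⊥) (hsup : N ⊔ Q = C)
    (u : G) (hu : u ∈ C) (hcop : (orderOf u).Coprime (Nat.card Q)) : u ∈ N := by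
  have hNn : (N.subgroupOf C).Normal := by
    constructor
    intro n hn g
    rw [Subgroup.mem_subgroupOf] at hn ⊢
    simpa using hnorm g g.2 n hn
  have hdisj : Disjoint (Q.subgroupOf C) (N.subgroupOf C) := by
    rw [disjoint_iff]
    ext x
    simp only [Subgroup.mem_inf, Subgroup.mem_subgroupOf, Subgroup.mem_bot]
    constructor
    · rintro ⟨h1, h2⟩
      have : (x : G) ∈ N ⊓ Q := ⟨h2, h1⟩
      rw [hinf, Subgroup.mem_bot] at this
      exact Subtype.ext this
    · rintro rfl
      exact ⟨Q.one_mem, N.one_mem⟩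
  have htop : Q.subgroupOf C ⊔ N.subgroupOf C = ⊤ := by
    rw [← Subgroup.subgroupOf_sup hQ hN, sup_comm, hsup, Subgroup.subgroupOf_self]
  have hcompl : Subgroup.IsComplement' (Q.subgroupOf C) (N.subgroupOf C) := by
    apply Subgroup.isComplement'_of_disjoint_and_mul_eq_univ hdisj
    rw [← Subgroup.mul_normal, htop, Subgroup.coe_top]
  have hidx : (N.subgroupOf C).index = Nat.card Q := by
    rw [hcompl.index_eq_card]
    exact Nat.card_congr (Subgroup.subgroupOfEquivOfLe hQ).toEquiv
  have hpow : (⟨u, hu⟩ : C) ^ (N.subgroupOf C).index ∈ N.subgroupOf C := Subgroup.pow_index_mem _ _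
  rw [hidx] at hpow
  obtain ⟨m, hm⟩ := exists_pow_eq_self_of_coprime hcop.symm
  have := (N.subgroupOf C).pow_mem hpow m
  rw [Subgroup.mem_subgroupOf] at this
  simpa [hm] using this

variable {G : Type*} [Group G] [Finite G] {A : Set G} {L : Subgroup G} {H : G → Subgroup G}

/-- Under the Dade hypothesis an element of `C_G(b)` whose order is coprime to `|C_L(b)|` lies in `H b`. -/
theorem dade_mem_H_of_coprime (hD : Cfsg.DadeHypothesis A L H) {b : G} (hb : b ∈ A) {u : G}
    (hu : u ∈ Subgroup.centralizer ({b} : Set G))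
    (hcop : (orderOf u).Coprime (Nat.card ↥(L ⊓ Subgroup.centralizer ({b} : Set G)))) : u ∈ H b :=
  mem_of_coprime_compl _ (H b) _ (hD.le_centralizer b hb) inf_le_right (hD.conj_mem_H b hb)
    (hD.inf_eq_bot b hb) (hD.sup_eq b hb) u hu hcop

theorem dade_map_conj_le (hD : Cfsg.DadeHypothesis A L H) {a : G} (ha : a ∈ A) {x : G} (hx : x ∈ L) :
    (H a).map (MulAut.conj x).toMonoidHom ≤ H (x * a * x⁻¹) := by
  rintro _ ⟨u, hu, rfl⟩
  have hb := hD.conj_mem x hx a ha
  apply dade_mem_H_of_coprime hD hb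
  · have h1 := hD.le_centralizer a ha hu
    rw [Subgroup.mem_centralizer_singleton_iff] at h1 ⊢
    simp only [MulEquiv.coe_toMonoidHom, MulAut.conj_apply]
    calc x * u * x⁻¹ * (x * a * x⁻¹) = x * (u * a) * x⁻¹ := by group
      _ = x * (a * u) * x⁻¹ := by rw [h1]
      _ = x * a * x⁻¹ * (x * u * x⁻¹) := by group
  · have h2 : orderOf ((MulAut.conj x).toMonoidHom u) = orderOf u :=
      orderOf_injective _ (MulAut.conj x).injective u
    rw [h2]
    exact Nat.Coprime.coprime_dvd_left (Subgroup.orderOf_dvd_natCard _ hu) (hD.coprime a ha _ hb)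

theorem dade_H_conj (hD : Cfsg.DadeHypothesis A L H) {a : G} (ha : a ∈ A) {x : G} (hx : x ∈ L) :
    H (x * a * x⁻¹) = (H a).map (MulAut.conj x).toMonoidHom := by
  apply le_antisymm _ (dade_map_conj_le hD ha hx)
  have hb := hD.conj_mem x hx a ha
  have h1 := dade_map_conj_le hD hb (L.inv_mem hx)
  have h2 : x⁻¹ * (x * a * x⁻¹) * x⁻¹⁻¹ = a := by group
  rw [h2] at h1
  intro u hu
  refine ⟨x⁻¹ * u * x, ?_, by simp [mul_assoc]⟩
  apply h1
  exact ⟨u, hu, by simp⟩

theorem dade_orderOf_coprime (hD : Cfsg.DadeHypothesis A L H) {a b : G} (ha : a ∈ A) (hb : b ∈ A) :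
    (orderOf a).Coprime (Nat.card (H b)) := by
  have h1 : a ∈ L ⊓ Subgroup.centralizer ({a} : Set G) :=
    Subgroup.mem_inf.mpr ⟨hD.subset ha, Subgroup.mem_centralizer_singleton_iff.mpr rfl⟩
  exact (Nat.Coprime.coprime_dvd_right (Subgroup.orderOf_dvd_natCard _ h1) (hD.coprime b hb a ha)).symm

/-- If an element of `a H(a)` is conjugated by `g` to an element of `b H(b)`, then `g` conjugates `a` to `b`. -/
theorem dade_conj_eq (hD : Cfsg.DadeHypothesis A L H) {a b : G} (ha : a ∈ A) (hb : b ∈ A) {u v g : G}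
    (hu : u ∈ H a) (hv : v ∈ H b) (hg : g * (a * u) * g⁻¹ = b * v) : g * a * g⁻¹ = b := by
  have hcop : (orderOf a * orderOf b).Coprime (Nat.card (H a) * Nat.card (H b)) := by
    apply Nat.Coprime.mul_left <;> apply Nat.Coprime.mul_right
    · exact dade_orderOf_coprime hD ha ha
    · exact dade_orderOf_coprime hD ha hb
    · exact dade_orderOf_coprime hD hb ha
    · exact dade_orderOf_coprime hD hb hb
  obtain ⟨k, hk1, hk0⟩ := Nat.chineseRemainder hcop 1 0
  have hak : a ^ k = a := by
    have : a ^ k = a ^ 1 := by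
      rw [pow_eq_pow_iff_modEq]
      exact hk1.of_mul_right _
    simpa using this
  have hbk : b ^ k = b := by
    have : b ^ k = b ^ 1 := by
      rw [pow_eq_pow_iff_modEq]
      exact hk1.of_mul_left _
    simpa using this
  have hk0' : Nat.card (H a) * Nat.card (H b) ∣ k := (Nat.modEq_zero_iff_dvd).mp hk0
  have huk : u ^ k = 1 := by
    rw [← orderOf_dvd_iff_pow_eq_one]
    exact (Subgroup.orderOf_dvd_natCard _ hu).trans ((Nat.dvd_mul_right _ _).trans hk0')
  have hvk : v ^ k = 1 := by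
    rw [← orderOf_dvd_iff_pow_eq_one]
    exact (Subgroup.orderOf_dvd_natCard _ hv).trans ((Nat.dvd_mul_left _ _).trans hk0')
  have hau : Commute a u := by
    have := hD.le_centralizer a ha hu
    rw [Subgroup.mem_centralizer_singleton_iff] at this
    exact this.symm
  have hbv : Commute b v := by
    have := hD.le_centralizer b hb hv
    rw [Subgroup.mem_centralizer_singleton_iff] at this
    exact this.symm
  have h1 : (g * (a * u) * g⁻¹) ^ k = (b * v) ^ k := by rw [hg]
  rw [conj_pow, hau.mul_pow, hbv.mul_pow, hak, hbk, huk, hvk, mul_one, mul_one] at h1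
  exact h1

end Cfsg.Agent.Lib.Helper10
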