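/-
Enumeration of the subsets of given size of the 24 points (as masks), orbit certificates for them.
-/
import Cfsg.Agent.Lib.Helper10.M24Six

set_option autoImplicit false

namespace Cfsg.Agent.Lib.Helper10

open Cfsg Cfsg.Agent.Lib.Helper28
open scoped Pointwise

/-- number of masks `m < 2 ^ n` with `w` bits and `f m` -/
noncomputable def cntW (n : ℕ) : ℕ → (ℕ → Bool) → ℕ :=
  Nat.rec (fun w f => cond (Nat.beq w 0) (cond (f 0) 1 0) 0)
    (fun _ ih w f => Nat.add (ih w (fun m => f (Nat.mul 2 m)))
      (cond (Nat.beq w 0) 0 (strict (Nat.sub w 1) fun w' => ih w' (fun m => f (Nat.succ (Nat.mul 2 m)))))) n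

theorem cntW_zero (w : ℕ) (f : ℕ → Bool) : cntW 0 w f = cond (Nat.beq w 0) (cond (f 0) 1 0) 0 := rfl

theorem cntW_succ (n w : ℕ) (f : ℕ → Bool) : cntW (n + 1) w f = cntW n w (fun m => f (2 * m)) +
    cond (Nat.beq w 0) 0 (cntW n (w - 1) (fun m => f (2 * m + 1))) := by
  show Nat.add (cntW n w (fun m => f (Nat.mul 2 m)))
      (cond (Nat.beq w 0) 0 (strict (Nat.sub w 1) fun w' => cntW n w' (fun m => f (Nat.succ (Nat.mul 2 m))))) = _
  rw [strict_eq]
  rfl

theorem cntW_eq (n w : ℕ) (f : ℕ → Bool) :
    cntW n w f = ((Finset.range (2 ^ n)).filter (fun m => pc n m = w ∧ f m = true)).card := by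
  induction n generalizing w f with
  | zero =>
    rw [cntW_zero]
    have : Finset.range (2 ^ 0) = {0} := by simp
    rw [this, Finset.filter_singleton]
    rcases w with _ | w
    · cases hf : f 0 <;> simp [pc]
    · have : Nat.beq (w + 1) 0 = false := rfl
      simp [pc, this]
  | succ n ih =>
    rw [cntW_succ, ih]
    have hsplit : (Finset.range (2 ^ (n + 1))).filter (fun m => pc (n + 1) m = w ∧ f m = true)
        = ((Finset.range (2 ^ n)).filter (fun m => pc n m = w ∧ f (2 * m) = true)).image (fun m => 2 * m)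
          ∪ ((Finset.range (2 ^ n)).filter (fun m => 1 + pc n m = w ∧ f (2 * m + 1) = true)).image
            (fun m => 2 * m + 1) := by
      ext m
      simp only [Finset.mem_filter, Finset.mem_range, Finset.mem_union, Finset.mem_image]
      constructor
      · rintro ⟨hm, hp, hf⟩
        rw [pc] at hp
        rcases Nat.mod_two_eq_zero_or_one m with h | h
        · left
          refine ⟨m / 2, ⟨by rw [pow_succ] at hm; omega, by omega, ?_⟩, by omega⟩
          have : 2 * (m / 2) = m := by omega
          rw [this]; exact hf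
        · right
          refine ⟨m / 2, ⟨by rw [pow_succ] at hm; omega, by omega, ?_⟩, by omega⟩
          have : 2 * (m / 2) + 1 = m := by omega
          rw [this]; exact hf
      · rintro (⟨k, ⟨hk, hp, hf⟩, rfl⟩ | ⟨k, ⟨hk, hp, hf⟩, rfl⟩)
        · refine ⟨by rw [pow_succ]; omega, ?_, hf⟩
          rw [pc]
          have h1 : 2 * k % 2 = 0 := by omega
          have h2 : 2 * k / 2 = k := by omega
          rw [h1, h2]; omega
        · refine ⟨by rw [pow_succ]; omega, ?_, hf⟩
          rw [pc]
          have h1 : (2 * k + 1) % 2 = 1 := by omega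
          have h2 : (2 * k + 1) / 2 = k := by omega
          rw [h1, h2]; omega
    have inj0 : Function.Injective (fun m : ℕ => 2 * m) := by
      intro a b h
      have : 2 * a = 2 * b := h
      omega
    have inj1 : Function.Injective (fun m : ℕ => 2 * m + 1) := by
      intro a b h
      have : 2 * a + 1 = 2 * b + 1 := h
      omega
    rw [hsplit, Finset.card_union_of_disjoint, Finset.card_image_of_injective _ inj0,
      Finset.card_image_of_injective _ inj1]
    · congr 1
      rcases w with _ | w
      · have : Nat.beq 0 0 = true := rfl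
        rw [this, cond_true]
        symm
        rw [Finset.card_eq_zero, Finset.filter_eq_empty_iff]
        intro m _ h
        omega
      · have : Nat.beq (w + 1) 0 = false := rfl
        rw [this, cond_false, ih]
        congr 1
        apply Finset.filter_congr
        intro m _
        have : 1 + pc n m = w + 1 ↔ pc n m = w + 1 - 1 := by omega
        rw [this]
    · rw [Finset.disjoint_left]
      intro m h1 h2
      simp only [Finset.mem_image] at h1 h2
      obtain ⟨a, _, rfl⟩ := h1
      obtain ⟨b, _, hb⟩ := h2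
      omega

/-- counting the sets of `w` points with a property of the mask -/
theorem ncard_weight_eq (w : ℕ) (f : ℕ → Bool) :
    {s : Finset GolayPt | s.card = w ∧ f (mask s) = true}.ncard = cntW 24 w f := by
  rw [cntW_eq]
  have himg : {s : Finset GolayPt | s.card = w ∧ f (mask s) = true}
      = unmask '' (((Finset.range (2 ^ 24)).filter (fun m => pc 24 m = w ∧ f m = true) : Finset ℕ) : Set ℕ) := by
    ext s
    simp only [Set.mem_ofPred_eq, Set.mem_image, Finset.coe_filter, Finset.mem_range]
    constructor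
    · rintro ⟨h1, h2⟩
      exact ⟨mask s, ⟨mask_lt s, by rw [← card_eq_pc, h1], h2⟩, unmask_mask s⟩
    · rintro ⟨m, ⟨hm, h1, h2⟩, rfl⟩
      rw [card_eq_pc, mask_unmask m hm]
      exact ⟨h1, h2⟩
  rw [himg, Set.InjOn.ncard_image, Set.ncard_coe_finset]
  intro a ha b hb hab
  simp only [Finset.coe_filter, Finset.mem_range, Set.mem_ofPred_eq] at ha hb
  rw [← mask_unmask a ha.1, ← mask_unmask b hb.1, hab]

/-- checking a property of all sets of `w` points -/
theorem forall_weight {w : ℕ} {f : ℕ → Bool} (h : cntW 24 w (fun m => not (f m)) = 0) (s : Finset GolayPt)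
    (hs : s.card = w) : f (mask s) = true := by
  rw [cntW_eq, Finset.card_eq_zero, Finset.filter_eq_empty_iff] at h
  have := h (Finset.mem_range.2 (mask_lt s))
  rw [← card_eq_pc] at this
  by_contra hf
  exact this ⟨hs, by simpa using hf⟩

/-! ### orbit certificates with a general index function -/

/-- `m` occurs in the array at the position given by the index table `pos` at `hsh m` -/
noncomputable def covH (P : ℕ → Bool) (hsh : ℕ → ℕ) (masks pos n : ℕ) (m : ℕ) : Bool :=
  cond (P m) (strict (fld pos 12 4095 (hsh m)) fun k =>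
    and (Nat.blt k n) (Nat.beq (mk24 masks k) m)) true

theorem covH_spec {P : ℕ → Bool} {hsh : ℕ → ℕ} {masks pos n m : ℕ} (h : covH P hsh masks pos n m = true)
    (hP : P m = true) : ∃ k, k < n ∧ mk24 masks k = m := by
  simp only [covH, hP, cond_true, strict_eq, Bool.and_eq_true] at h
  exact ⟨_, Nat.blt_eq.mp h.1, Nat.eq_of_beq_eq_true h.2⟩

/-- two sets occurring in the array, of the same class, are conjugate -/
theorem orbits_of_cover {K : Subgroup (Equiv.Perm GolayPt)} {gens : List (List ℕ)}
    (hg : ∀ L ∈ gens, validTbl L = true ∧ permOf L ∈ K) {cls rep : ℕ → ℕ} {masks pg n : ℕ}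
    (h1 : orbCheck gens cls rep masks pg n = true)
    {s t : Finset GolayPt} (hs : ∃ k, k < n ∧ mk24 masks k = mask s) (ht : ∃ k, k < n ∧ mk24 masks k = mask t)
    (hst : cls (mask s) = cls (mask t)) :
    ∃ g ∈ K, g • s = t := by
  obtain ⟨k, hk, hks⟩ := hs
  obtain ⟨l, hl, hlt⟩ := ht
  obtain ⟨a, ha, ha'⟩ := orbCheck_spec hg h1 k hk
  obtain ⟨b, hb, hb'⟩ := orbCheck_spec hg h1 l hl
  rw [hks] at ha'
  rw [hlt, ← hst] at hb'
  refine ⟨b * a⁻¹, K.mul_mem hb (K.inv_mem ha), ?_⟩
  apply mask_injective
  rw [mask_smul, ← ha', ← pm_mul, inv_mul_cancel_right, hb']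

/-- orbits on the sets of `w` points -/
theorem orbits_weight {K : Subgroup (Equiv.Perm GolayPt)} {gens : List (List ℕ)}
    (hg : ∀ L ∈ gens, validTbl L = true ∧ permOf L ∈ K) {P : ℕ → Bool} {cls rep hsh : ℕ → ℕ} {masks pg pos n w : ℕ}
    (h1 : orbCheck gens cls rep masks pg n = true)
    (h2 : cntW 24 w (fun m => not (covH P hsh masks pos n m)) = 0)
    {s t : Finset GolayPt} (hs : s.card = w) (ht : t.card = w)
    (hPs : P (mask s) = true) (hPt : P (mask t) = true) (hst : cls (mask s) = cls (mask t)) :
    ∃ g ∈ K, g • s = t :=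
  orbits_of_cover hg h1 (covH_spec (forall_weight h2 s hs) hPs) (covH_spec (forall_weight h2 t ht) hPt) hst

/-- index function for sets of at most three points -/
noncomputable def hsh3 (m : ℕ) : ℕ :=
  strict (Nat.log2 m) fun i =>
  strict (Nat.xor m (Nat.shiftLeft 1 i)) fun m1 =>
  strict (Nat.log2 m1) fun j =>
  strict (Nat.xor m1 (Nat.shiftLeft 1 j)) fun m2 =>
    Nat.add (Nat.mul (Nat.add (Nat.mul i 24) j) 24) (Nat.log2 m2)

end Cfsg.Agent.Lib.Helper10
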