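/-
Small sets of points under M24; octads through a given set; transport of maximality.
-/
import Cfsg.Agent.Lib.Helper10.Weight

set_option autoImplicit false

namespace Cfsg.Agent.Lib.Helper10

open Cfsg Cfsg.Agent.Lib.Helper28
open scoped Pointwise

/-- maximality of a point stabiliser is inherited by the other points of the orbit -/
theorem isCoatom_stabilizer_smul {G α : Type*} [Group G] [MulAction G α] (g : G) (x : α)
    (h : IsCoatom (MulAction.stabilizer G x)) : IsCoatom (MulAction.stabilizer G (g • x)) := by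
  rw [MulAction.stabilizer_smul_eq_stabilizer_map_conj]
  exact ((MulAut.conj g).mapSubgroup.isCoatom_iff _).2 h

theorem card_golayPt : (Finset.univ : Finset GolayPt).card = 24 := by decide

theorem four_to_std {a b c d : GolayPt} (h : [a, b, c, d].Nodup) :
    ∃ g ∈ M24, g a = pt 23 ∧ g b = pt 0 ∧ g c = pt 1 ∧ g d = pt 2 := by
  obtain ⟨l1, hlen, _, hmem⟩ := exists_extend (Finset.univ : Finset GolayPt) 1 [a, b, c, d] (by
    rw [card_golayPt]; simp)
  rcases l1 with _ | ⟨e, _ | ⟨f, l⟩⟩ <;> simp at hlen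
  have he := (hmem e (by simp)).2
  have h5 : [a, b, c, d, e].Nodup := by
    simp only [List.nodup_cons, List.mem_cons, List.not_mem_nil, or_false, not_or, List.nodup_nil, and_true,
      not_false_eq_true] at h he ⊢
    exact ⟨⟨h.1.1, h.1.2.1, h.1.2.2, Ne.symm he.1⟩, ⟨h.2.1.1, h.2.1.2, Ne.symm he.2.1⟩,
      ⟨h.2.2, Ne.symm he.2.2.1⟩, Ne.symm he.2.2.2⟩
  obtain ⟨g, hg, h0, h1, h2, h3, -⟩ := five_to_std h5
  exact ⟨g, hg, h0, h1, h2, h3⟩

theorem three_to_std {a b c : GolayPt} (h : [a, b, c].Nodup) :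
    ∃ g ∈ M24, g a = pt 23 ∧ g b = pt 0 ∧ g c = pt 1 := by
  obtain ⟨l1, hlen, _, hmem⟩ := exists_extend (Finset.univ : Finset GolayPt) 1 [a, b, c] (by
    rw [card_golayPt]; simp)
  rcases l1 with _ | ⟨e, _ | ⟨f, l⟩⟩ <;> simp at hlen
  have he := (hmem e (by simp)).2
  have h5 : [a, b, c, e].Nodup := by
    simp only [List.nodup_cons, List.mem_cons, List.not_mem_nil, or_false, not_or, List.nodup_nil, and_true,
      not_false_eq_true] at h he ⊢
    exact ⟨⟨h.1.1, h.1.2, Ne.symm he.1⟩, ⟨h.2, Ne.symm he.2.1⟩, Ne.symm he.2.2⟩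
  obtain ⟨g, hg, h0, h1, h2, -⟩ := four_to_std h5
  exact ⟨g, hg, h0, h1, h2⟩

theorem two_to_std {a b : GolayPt} (h : a ≠ b) : ∃ g ∈ M24, g a = pt 23 ∧ g b = pt 0 := by
  obtain ⟨l1, hlen, _, hmem⟩ := exists_extend (Finset.univ : Finset GolayPt) 1 [a, b] (by
    rw [card_golayPt]; simp)
  rcases l1 with _ | ⟨e, _ | ⟨f, l⟩⟩ <;> simp at hlen
  have he := (hmem e (by simp)).2
  have h5 : [a, b, e].Nodup := by
    simp only [List.nodup_cons, List.mem_cons, List.not_mem_nil, or_false, not_or, List.nodup_nil, and_true,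
      not_false_eq_true] at he ⊢
    exact ⟨⟨h, Ne.symm he.1⟩, Ne.symm he.2⟩
  obtain ⟨g, hg, h0, h1, -⟩ := three_to_std h5
  exact ⟨g, hg, h0, h1⟩

theorem unmask_duad : unmask 8388609 = {pt 23, pt 0} := by decide
theorem unmask_triad : unmask 8388611 = {pt 23, pt 0, pt 1} := by decide
theorem unmask_tetrad : unmask 8388615 = {pt 23, pt 0, pt 1, pt 2} := by decide

theorem duad_std {s : Finset GolayPt} (hs : s.card = 2) : ∃ g ∈ M24, g • s = unmask 8388609 := by
  obtain ⟨a, b, hab, rfl⟩ := Finset.card_eq_two.1 hs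
  obtain ⟨g, hg, h0, h1⟩ := two_to_std hab
  refine ⟨g, hg, ?_⟩
  rw [unmask_duad, Finset.smul_finset_insert, Finset.smul_finset_singleton, Equiv.Perm.smul_def,
    Equiv.Perm.smul_def, h0, h1]

theorem triad_std {s : Finset GolayPt} (hs : s.card = 3) : ∃ g ∈ M24, g • s = unmask 8388611 := by
  obtain ⟨a, b, c, hab, hac, hbc, rfl⟩ := Finset.card_eq_three.1 hs
  obtain ⟨g, hg, h0, h1, h2⟩ := three_to_std (a := a) (b := b) (c := c) (by simp [hab, hac, hbc])
  refine ⟨g, hg, ?_⟩
  rw [unmask_triad, Finset.smul_finset_insert, Finset.smul_finset_insert, Finset.smul_finset_singleton,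
    Equiv.Perm.smul_def, Equiv.Perm.smul_def, Equiv.Perm.smul_def, h0, h1, h2]

theorem tetrad_std {s : Finset GolayPt} (hs : s.card = 4) : ∃ g ∈ M24, g • s = unmask 8388615 := by
  obtain ⟨a, t, hat, rfl, ht⟩ := Finset.card_eq_succ.1 hs
  obtain ⟨b, c, d, hbc, hbd, hcd, rfl⟩ := Finset.card_eq_three.1 ht
  simp only [Finset.mem_insert, Finset.mem_singleton, not_or] at hat
  obtain ⟨g, hg, h0, h1, h2, h3⟩ := four_to_std (a := a) (b := b) (c := c) (d := d)
    (by simp [hat.1, hat.2.1, hat.2.2, hbc, hbd, hcd])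
  refine ⟨g, hg, ?_⟩
  rw [unmask_tetrad, Finset.smul_finset_insert, Finset.smul_finset_insert, Finset.smul_finset_insert,
    Finset.smul_finset_singleton, Equiv.Perm.smul_def, Equiv.Perm.smul_def, Equiv.Perm.smul_def,
    Equiv.Perm.smul_def, h0, h1, h2, h3]

/-! ### inclusion, disjointness -/

theorem subset_iff_mask (s t : Finset GolayPt) : s ⊆ t ↔ Nat.beq (Nat.land (mask t) (mask s)) (mask s) = true := by
  rw [Nat.beq_eq, ← Finset.inter_eq_right]
  constructor
  · intro h
    have := mask_inter t s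
    rw [h] at this
    exact this.symm
  · intro h
    apply mask_injective
    rw [mask_inter]
    exact h

theorem disjoint_iff_mask (s t : Finset GolayPt) : Disjoint s t ↔ Nat.beq (Nat.land (mask s) (mask t)) 0 = true := by
  rw [Nat.beq_eq, Finset.disjoint_iff_inter_eq_empty]
  constructor
  · intro h
    have := mask_inter s t
    rw [h, mask_empty] at this
    exact this.symm
  · intro h
    apply mask_injective
    rw [mask_inter, mask_empty]
    exact h

theorem smul_subset_smul_iff' (g : Equiv.Perm GolayPt) (s t : Finset GolayPt) : g • s ⊆ g • t ↔ s ⊆ t :=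
  Finset.smul_finset_subset_smul_finset_iff

theorem smul_disjoint_iff (g : Equiv.Perm GolayPt) (s t : Finset GolayPt) :
    Disjoint (g • s) (g • t) ↔ Disjoint s t := by
  rw [Finset.disjoint_iff_inter_eq_empty, Finset.disjoint_iff_inter_eq_empty, ← Finset.smul_finset_inter,
    Finset.smul_finset_eq_empty]

/-! ### octads through a given set -/

/-- `L` is the list of the octads containing `b` -/
noncomputable def octsChk (b : ℕ) (L : List ℕ) : Bool :=
  and (allBelow (fun j => strict (encF j) fun m =>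
      cond (and (Nat.beq (pcF m) 8) (Nat.beq (Nat.land m b) b)) (L.any (Nat.beq m)) true) 4096)
    (L.all fun o => and (Nat.blt o 16777216) (and (isCodeF o) (and (Nat.beq (pcF o) 8) (Nat.beq (Nat.land o b) b))))

/-- `m` together with the base set lies in an octad of the list -/
noncomputable def inOcts (L : List ℕ) (m : ℕ) : Bool := L.any (fun o => Nat.beq (Nat.land o m) m)

theorem exists_octad_iff {b : ℕ} {L : List ℕ} (h : octsChk b L = true) (hb : b < 2 ^ 24) (U : Finset GolayPt) :
    (∃ o ∈ octads, unmask b ∪ U ⊆ o) ↔ inOcts L (mask U) = true := by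
  rw [octsChk, Bool.and_eq_true] at h
  obtain ⟨h1, h2⟩ := h
  constructor
  · rintro ⟨o, ho, hsub⟩
    rw [mem_octads_iff'] at ho
    have h3 := forall_code_of_check (f := fun m =>
      cond (and (Nat.beq (pcF m) 8) (Nat.beq (Nat.land m b) b)) (L.any (Nat.beq m)) true)
      (by simpa only [strict_eq] using h1) (mask_lt o) ho.1
    have h4 : unmask b ⊆ o := Finset.union_subset_left hsub
    have h5 : U ⊆ o := Finset.union_subset_right hsub
    rw [subset_iff_mask, mask_unmask b hb] at h4
    rw [subset_iff_mask] at h5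
    simp only [ho.2, h4, Bool.and_self, cond_true, List.any_eq_true] at h3
    obtain ⟨x, hx, hxo⟩ := h3
    rw [inOcts, List.any_eq_true]
    refine ⟨x, hx, ?_⟩
    rw [← Nat.eq_of_beq_eq_true hxo]
    exact h5
  · intro hU
    rw [inOcts, List.any_eq_true] at hU
    obtain ⟨o, ho, hoU⟩ := hU
    have h3 := List.all_eq_true.1 h2 o ho
    simp only [Bool.and_eq_true] at h3
    obtain ⟨h4, h5, h6, h7⟩ := h3
    have h4' : o < 2 ^ 24 := by
      have := Nat.blt_eq.mp h4
      omega
    refine ⟨unmask o, ?_, ?_⟩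
    · rw [mem_octads_iff', mask_unmask o h4', ← isCodeF_eq h4']
      exact ⟨h5, h6⟩
    · apply Finset.union_subset
      · rw [subset_iff_mask, mask_unmask o h4', mask_unmask b hb]
        exact h7
      · rw [subset_iff_mask, mask_unmask o h4']
        exact hoU

theorem exists_octad_smul_iff {g : Equiv.Perm GolayPt} (hg : g ∈ M24) (s : Finset GolayPt) :
    (∃ o ∈ octads, g • s ⊆ o) ↔ (∃ o ∈ octads, s ⊆ o) := by
  constructor
  · rintro ⟨o, ho, h⟩
    refine ⟨g⁻¹ • o, smul_mem_octads (M24.inv_mem hg) ho, ?_⟩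
    rw [← smul_subset_smul_iff' g, smul_inv_smul]
    exact h
  · rintro ⟨o, ho, h⟩
    exact ⟨g • o, smul_mem_octads hg ho, (smul_subset_smul_iff' g _ _).2 h⟩

/-- index function for sets of at most two points -/
noncomputable def hsh2 (m : ℕ) : ℕ :=
  strict (Nat.log2 m) fun i => Nat.add (Nat.mul i 24) (Nat.log2 (Nat.xor m (Nat.shiftLeft 1 i)))

end Cfsg.Agent.Lib.Helper10
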