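/-
Elements of M24 as tables: products, fixed points, enumeration of the elements with prescribed images of
five points, and a certificate check for conjugacy into a list of representatives.
-/
import Cfsg.Agent.Lib.Helper10.M24Small
import Cfsg.Agent.Lib.Helper28.GolayDodecad

set_option autoImplicit false

namespace Cfsg.Agent.Lib.Helper10

open Cfsg Cfsg.Agent.Lib.Helper28
open scoped Pointwise

/-! ### tables -/

theorem validTbl_mulTbl {A B : List ℕ} (hA : validTbl A = true) (hB : validTbl B = true) :
    validTbl (mulTbl A B) = true := by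
  have hlA := validTbl_length hA
  have hlB := validTbl_length hB
  simp only [validTbl, Bool.and_eq_true, beq_iff_eq, List.all_eq_true, List.mem_range, List.contains_iff_mem]
  refine ⟨by simp [mulTbl, hlB], ?_⟩
  intro j hj
  obtain ⟨i, hi, hij⟩ := List.getElem_of_mem (validTbl_mem hA hj)
  obtain ⟨k, hk, hki⟩ := List.getElem_of_mem (validTbl_mem hB (hlA ▸ hi))
  rw [mulTbl, List.mem_map]
  exact ⟨i, hki ▸ List.getElem_mem hk, by rw [List.getD_eq_getElem _ _ hi, hij]⟩

theorem permOf_mul {A B : List ℕ} (hA : validTbl A = true) (hB : validTbl B = true) :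
    permOf A * permOf B = permOf (mulTbl A B) :=
  (permOf_mulTbl hA hB (validTbl_mulTbl hA hB)).symm

theorem tbl_ext {A B : List ℕ} (hA : validTbl A = true) (hB : validTbl B = true)
    (h : permOf A = permOf B) : A = B := by
  apply List.ext_getElem (by rw [validTbl_length hA, validTbl_length hB])
  intro i h1 h2
  have hi : i < 24 := validTbl_length hA ▸ h1
  have e1 := idx_permOf hA (pt i)
  have e2 := idx_permOf hB (pt i)
  rw [idx_pt i hi, List.getD_eq_getElem _ _ h1] at e1
  rw [idx_pt i hi, List.getD_eq_getElem _ _ h2] at e2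
  rw [← e1, ← e2, h]

theorem inM24_valid {L : List ℕ} (h : inM24 L = true) : validTbl L = true := by
  simp only [inM24, Bool.and_eq_true] at h
  exact h.1

/-! ### fixed points -/

/-- the set of fixed points -/
def fixF (g : Equiv.Perm GolayPt) : Finset GolayPt := Finset.univ.filter fun p => g p = p

theorem mem_fixF {g : Equiv.Perm GolayPt} {p : GolayPt} : p ∈ fixF g ↔ g p = p := by
  simp [fixF]

theorem fixF_conj (k g : Equiv.Perm GolayPt) : fixF (k * g * k⁻¹) = k • fixF g := by
  ext p
  rw [← Finset.inv_smul_mem_iff, mem_fixF, mem_fixF, Equiv.Perm.smul_def, Equiv.Perm.mul_apply,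
    Equiv.Perm.mul_apply]
  constructor
  · intro h
    rw [← Equiv.Perm.eq_inv_iff_eq] at h
    exact h
  · intro h
    rw [h]; simp

def fixMAux : List ℕ → ℕ → ℕ
  | [], _ => 0
  | a :: L, i => Nat.lor (cond (Nat.beq a i) (Nat.shiftLeft 1 i) 0) (fixMAux L (Nat.succ i))

/-- the mask of the set of fixed points of a table -/
def fixM (L : List ℕ) : ℕ := fixMAux L 0

theorem testBit_fixMAux (L : List ℕ) (i k : ℕ) :
    (fixMAux L i).testBit k = true ↔ ∃ j, j < L.length ∧ k = i + j ∧ L.getD j 0 = k := by
  induction L generalizing i with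
  | nil => simp [fixMAux]
  | cons a L ih =>
    have e : fixMAux (a :: L) i = (cond (Nat.beq a i) (1 <<< i) 0) ||| fixMAux L (i + 1) := rfl
    rw [e, Nat.testBit_or, Bool.or_eq_true, ih]
    constructor
    · rintro (h | ⟨j, hj, hk, hL⟩)
      · cases hai : Nat.beq a i with
        | true =>
          rw [hai, cond_true, Nat.one_shiftLeft, Nat.testBit_two_pow, decide_eq_true_eq] at h
          exact ⟨0, by simp, by omega, by simp [Nat.eq_of_beq_eq_true hai, h]⟩
        | false => rw [hai] at h; simp at h
      · exact ⟨j + 1, by simpa using hj, by omega, by simpa using hL⟩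
    · rintro ⟨j, hj, hk, hL⟩
      cases j with
      | zero =>
        left
        have : a = i := by simpa [hk] using hL
        subst this
        have hb : Nat.beq a a = true := by simp
        rw [hb, cond_true, Nat.one_shiftLeft, Nat.testBit_two_pow, decide_eq_true_eq]
        omega
      | succ j =>
        right
        exact ⟨j, by simpa using hj, by omega, by simpa using hL⟩

theorem fixF_permOf {L : List ℕ} (h : validTbl L = true) : fixF (permOf L) = unmask (fixM L) := by
  ext p
  rw [mem_fixF, mem_unmask, fixM, testBit_fixMAux]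
  constructor
  · intro hp
    refine ⟨idx p, by rw [validTbl_length h]; exact idx_lt p, by omega, ?_⟩
    rw [← idx_permOf h, hp]
  · rintro ⟨j, -, hj, hL⟩
    rw [zero_add] at hj
    subst hj
    apply idx_injective
    rw [idx_permOf h, hL]

/-! ### elements with prescribed images of five points -/

/-- the candidates -/
def candTbl (T : List ℕ) (y z : ℕ) : List ℕ := mulTbl T (mulTbl (trans6.getD y []) (trans7.getD z []))

theorem valid_trans6 {y : ℕ} (hy : y ∈ [5, 14, 17]) : validTbl (trans6.getD y []) = true :=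
  (checkLevel_spec' level6 (by norm_num) (by simp) _ hy).1

theorem valid_trans7 {z : ℕ} (hz : z ∈ tg7) : validTbl (trans7.getD z []) = true :=
  (checkLevel_spec' level7 (by norm_num) (by simp) _ hz).1

theorem valid_candTbl {T : List ℕ} (hT : validTbl T = true) {y z : ℕ} (hy : y ∈ [5, 14, 17]) (hz : z ∈ tg7) :
    validTbl (candTbl T y z) = true :=
  validTbl_mulTbl hT (validTbl_mulTbl (valid_trans6 hy) (valid_trans7 hz))

theorem enum5 {g : Equiv.Perm GolayPt} (hg : g ∈ M24) {T : List ℕ} (hT : inM24 T = true)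
    (h : ∀ f ∈ [23, 0, 1, 2, 3], g (pt f) = permOf T (pt f)) :
    ∃ y ∈ [5, 14, 17], ∃ z ∈ tg7, g = permOf (candTbl T y z) := by
  have h1 : (permOf T)⁻¹ * g ∈ fixG [23, 0, 1, 2, 3] := by
    refine ⟨M24.mul_mem (M24.inv_mem (permOf_mem_M24 hT)) hg, ?_⟩
    intro f hf
    rw [Equiv.Perm.mul_apply, Equiv.Perm.inv_eq_iff_eq]
    exact h f hf
  obtain ⟨y, hy, z, hz, h2⟩ := fixG5_enum h1
  refine ⟨y, hy, z, hz, ?_⟩
  rw [candTbl, ← permOf_mul (inM24_valid hT) (validTbl_mulTbl (valid_trans6 hy) (valid_trans7 hz)),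
    ← permOf_mul (valid_trans6 hy) (valid_trans7 hz), ← h2]
  simp

/-- evaluate a list completely before using it -/
noncomputable def forceL {β : Type} : List ℕ → (List ℕ → β) → β
  | [], k => k []
  | a :: l, k => strict a fun a' => forceL l fun l' => k (a' :: l')

theorem forceL_eq {β : Type} (l : List ℕ) (k : List ℕ → β) : forceL l k = k l := by
  induction l generalizing k with
  | nil => rfl
  | cons a l ih => rw [forceL, strict_eq, ih]

/-- equality of lists of numbers -/
def eqL : List ℕ → List ℕ → Bool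
  | [], [] => true
  | a :: l, b :: m => and (Nat.beq a b) (eqL l m)
  | _, _ => false

theorem eqL_spec : ∀ {l m : List ℕ}, eqL l m = true → l = m
  | [], [], _ => rfl
  | a :: l, b :: m, h => by
    rw [eqL, Bool.and_eq_true] at h
    rw [Nat.eq_of_beq_eq_true h.1, eqL_spec h.2]
  | [], _ :: _, h => by simp [eqL] at h
  | _ :: _, [], h => by simp [eqL] at h

theorem eqL_refl : ∀ l : List ℕ, eqL l l = true
  | [] => rfl
  | a :: l => by rw [eqL, eqL_refl l]; simp

/-- every candidate with the property `P` is conjugate under some `K` to some `Z` -/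
noncomputable def clsChk (P : List ℕ → Bool) (Ts Ks Zs : List (List ℕ)) : Bool :=
  Ts.all fun T => [5, 14, 17].all fun y => tg7.all fun z =>
    forceL (candTbl T y z) fun C =>
      cond (P C) (Ks.any fun K => Zs.any fun Z => eqL (mulTbl K C) (mulTbl Z K)) true

theorem clsChk_spec {P : List ℕ → Bool} {Ts Ks Zs : List (List ℕ)} (h : clsChk P Ts Ks Zs = true)
    (hTs : Ts.all inM24 = true) (hKs : Ks.all inM24 = true) (hZs : Zs.all validTbl = true)
    {g : Equiv.Perm GolayPt} (hg : g ∈ M24) {T : List ℕ} (hT : T ∈ Ts)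
    (hgT : ∀ f ∈ [23, 0, 1, 2, 3], g (pt f) = permOf T (pt f))
    (hP : ∀ C, validTbl C = true → g = permOf C → P C = true) :
    ∃ k ∈ M24, ∃ Z ∈ Zs, k * g * k⁻¹ = permOf Z := by
  rw [List.all_eq_true] at hTs hKs hZs
  obtain ⟨y, hy, z, hz, hgC⟩ := enum5 hg (hTs T hT) hgT
  have hC := valid_candTbl (inM24_valid (hTs T hT)) hy hz
  simp only [clsChk, List.all_eq_true, forceL_eq] at h
  have h1 := h T hT y hy z hz
  rw [hP _ hC hgC, cond_true, List.any_eq_true] at h1
  obtain ⟨K, hK, h2⟩ := h1
  rw [List.any_eq_true] at h2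
  obtain ⟨Z, hZ, h3⟩ := h2
  refine ⟨permOf K, permOf_mem_M24 (hKs K hK), Z, hZ, ?_⟩
  rw [mul_inv_eq_iff_eq_mul, hgC, permOf_mul (inM24_valid (hKs K hK)) hC,
    permOf_mul (hZs Z hZ) (inM24_valid (hKs K hK)), eqL_spec h3]

end Cfsg.Agent.Lib.Helper10
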