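/-
Conjugacy classes of the elements of order 2 and 3 of M24.
-/
import Cfsg.Agent.Lib.Helper10.Elem

set_option autoImplicit false

namespace Cfsg.Agent.Lib.Helper10

open Cfsg Cfsg.Agent.Lib.Helper28
open scoped Pointwise

def zA : List ℕ := [0,1,2,3,6,5,4,22,20,12,11,10,9,19,14,18,21,17,15,13,8,16,7,23]
def zB : List ℕ := [23,2,1,4,3,16,7,6,20,11,18,9,15,17,22,12,5,13,10,21,8,19,14,0]
def uA : List ℕ := [1,23,3,5,9,2,6,10,20,12,22,11,4,18,14,15,16,17,19,13,21,8,7,0]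
def uB : List ℕ := [1,23,3,4,2,20,21,15,10,7,18,13,6,14,11,9,5,19,8,22,16,12,17,0]
def T2s : List (List ℕ) := [
  [23,2,1,3,21,14,18,11,22,15,10,4,16,19,17,20,7,5,13,8,9,12,6,0],
  [23,2,1,4,10,16,12,8,14,21,19,5,17,15,22,7,9,13,3,11,6,18,20,0],
  [23,2,1,5,6,17,12,8,22,20,9,4,16,7,14,15,19,3,13,11,10,18,21,0],
  [23,2,1,6,17,19,18,11,9,4,13,15,20,14,21,16,5,7,10,8,22,12,3,0],
  [23,2,1,7,3,6,10,20,16,18,8,13,22,14,21,12,17,19,4,15,11,9,5,0],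
  [23,2,1,8,6,11,14,5,10,13,16,15,9,7,12,4,19,18,20,17,22,3,21,0],
  [23,2,1,9,16,20,21,6,3,18,8,17,5,4,10,12,13,15,14,19,11,7,22,0],
  [23,2,1,10,11,9,13,16,17,7,21,5,3,12,20,19,8,15,14,4,6,22,18,0],
  [23,2,1,11,15,8,4,22,6,14,5,7,19,10,18,17,20,12,21,13,3,16,9,0],
  [23,2,1,12,13,18,15,9,14,7,19,17,3,4,8,6,22,11,5,10,21,20,16,0],
  [23,2,1,13,11,22,10,20,21,5,17,7,6,12,16,14,8,4,19,15,3,9,18,0],
  [23,2,1,14,11,17,10,9,16,6,7,22,4,8,3,19,18,5,13,20,21,15,12,0],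
  [23,2,1,15,13,20,12,8,19,17,14,7,21,4,9,5,22,10,6,11,3,18,16,0],
  [23,2,1,16,19,22,8,18,10,5,14,9,20,7,4,3,21,13,15,11,17,12,6,0],
  [23,2,1,17,11,5,21,6,10,22,13,9,20,12,3,4,8,14,15,19,16,7,18,0],
  [23,2,1,18,15,11,14,3,13,19,6,16,4,9,8,7,10,12,22,5,21,17,20,0],
  [23,2,1,19,11,21,13,22,20,3,5,9,15,8,6,14,18,7,10,16,17,4,12,0],
  [23,2,1,20,13,15,18,11,7,14,17,19,6,4,10,3,22,9,21,8,5,12,16,0],
  [23,2,1,21,14,6,16,13,18,10,15,11,8,5,19,9,17,7,12,22,20,4,3,0],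
  [23,2,1,22,15,13,18,11,3,21,19,17,5,10,4,7,20,16,14,8,6,12,9,0]]
def K2s : List (List ℕ) := [
  [11,9,12,14,4,23,1,17,21,8,15,13,16,22,3,20,7,0,19,5,18,2,6,10],
  [9,20,8,17,4,14,7,19,10,3,0,18,15,16,2,1,6,23,11,22,5,13,21,12],
  [19,11,10,14,7,2,21,9,5,20,8,3,17,22,1,6,15,0,23,12,4,16,18,13],
  [4,13,19,3,14,2,10,11,15,16,7,18,12,5,17,22,23,0,9,8,21,20,1,6],
  [0,1,2,3,4,5,6,7,8,9,10,11,12,13,14,15,16,17,18,19,20,21,22,23],
  [4,11,9,13,17,6,21,1,10,8,22,15,19,0,23,14,5,16,2,18,20,12,7,3],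
  [18,3,4,19,21,1,23,7,22,9,0,14,15,2,16,6,5,13,12,11,20,8,17,10],
  [11,20,8,6,16,7,12,18,19,22,3,2,1,17,0,4,13,23,21,10,14,15,5,9],
  [3,11,9,22,17,14,19,10,6,21,18,23,16,5,20,1,0,8,13,2,12,15,7,4],
  [4,6,7,14,12,22,8,1,13,11,21,5,15,18,23,20,17,0,10,9,2,19,16,3],
  [12,19,21,2,16,1,11,22,13,3,8,5,23,17,10,14,6,18,7,20,9,4,0,15],
  [1,19,21,11,10,9,6,7,16,3,4,13,5,12,8,22,18,20,17,0,14,23,15,2],
  [4,7,22,20,21,8,23,0,10,5,1,11,9,16,15,17,19,18,12,3,2,14,13,6],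
  [7,4,3,14,19,22,15,13,21,17,12,2,11,1,0,16,9,23,20,10,18,5,8,6],
  [8,13,19,21,2,16,6,10,1,9,7,17,3,5,18,12,0,15,14,4,22,11,23,20],
  [1,15,12,23,4,7,0,13,20,21,10,3,11,9,16,19,8,17,14,6,18,5,22,2],
  [9,10,18,23,20,1,0,7,3,5,14,17,22,12,6,13,15,19,16,21,4,2,8,11],
  [0,16,5,8,18,22,20,14,17,10,1,6,13,21,3,12,2,11,7,4,19,9,15,23],
  [18,3,4,20,19,6,7,8,15,5,2,14,12,16,0,17,13,9,22,11,21,23,1,10],
  [3,9,11,10,16,15,1,18,5,20,22,7,17,23,19,8,6,2,0,21,14,12,13,4],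
  [6,8,20,14,23,10,4,22,5,2,16,1,13,11,3,19,9,12,21,18,17,15,0,7],
  [3,10,18,5,15,17,20,0,16,8,11,13,1,12,2,23,14,21,19,6,7,9,22,4],
  [0,5,16,22,12,8,15,21,14,17,13,9,20,10,3,6,19,11,4,2,7,18,1,23],
  [6,12,15,1,8,4,18,23,2,11,20,22,19,9,14,13,5,21,3,0,16,10,17,7],
  [2,14,22,5,12,20,0,15,3,16,17,19,21,23,13,11,10,9,4,7,8,18,6,1],
  [5,23,0,19,7,10,22,11,9,21,18,4,14,13,12,15,6,1,20,3,2,8,17,16],
  [9,12,15,14,1,4,20,18,21,22,5,6,23,7,17,3,19,16,2,8,13,10,0,11],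
  [4,19,21,7,22,15,9,13,8,12,6,17,16,1,18,23,14,0,11,20,10,5,2,3],
  [16,2,1,11,18,20,21,13,4,23,9,10,15,22,7,6,12,0,14,19,8,17,3,5],
  [20,18,10,19,14,0,13,3,15,2,21,9,11,16,1,23,4,7,12,5,6,22,17,8],
  [23,21,19,3,2,14,12,20,22,10,15,4,17,1,16,11,7,13,5,9,8,18,6,0],
  [21,0,23,13,11,14,12,9,4,2,1,17,5,8,16,6,15,3,22,20,7,18,10,19],
  [13,0,23,20,12,22,5,7,4,19,1,8,14,10,3,15,21,9,11,6,18,16,2,17],
  [23,18,10,14,7,4,13,20,2,8,9,19,22,6,1,17,15,21,3,11,5,16,12,0],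
  [20,7,6,16,3,2,15,22,1,11,9,13,5,14,17,23,10,19,21,4,0,18,12,8],
  [1,7,6,22,11,17,23,19,3,9,20,13,14,8,5,18,10,4,16,21,12,0,15,2],
  [4,21,19,11,13,16,1,2,12,7,18,10,23,9,8,15,20,17,6,22,0,14,5,3],
  [23,8,20,16,2,21,22,4,3,6,11,14,15,5,1,9,19,17,18,10,7,12,13,0],
  [12,4,3,23,6,7,2,21,14,17,19,22,10,0,9,1,8,20,18,16,5,13,11,15],
  [9,20,8,18,19,12,23,6,3,13,5,4,14,2,10,17,21,15,22,7,16,0,1,11],
  [22,15,12,4,20,18,8,11,16,2,21,1,19,0,3,5,6,10,13,23,17,7,9,14],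
  [14,2,1,3,6,21,0,7,8,5,13,17,16,12,4,9,10,19,11,18,20,15,23,22],
  [22,12,9,19,18,20,10,11,0,17,14,23,2,21,13,3,16,8,5,4,1,6,15,7],
  [22,19,13,4,14,21,3,0,10,8,20,15,18,17,6,12,2,16,11,5,9,1,23,7],
  [8,18,10,12,17,11,3,22,19,21,2,0,7,4,15,23,14,9,1,13,6,5,16,20],
  [6,23,0,20,3,11,10,12,1,17,16,19,2,4,8,5,22,9,21,18,13,15,14,7],
  [16,2,1,21,12,13,4,14,11,8,9,7,0,22,19,23,3,17,20,10,6,15,18,5],
  [3,13,17,19,14,6,10,8,18,23,1,11,20,16,0,21,22,2,15,12,7,9,5,4],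
  [12,23,0,13,1,16,18,7,2,5,20,4,14,22,8,17,21,9,19,10,11,6,3,15],
  [4,21,19,20,6,13,0,18,14,16,17,2,1,12,9,8,23,5,22,7,11,15,10,3],
  [3,13,17,1,0,21,20,11,22,8,12,14,16,6,23,10,2,7,5,15,9,18,19,4],
  [19,11,9,13,15,12,8,20,22,0,14,3,23,5,16,4,17,10,7,1,6,2,18,21],
  [13,3,4,2,21,0,18,15,8,22,16,9,12,23,6,5,1,19,10,11,14,20,7,17],
  [11,17,13,8,10,5,4,1,2,23,18,14,21,6,16,12,15,20,3,19,7,22,0,9],
  [19,2,1,3,17,14,12,18,0,9,11,23,7,5,22,8,16,4,6,15,20,10,13,21],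
  [16,10,11,6,23,15,13,12,20,5,17,22,8,3,18,14,2,4,7,9,0,19,1,21],
  [9,13,17,16,19,20,6,15,23,2,3,12,7,4,8,14,1,5,18,10,21,0,22,11],
  [18,11,10,20,19,12,1,3,23,4,21,2,14,7,9,16,13,8,17,0,6,5,22,15],
  [7,3,4,0,18,22,20,21,1,13,15,8,19,17,14,10,12,23,9,2,5,11,16,6],
  [22,4,3,5,7,13,20,8,10,2,21,15,12,6,17,1,23,16,18,9,19,11,0,14],
  [10,17,13,16,0,12,9,19,11,23,22,1,8,3,15,4,7,5,21,2,6,20,14,18],
  [0,1,2,18,5,8,13,4,15,21,19,20,9,17,12,7,14,11,10,22,6,16,3,23],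
  [14,15,12,20,16,6,3,10,7,2,21,11,23,13,0,17,19,9,8,18,5,4,1,22],
  [3,20,8,6,22,23,15,21,16,2,19,13,0,14,17,18,11,5,7,1,12,10,9,4],
  [12,2,1,9,6,4,14,20,10,16,7,21,18,13,22,17,5,8,19,11,23,3,0,15],
  [3,12,15,20,19,9,11,0,16,14,10,2,13,5,23,22,17,7,21,8,18,6,1,4],
  [23,19,21,14,1,13,5,17,18,10,11,9,12,7,3,15,6,16,20,22,8,4,2,0],
  [12,20,8,16,9,22,1,6,0,13,4,2,21,18,3,14,11,17,7,19,5,23,10,15],
  [11,21,19,15,23,18,1,8,14,13,10,6,0,22,17,16,7,5,4,2,12,20,3,9],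
  [1,4,3,9,23,17,0,10,19,13,5,14,22,18,20,8,6,16,21,7,11,12,15,2],
  [6,2,1,15,21,11,9,20,4,14,16,17,22,0,10,3,23,8,5,18,13,12,19,7],
  [10,2,1,16,9,0,13,7,21,20,22,12,19,14,6,11,3,17,15,23,4,5,8,18],
  [5,3,4,6,8,0,2,23,11,14,17,12,20,15,1,22,18,21,10,19,13,7,9,16],
  [7,9,11,19,1,5,23,0,14,22,12,3,15,16,2,10,17,13,18,8,4,20,21,6],
  [6,19,21,13,14,22,9,20,11,23,2,8,12,5,4,1,3,16,18,15,0,10,17,7],
  [8,13,17,7,18,23,22,4,9,3,19,11,5,12,15,1,0,10,16,2,14,21,6,20]]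
def T3s : List (List ℕ) := [
  [1,23,3,4,18,20,13,6,22,17,2,21,15,16,11,5,9,19,12,10,14,8,7,0],
  [1,23,3,5,18,2,13,8,11,15,21,20,19,9,14,12,7,17,4,6,22,10,16,0],
  [1,23,3,6,4,10,7,18,21,5,2,12,15,19,13,14,20,8,22,9,17,16,11,0],
  [1,23,3,7,10,18,5,14,4,12,15,11,19,8,9,21,13,16,20,17,22,2,6,0],
  [1,23,3,8,11,6,22,15,14,7,9,2,17,19,13,16,4,10,5,12,18,21,20,0],
  [1,23,3,9,15,18,5,17,13,4,11,10,8,21,16,19,12,7,6,2,20,14,22,0],
  [1,23,3,10,4,6,16,9,12,2,5,21,22,19,8,17,20,13,15,18,14,7,11,0],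
  [1,23,3,11,12,20,9,7,13,17,5,8,6,21,19,14,22,4,10,18,2,16,15,0],
  [1,23,3,12,18,22,4,20,6,14,17,8,10,9,15,5,7,21,13,11,2,19,16,0],
  [1,23,3,13,18,8,4,11,2,21,22,17,14,16,6,12,9,10,5,19,15,20,7,0],
  [1,23,3,14,22,5,7,18,20,10,13,19,11,12,2,6,21,17,4,9,8,16,15,0],
  [1,23,3,15,2,12,7,18,8,19,4,10,6,5,22,11,17,21,13,9,20,16,14,0],
  [1,23,3,16,4,7,10,8,5,21,12,2,14,19,9,15,20,18,17,13,22,6,11,0],
  [1,23,3,17,15,2,16,9,20,6,8,19,11,21,5,10,12,14,4,18,13,7,22,0],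
  [1,23,3,18,10,9,19,20,15,5,17,21,12,13,7,2,6,16,22,4,14,11,8,0],
  [1,23,3,19,13,11,16,9,5,22,12,17,2,10,20,21,8,4,14,18,15,7,6,0],
  [1,23,3,20,10,4,7,18,14,22,12,2,17,13,19,21,6,11,5,9,15,16,8,0],
  [1,23,3,21,14,15,13,6,11,7,9,4,20,5,22,16,2,12,19,10,18,8,17,0],
  [1,23,3,22,5,15,11,4,7,13,10,18,9,17,12,8,2,21,16,20,6,19,14,0]]
def K3s : List (List ℕ) := [
  [0,1,2,3,4,5,6,7,8,9,10,11,12,13,14,15,16,17,18,19,20,21,22,23],
  [15,9,18,8,10,2,16,12,14,5,20,3,11,1,19,13,17,23,6,22,0,21,4,7],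
  [8,10,12,6,21,1,14,13,11,7,22,20,15,0,4,17,16,5,9,23,2,19,3,18],
  [12,4,13,18,20,19,8,10,14,16,7,22,21,0,15,1,2,6,23,17,5,3,11,9],
  [22,7,12,4,16,9,8,2,1,21,14,5,20,13,6,19,23,11,15,18,0,17,3,10],
  [2,3,7,10,20,22,21,15,4,8,18,19,16,17,11,0,12,14,23,1,6,9,13,5],
  [18,8,0,1,3,19,23,17,15,11,22,2,4,16,20,6,21,7,13,9,14,5,12,10],
  [3,4,21,12,22,13,6,7,9,10,5,23,8,14,15,18,1,16,0,11,17,20,19,2],
  [10,18,14,11,7,22,13,12,17,9,1,4,16,21,0,2,15,6,20,23,3,19,5,8],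
  [21,12,18,8,0,11,17,10,1,15,3,23,16,2,7,20,22,19,13,14,5,9,4,6],
  [0,1,22,17,20,11,14,19,3,13,2,21,12,5,10,4,18,7,15,8,16,9,6,23],
  [23,0,13,14,17,7,21,11,10,16,4,3,8,18,12,22,15,20,6,5,2,9,19,1],
  [1,23,16,5,2,10,18,9,20,11,6,17,8,22,19,15,13,12,21,3,14,7,4,0],
  [22,17,0,1,9,12,3,15,23,8,16,4,5,6,20,10,7,2,21,11,13,14,18,19],
  [8,10,20,16,23,17,11,9,5,7,19,22,3,2,14,0,6,4,13,15,1,12,21,18],
  [18,8,21,12,9,0,7,5,17,6,2,11,13,22,3,23,4,16,1,15,20,14,19,10],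
  [8,10,13,14,7,12,3,22,2,11,1,15,4,9,19,17,6,23,0,5,21,20,16,18],
  [13,14,22,17,9,10,23,18,4,19,8,2,15,0,12,5,16,20,6,3,21,1,7,11],
  [15,9,16,5,2,10,18,12,13,8,20,3,19,0,11,14,6,23,17,21,1,22,4,7],
  [18,8,9,7,23,13,21,19,14,20,15,3,2,5,16,12,0,6,1,4,11,22,17,10],
  [2,3,1,23,5,18,9,17,21,12,0,19,14,8,15,10,11,6,22,16,7,20,13,4],
  [5,20,2,3,12,8,0,7,18,22,17,4,13,19,14,23,9,21,6,11,10,1,15,16],
  [6,21,2,3,19,1,11,9,22,7,16,4,18,14,17,5,13,8,0,23,10,15,20,12],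
  [1,23,5,20,17,22,15,7,10,13,9,16,19,2,6,11,14,18,12,8,21,4,3,0],
  [1,23,21,12,18,3,20,16,7,5,13,2,6,14,15,9,10,22,19,8,11,17,4,0],
  [14,11,2,3,18,21,10,0,15,5,16,22,4,8,17,12,20,9,6,1,23,19,7,13],
  [10,18,4,2,17,0,6,5,23,19,21,7,3,20,13,9,16,15,11,12,22,1,14,8],
  [6,21,3,4,17,10,0,9,18,16,22,5,15,2,23,14,8,19,20,13,11,7,1,12],
  [19,22,18,8,14,11,13,3,0,2,16,6,7,10,20,15,5,23,9,12,4,21,1,17],
  [8,10,16,5,17,2,13,7,22,21,3,23,1,20,19,12,14,11,15,9,0,6,4,18],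
  [7,10,23,0,19,11,3,13,15,20,9,21,4,8,1,18,6,17,2,12,14,16,5,22],
  [21,8,12,4,14,16,15,2,3,17,10,23,11,1,9,5,22,6,13,7,19,0,18,20],
  [13,18,22,7,8,15,3,21,20,9,23,4,0,6,10,16,1,11,14,17,5,12,2,19],
  [8,20,3,5,19,16,4,15,18,23,11,17,7,0,2,13,22,14,9,10,12,1,6,21],
  [16,5,1,23,22,13,18,21,12,11,7,17,14,8,3,0,19,15,6,10,2,9,4,20],
  [21,12,16,5,1,10,14,11,0,4,8,19,15,23,2,20,13,7,17,22,9,3,18,6],
  [5,20,1,23,21,13,17,12,22,7,2,19,4,10,3,0,18,15,8,6,11,14,9,16],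
  [9,7,23,0,22,21,20,12,18,11,5,8,2,13,14,16,1,17,19,3,10,4,6,15],
  [13,14,10,18,3,4,21,7,12,2,0,22,17,15,5,19,8,9,20,23,1,6,16,11],
  [11,13,19,22,6,8,3,12,1,20,23,2,0,18,21,9,17,5,10,4,15,7,16,14],
  [2,3,22,7,15,11,23,6,16,8,19,1,12,4,14,17,0,10,18,21,9,13,20,5],
  [23,0,18,19,21,15,11,12,3,5,20,7,9,4,17,22,10,13,16,2,6,8,14,1],
  [10,22,23,0,13,17,8,5,9,4,15,20,14,3,11,21,16,1,18,6,2,19,12,7],
  [20,21,12,4,5,6,22,1,13,15,2,11,23,17,16,7,10,9,3,18,0,14,19,8],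
  [21,12,19,22,8,5,4,23,0,20,2,15,16,18,1,14,7,9,17,10,13,3,11,6],
  [6,21,7,15,18,4,16,2,0,23,17,3,13,19,14,22,11,1,9,5,20,10,8,12],
  [10,18,2,3,12,9,19,11,15,23,6,0,13,17,1,20,7,14,4,16,21,5,22,8],
  [12,6,8,10,9,22,11,19,1,23,0,17,2,20,13,5,4,15,3,18,14,7,16,21],
  [23,0,19,22,7,8,13,15,4,12,16,11,20,2,9,5,21,14,3,17,10,18,6,1],
  [22,17,1,23,21,6,12,2,10,13,9,5,18,15,16,11,7,3,14,0,4,20,8,19],
  [13,14,20,16,23,1,17,22,18,0,6,2,8,19,21,3,9,4,7,12,5,10,15,11],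
  [18,8,22,17,15,2,5,13,0,21,9,6,14,23,12,4,1,7,11,3,19,20,16,10],
  [0,1,9,7,4,16,14,22,13,10,20,5,21,12,3,2,17,18,11,8,15,19,6,23],
  [4,2,14,11,19,18,23,20,12,7,17,9,5,22,0,8,21,16,6,10,15,13,1,3],
  [20,16,15,9,0,12,17,21,13,18,11,23,3,8,2,22,10,19,1,4,14,7,6,5],
  [14,11,0,1,7,2,4,8,20,12,21,5,3,16,10,18,9,19,6,17,15,23,22,13],
  [15,9,11,13,6,4,19,0,16,20,17,23,10,3,8,2,18,21,5,1,22,12,14,7],
  [6,21,15,9,4,2,10,22,18,19,17,20,3,14,11,0,1,23,5,8,16,13,7,12],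
  [10,18,3,4,14,23,21,12,19,5,22,17,15,9,11,13,1,7,6,16,20,0,2,8]]

theorem cls2_chk : clsChk (fun C => eqL (mulTbl C C) idTbl) T2s K2s [zA, zB] = true := by decide +kernel
theorem cls3_chk : clsChk (fun C => eqL (mulTbl C (mulTbl C C)) idTbl) T3s K3s [uA, uB] = true := by
  decide +kernel
theorem T2s_in : T2s.all inM24 = true := by decide +kernel
theorem K2s_in : K2s.all inM24 = true := by decide +kernel
theorem T3s_in : T3s.all inM24 = true := by decide +kernel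
theorem K3s_in : K3s.all inM24 = true := by decide +kernel
theorem zA_in : inM24 zA = true := by decide +kernel
theorem zB_in : inM24 zB = true := by decide +kernel
theorem uA_in : inM24 uA = true := by decide +kernel
theorem uB_in : inM24 uB = true := by decide +kernel

theorem card_fixF_permOf {L : List ℕ} (h : validTbl L = true) (hlt : fixM L < 2 ^ 24) :
    (fixF (permOf L)).card = pcF (fixM L) := by
  rw [fixF_permOf h, Cfsg.Agent.Lib.Helper10.card_eq_pcF, mask_unmask _ hlt]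

theorem card_fixF_conj (k g : Equiv.Perm GolayPt) : (fixF (k * g * k⁻¹)).card = (fixF g).card := by
  rw [fixF_conj, Finset.card_smul_finset]

theorem fix5_chk : ([5, 14, 17].all fun y => tg7.all fun z =>
    forceL (mulTbl (trans6.getD y []) (trans7.getD z [])) fun C =>
      or (eqL C idTbl) (and (Nat.blt (fixM C) 16777216) (Nat.ble (pcF (fixM C)) 8))) = true := by
  decide +kernel

/-- a nonidentity element of M24 fixes at most 8 points -/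
theorem card_fixF_le {g : Equiv.Perm GolayPt} (hg : g ∈ M24) (h1 : g ≠ 1) : (fixF g).card ≤ 8 := by
  by_contra hc
  push Not at hc
  obtain ⟨x, hx, hxs⟩ := exists_five_in (s := fixF g) (by omega)
  obtain ⟨k, hk, hkx⟩ := M24_five_trans x stdFive hx stdFive_injective
  have h2 : k * g * k⁻¹ ∈ fixG [23, 0, 1, 2, 3] := by
    rw [mem_fixG5_iff]
    refine ⟨M24.mul_mem (M24.mul_mem hk hg) (M24.inv_mem hk), fun i => ?_⟩
    rw [← hkx i]
    simp [mem_fixF.1 (hxs i)]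
  obtain ⟨y, hy, z, hz, h3⟩ := fixG5_enum h2
  rw [permOf_mul (valid_trans6 hy) (valid_trans7 hz)] at h3
  have hv := validTbl_mulTbl (valid_trans6 hy) (valid_trans7 hz)
  have h4 := fix5_chk
  simp only [List.all_eq_true, forceL_eq, Bool.or_eq_true, Bool.and_eq_true] at h4
  rcases h4 y hy z hz with h5 | ⟨h5, h6⟩
  · rw [eqL_spec h5, permOf_idTbl] at h3
    apply h1
    have : g = k⁻¹ * (k * g * k⁻¹) * k := by group
    rw [this, h3]; group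
  · have h7 := card_fixF_permOf hv (Nat.blt_eq.mp h5)
    rw [← h3, card_fixF_conj] at h7
    have := Nat.le_of_ble_eq_true h6
    omega

theorem card_compl_fixF {g : Equiv.Perm GolayPt} (hg : g ∈ M24) (h1 : g ≠ 1) : 16 ≤ (fixF g)ᶜ.card := by
  have := card_fixF_le hg h1
  rw [Finset.card_compl]
  have h24 : Fintype.card GolayPt = 24 := by decide
  omega

theorem conj_apply_of {k g : Equiv.Perm GolayPt} {a b : GolayPt} {p q : GolayPt} (ha : k a = p) (hb : k b = q)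
    (hab : g a = b) : (k * g * k⁻¹) p = q := by
  rw [← ha, ← hb, ← hab]; simp

theorem invol_pattern {g : Equiv.Perm GolayPt} (hg : g ∈ M24) (h2 : orderOf g = 2) :
    ∃ k ∈ M24, (k * g * k⁻¹) (pt 23) = pt 0 ∧ (k * g * k⁻¹) (pt 0) = pt 23 ∧
      (k * g * k⁻¹) (pt 1) = pt 2 ∧ (k * g * k⁻¹) (pt 2) = pt 1 := by
  have hgg : ∀ p, g (g p) = p := by
    intro p
    have := pow_orderOf_eq_one g
    rw [h2, sq] at this
    exact Equiv.Perm.congr_fun this p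
  have h1 : g ≠ 1 := by
    intro h; rw [h, orderOf_one] at h2; omega
  have hM := card_compl_fixF hg h1
  obtain ⟨a, ha⟩ := Finset.card_pos.1 (lt_of_lt_of_le (by norm_num : 0 < 16) hM)
  obtain ⟨c, hc, hc'⟩ := Finset.exists_mem_notMem_of_card_lt_card (s := {a, g a}) (t := (fixF g)ᶜ)
    (lt_of_le_of_lt (Finset.card_le_two) (by omega))
  obtain ⟨e, -, he⟩ := Finset.exists_mem_notMem_of_card_lt_card (s := {a, g a, c, g c}) (t := (fixF g)ᶜ)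
    (lt_of_le_of_lt (Finset.card_le_four) (by omega))
  rw [Finset.mem_compl, mem_fixF] at ha hc
  simp only [Finset.mem_insert, Finset.mem_singleton, not_or] at hc' he
  have hnd : [a, g a, c, g c, e].Nodup := by
    simp only [List.nodup_cons, List.mem_cons, List.not_mem_nil, or_false, not_or, List.nodup_nil, and_true,
      not_false_eq_true]
    refine ⟨⟨fun h => ha h.symm, fun h => hc'.1 h.symm, ?_, fun h => he.1 h.symm⟩,
      ⟨fun h => hc'.2 h.symm, ?_, fun h => he.2.1 h.symm⟩, ⟨fun h => hc h.symm, fun h => he.2.2.1 h.symm⟩,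
      fun h => he.2.2.2 h.symm⟩
    · intro h
      apply hc'.2
      rw [h, hgg]
    · intro h
      exact hc'.1 (g.injective h).symm
  obtain ⟨k, hk, k1, k2, k3, k4, -⟩ := five_to_std hnd
  exact ⟨k, hk, conj_apply_of k1 k2 rfl, conj_apply_of k2 k1 (hgg a), conj_apply_of k3 k4 rfl,
    conj_apply_of k4 k3 (hgg c)⟩

def hasPat (Ts : List (List ℕ)) (a0 a1 a2 a3 y : ℕ) : Bool :=
  Ts.any fun T => and (Nat.beq (T.getD 23 0) a0) (and (Nat.beq (T.getD 0 0) a1) (and (Nat.beq (T.getD 1 0) a2)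
    (and (Nat.beq (T.getD 2 0) a3) (Nat.beq (T.getD 3 0) y))))

theorem hasPat_spec {Ts : List (List ℕ)} {a0 a1 a2 a3 y : ℕ} (h : hasPat Ts a0 a1 a2 a3 y = true) :
    ∃ T ∈ Ts, T.getD 23 0 = a0 ∧ T.getD 0 0 = a1 ∧ T.getD 1 0 = a2 ∧ T.getD 2 0 = a3 ∧ T.getD 3 0 = y := by
  simp only [hasPat, List.any_eq_true, Bool.and_eq_true] at h
  obtain ⟨T, hT, h0, h1, h2, h3, h4⟩ := h
  exact ⟨T, hT, Nat.eq_of_beq_eq_true h0, Nat.eq_of_beq_eq_true h1, Nat.eq_of_beq_eq_true h2,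
    Nat.eq_of_beq_eq_true h3, Nat.eq_of_beq_eq_true h4⟩

theorem T2s_lookup (y : ℕ) (hy : y < 24) (h23 : y ≠ 23) (h0 : y ≠ 0) (h1 : y ≠ 1) (h2 : y ≠ 2) :
    ∃ T ∈ T2s, T.getD 23 0 = 0 ∧ T.getD 0 0 = 23 ∧ T.getD 1 0 = 2 ∧ T.getD 2 0 = 1 ∧ T.getD 3 0 = y := by
  have : ∀ y, y < 24 → (y = 23 ∨ y = 0 ∨ y = 1 ∨ y = 2) ∨ hasPat T2s 0 23 2 1 y = true := by decide +kernel
  rcases this y hy with h | h
  · omega
  · exact hasPat_spec h

theorem T3s_lookup (y : ℕ) (hy : y < 24) (h23 : y ≠ 23) (h0 : y ≠ 0) (h1 : y ≠ 1) (h2 : y ≠ 2) (h3 : y ≠ 3) :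
    ∃ T ∈ T3s, T.getD 23 0 = 0 ∧ T.getD 0 0 = 1 ∧ T.getD 1 0 = 23 ∧ T.getD 2 0 = 3 ∧ T.getD 3 0 = y := by
  have : ∀ y, y < 24 → (y = 23 ∨ y = 0 ∨ y = 1 ∨ y = 2 ∨ y = 3) ∨ hasPat T3s 0 1 23 3 y = true := by
    decide +kernel
  rcases this y hy with h | h
  · omega
  · exact hasPat_spec h

theorem pt_ne {i j : ℕ} (hi : i < 24) (hj : j < 24) (h : i ≠ j) : pt i ≠ pt j := by
  intro he
  apply h
  rw [← idx_pt i hi, he, idx_pt j hj]

theorem agree5 {g : Equiv.Perm GolayPt} {T : List ℕ} (hv : validTbl T = true) {a0 a1 a2 a3 a4 : ℕ}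
    (t0 : T.getD 23 0 = a0) (t1 : T.getD 0 0 = a1) (t2 : T.getD 1 0 = a2) (t3 : T.getD 2 0 = a3)
    (t4 : T.getD 3 0 = a4) (e0 : g (pt 23) = pt a0) (e1 : g (pt 0) = pt a1) (e2 : g (pt 1) = pt a2)
    (e3 : g (pt 2) = pt a3) (e4 : g (pt 3) = pt a4) :
    ∀ f ∈ [23, 0, 1, 2, 3], g (pt f) = permOf T (pt f) := by
  intro f hf
  simp only [List.mem_cons, List.not_mem_nil, or_false] at hf
  rcases hf with rfl | rfl | rfl | rfl | rfl
  · rw [permOf_apply hv, idx_pt _ (by norm_num), t0, e0]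
  · rw [permOf_apply hv, idx_pt _ (by norm_num), t1, e1]
  · rw [permOf_apply hv, idx_pt _ (by norm_num), t2, e2]
  · rw [permOf_apply hv, idx_pt _ (by norm_num), t3, e3]
  · rw [permOf_apply hv, idx_pt _ (by norm_num), t4, e4]

theorem conj_conj (k' k g : Equiv.Perm GolayPt) : k' * (k * g * k⁻¹) * k'⁻¹ = (k' * k) * g * (k' * k)⁻¹ := by
  group

theorem idx_ne_of {g' : Equiv.Perm GolayPt} {i j : ℕ} (hi : i < 24) (h3 : i ≠ 3) (hij : g' (pt i) = pt j) :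
    idx (g' (pt 3)) ≠ j := by
  intro he
  have : g' (pt 3) = g' (pt i) := by rw [hij, ← he, pt_idx]
  exact pt_ne hi (by norm_num) h3 (g'.injective this).symm

theorem invol_class_aux {g' : Equiv.Perm GolayPt} (hg' : g' ∈ M24) (hsq : g' * g' = 1)
    (e0 : g' (pt 23) = pt 0) (e1 : g' (pt 0) = pt 23) (e2 : g' (pt 1) = pt 2) (e3 : g' (pt 2) = pt 1) :
    ∃ k ∈ M24, ∃ Z ∈ [zA, zB], k * g' * k⁻¹ = permOf Z := by
  obtain ⟨T, hT, t0, t1, t2, t3, t4⟩ := T2s_lookup (idx (g' (pt 3))) (idx_lt _)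
    (idx_ne_of (by norm_num) (by norm_num) e1) (idx_ne_of (by norm_num) (by norm_num) e0)
    (idx_ne_of (by norm_num) (by norm_num) e3) (idx_ne_of (by norm_num) (by norm_num) e2)
  have hv : validTbl T = true := inM24_valid (List.all_eq_true.1 T2s_in T hT)
  exact clsChk_spec cls2_chk T2s_in K2s_in (by decide +kernel) hg' hT
    (agree5 hv t0 t1 t2 t3 t4 e0 e1 e2 e3 (pt_idx _).symm) (by
      intro C hC hgC
      have : permOf (mulTbl C C) = permOf idTbl := by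
        rw [← permOf_mul hC hC, ← hgC, hsq, permOf_idTbl]
      rw [tbl_ext (validTbl_mulTbl hC hC) validTbl_idTbl this]
      exact eqL_refl _)

/-- every involution of M24 is conjugate to one of two representatives -/
theorem invol_class {g : Equiv.Perm GolayPt} (hg : g ∈ M24) (h2 : orderOf g = 2) :
    ∃ k ∈ M24, ∃ Z ∈ [zA, zB], k * g * k⁻¹ = permOf Z := by
  obtain ⟨k, hk, e0, e1, e2, e3⟩ := invol_pattern hg h2
  have hg' : k * g * k⁻¹ ∈ M24 := M24.mul_mem (M24.mul_mem hk hg) (M24.inv_mem hk)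
  have hsq : (k * g * k⁻¹) * (k * g * k⁻¹) = 1 := by
    have := pow_orderOf_eq_one g
    rw [h2, sq] at this
    calc (k * g * k⁻¹) * (k * g * k⁻¹) = k * (g * g) * k⁻¹ := by group
      _ = 1 := by rw [this]; group
  obtain ⟨k', hk', Z, hZ, h⟩ := invol_class_aux hg' hsq e0 e1 e2 e3
  exact ⟨k' * k, M24.mul_mem hk' hk, Z, hZ, by rw [← conj_conj, h]⟩

theorem ord3_pattern {g : Equiv.Perm GolayPt} (hg : g ∈ M24) (h3 : orderOf g = 3) :
    ∃ k ∈ M24, (k * g * k⁻¹) (pt 23) = pt 0 ∧ (k * g * k⁻¹) (pt 0) = pt 1 ∧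
      (k * g * k⁻¹) (pt 1) = pt 23 ∧ (k * g * k⁻¹) (pt 2) = pt 3 := by
  have hggg : ∀ p, g (g (g p)) = p := by
    intro p
    have := pow_orderOf_eq_one g
    rw [h3, pow_succ, sq] at this
    exact Equiv.Perm.congr_fun this p
  have h1 : g ≠ 1 := by
    intro h; rw [h, orderOf_one] at h3; omega
  have hM := card_compl_fixF hg h1
  obtain ⟨a, ha⟩ := Finset.card_pos.1 (lt_of_lt_of_le (by norm_num : 0 < 16) hM)
  obtain ⟨c, hc, hc'⟩ := Finset.exists_mem_notMem_of_card_lt_card (s := {a, g a, g (g a)}) (t := (fixF g)ᶜ)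
    (lt_of_le_of_lt (Finset.card_le_three) (by omega))
  rw [Finset.mem_compl, mem_fixF] at ha hc
  simp only [Finset.mem_insert, Finset.mem_singleton, not_or] at hc'
  have hnd : [a, g a, g (g a), c, g c].Nodup := by
    simp only [List.nodup_cons, List.mem_cons, List.not_mem_nil, or_false, not_or, List.nodup_nil, and_true,
      not_false_eq_true]
    refine ⟨⟨fun h => ha h.symm, ?_, fun h => hc'.1 h.symm, ?_⟩,
      ⟨fun h => ha (g.injective h).symm, fun h => hc'.2.1 h.symm, fun h => hc'.1 (g.injective h).symm⟩,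
      ⟨fun h => hc'.2.2 h.symm, fun h => hc'.2.1 (g.injective h).symm⟩, fun h => hc h.symm⟩
    · intro h
      apply ha
      have := hggg a
      rw [← h] at this
      exact this
    · intro h
      apply hc'.2.2
      apply g.injective
      rw [hggg, h]
  obtain ⟨k, hk, k1, k2, k3, k4, k5⟩ := five_to_std hnd
  exact ⟨k, hk, conj_apply_of k1 k2 rfl, conj_apply_of k2 k3 rfl, conj_apply_of k3 k1 (hggg a),
    conj_apply_of k4 k5 rfl⟩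

theorem ord3_class_aux {g' : Equiv.Perm GolayPt} (hg' : g' ∈ M24) (hcu : g' * (g' * g') = 1)
    (e0 : g' (pt 23) = pt 0) (e1 : g' (pt 0) = pt 1) (e2 : g' (pt 1) = pt 23) (e3 : g' (pt 2) = pt 3) :
    ∃ k ∈ M24, ∃ Z ∈ [uA, uB], k * g' * k⁻¹ = permOf Z := by
  have hne3 : idx (g' (pt 3)) ≠ 2 := by
    intro he
    have h1 : g' (pt 3) = pt 2 := by rw [← he, pt_idx]
    have h2 := Equiv.Perm.congr_fun hcu (pt 2)
    rw [Equiv.Perm.mul_apply, Equiv.Perm.mul_apply, e3, h1, e3] at h2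
    exact pt_ne (by norm_num) (by norm_num) (by norm_num : 3 ≠ 2) h2
  obtain ⟨T, hT, t0, t1, t2, t3, t4⟩ := T3s_lookup (idx (g' (pt 3))) (idx_lt _)
    (idx_ne_of (by norm_num) (by norm_num) e2) (idx_ne_of (by norm_num) (by norm_num) e0)
    (idx_ne_of (by norm_num) (by norm_num) e1) hne3 (idx_ne_of (by norm_num) (by norm_num) e3)
  have hv : validTbl T = true := inM24_valid (List.all_eq_true.1 T3s_in T hT)
  exact clsChk_spec cls3_chk T3s_in K3s_in (by decide +kernel) hg' hT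
    (agree5 hv t0 t1 t2 t3 t4 e0 e1 e2 e3 (pt_idx _).symm) (by
      intro C hC hgC
      have : permOf (mulTbl C (mulTbl C C)) = permOf idTbl := by
        rw [← permOf_mul hC (validTbl_mulTbl hC hC), ← permOf_mul hC hC, ← hgC, hcu, permOf_idTbl]
      rw [tbl_ext (validTbl_mulTbl hC (validTbl_mulTbl hC hC)) validTbl_idTbl this]
      exact eqL_refl _)

/-- every element of order 3 of M24 is conjugate to one of two representatives -/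
theorem ord3_class {g : Equiv.Perm GolayPt} (hg : g ∈ M24) (h3 : orderOf g = 3) :
    ∃ k ∈ M24, ∃ Z ∈ [uA, uB], k * g * k⁻¹ = permOf Z := by
  obtain ⟨k, hk, e0, e1, e2, e3⟩ := ord3_pattern hg h3
  have hg' : k * g * k⁻¹ ∈ M24 := M24.mul_mem (M24.mul_mem hk hg) (M24.inv_mem hk)
  have hcu : (k * g * k⁻¹) * ((k * g * k⁻¹) * (k * g * k⁻¹)) = 1 := by
    have := pow_orderOf_eq_one g
    rw [h3, pow_succ, sq] at this
    calc (k * g * k⁻¹) * ((k * g * k⁻¹) * (k * g * k⁻¹)) = k * (g * g * g) * k⁻¹ := by group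
      _ = 1 := by rw [this]; group
  obtain ⟨k', hk', Z, hZ, h⟩ := ord3_class_aux hg' hcu e0 e1 e2 e3
  exact ⟨k' * k, M24.mul_mem hk' hk, Z, hZ, by rw [← conj_conj, h]⟩

/-! ### the representatives -/

theorem fixF_zA : fixF (permOf zA) = stdOctad := by
  rw [fixF_permOf (inM24_valid zA_in)]
  have : fixM zA = 8536111 := by decide +kernel
  rw [this]; rfl

theorem fixF_zB : fixF (permOf zB) = ∅ := by
  rw [fixF_permOf (inM24_valid zB_in)]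
  have : fixM zB = 0 := by decide +kernel
  rw [this]; decide

theorem fixF_uA : fixF (permOf uA) = unmask 247872 := by
  rw [fixF_permOf (inM24_valid uA_in)]
  have : fixM uA = 247872 := by decide +kernel
  rw [this]

theorem fixF_uB : fixF (permOf uB) = ∅ := by
  rw [fixF_permOf (inM24_valid uB_in)]
  have : fixM uB = 0 := by decide +kernel
  rw [this]; decide

theorem card_fixF_zA : (fixF (permOf zA)).card = 8 := by rw [fixF_zA]; decide +kernel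
theorem card_fixF_uA : (fixF (permOf uA)).card = 6 := by rw [fixF_uA]; decide +kernel

theorem fixF_eq_empty_iff {g : Equiv.Perm GolayPt} : fixF g = ∅ ↔ ∀ p, g p ≠ p := by
  rw [Finset.eq_empty_iff_forall_notMem]
  exact forall_congr' fun p => by rw [mem_fixF]

theorem card_fixF_eq_zero_iff {g : Equiv.Perm GolayPt} : (fixF g).card = 0 ↔ ∀ p, g p ≠ p := by
  rw [Finset.card_eq_zero, fixF_eq_empty_iff]

/-- an involution with a fixed point is conjugate to `zA` -/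
theorem invol_classA {g : Equiv.Perm GolayPt} (hg : g ∈ M24) (h2 : orderOf g = 2) (hf : (fixF g).card ≠ 0) :
    ∃ k ∈ M24, k * g * k⁻¹ = permOf zA := by
  obtain ⟨k, hk, Z, hZ, h⟩ := invol_class hg h2
  simp only [List.mem_cons, List.not_mem_nil, or_false] at hZ
  rcases hZ with rfl | rfl
  · exact ⟨k, hk, h⟩
  · exfalso
    apply hf
    rw [← card_fixF_conj k g, h, fixF_zB]; rfl

/-- a fixed-point-free involution is conjugate to `zB` -/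
theorem invol_classB {g : Equiv.Perm GolayPt} (hg : g ∈ M24) (h2 : orderOf g = 2) (hf : (fixF g).card = 0) :
    ∃ k ∈ M24, k * g * k⁻¹ = permOf zB := by
  obtain ⟨k, hk, Z, hZ, h⟩ := invol_class hg h2
  simp only [List.mem_cons, List.not_mem_nil, or_false] at hZ
  rcases hZ with rfl | rfl
  · exfalso
    rw [← card_fixF_conj k g, h, card_fixF_zA] at hf
    omega
  · exact ⟨k, hk, h⟩

theorem ord3_classA {g : Equiv.Perm GolayPt} (hg : g ∈ M24) (h3 : orderOf g = 3) (hf : (fixF g).card ≠ 0) :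
    ∃ k ∈ M24, k * g * k⁻¹ = permOf uA := by
  obtain ⟨k, hk, Z, hZ, h⟩ := ord3_class hg h3
  simp only [List.mem_cons, List.not_mem_nil, or_false] at hZ
  rcases hZ with rfl | rfl
  · exact ⟨k, hk, h⟩
  · exfalso
    apply hf
    rw [← card_fixF_conj k g, h, fixF_uB]; rfl

theorem ord3_classB {g : Equiv.Perm GolayPt} (hg : g ∈ M24) (h3 : orderOf g = 3) (hf : (fixF g).card = 0) :
    ∃ k ∈ M24, k * g * k⁻¹ = permOf uB := by
  obtain ⟨k, hk, Z, hZ, h⟩ := ord3_class hg h3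
  simp only [List.mem_cons, List.not_mem_nil, or_false] at hZ
  rcases hZ with rfl | rfl
  · exfalso
    rw [← card_fixF_conj k g, h, card_fixF_uA] at hf
    omega
  · exact ⟨k, hk, h⟩

theorem orderOf_of_tbl {L : List ℕ} (hv : validTbl L = true) {p : ℕ} (hp : p.Prime) (h1 : eqL L idTbl = false)
    (hpow : (permOf L) ^ p = 1) : orderOf (permOf L) = p := by
  haveI : Fact p.Prime := ⟨hp⟩
  apply orderOf_eq_prime hpow
  intro h
  rw [← permOf_idTbl] at h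
  rw [tbl_ext hv validTbl_idTbl h, eqL_refl] at h1
  exact Bool.noConfusion h1

theorem sq_of_tbl {L : List ℕ} (hv : validTbl L = true) (h : eqL (mulTbl L L) idTbl = true) :
    (permOf L) ^ 2 = 1 := by
  rw [sq, permOf_mul hv hv, eqL_spec h, permOf_idTbl]

theorem cube_of_tbl {L : List ℕ} (hv : validTbl L = true) (h : eqL (mulTbl L (mulTbl L L)) idTbl = true) :
    (permOf L) ^ 3 = 1 := by
  rw [pow_succ', sq, permOf_mul hv hv, permOf_mul hv (validTbl_mulTbl hv hv), eqL_spec h, permOf_idTbl]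

theorem orderOf_zA : orderOf (permOf zA) = 2 :=
  orderOf_of_tbl (inM24_valid zA_in) Nat.prime_two (by decide +kernel) (sq_of_tbl (inM24_valid zA_in) (by decide +kernel))
theorem orderOf_zB : orderOf (permOf zB) = 2 :=
  orderOf_of_tbl (inM24_valid zB_in) Nat.prime_two (by decide +kernel) (sq_of_tbl (inM24_valid zB_in) (by decide +kernel))
theorem orderOf_uA : orderOf (permOf uA) = 3 :=
  orderOf_of_tbl (inM24_valid uA_in) Nat.prime_three (by decide +kernel)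
    (cube_of_tbl (inM24_valid uA_in) (by decide +kernel))
theorem orderOf_uB : orderOf (permOf uB) = 3 :=
  orderOf_of_tbl (inM24_valid uB_in) Nat.prime_three (by decide +kernel)
    (cube_of_tbl (inM24_valid uB_in) (by decide +kernel))

end Cfsg.Agent.Lib.Helper10
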