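/-
A criterion for maximality of a subgroup: the orbit of a point under an overgroup is a union of classes, and its
length divides the length of the whole orbit.
-/
import Mathlib

set_option autoImplicit false

namespace Cfsg.Agent.Lib.Helper10

open MulAction

/-- the length of the orbit of `x` under a subgroup `L` containing the stabiliser of `x` -/
theorem ncard_subgroup_orbit {G α : Type*} [Group G] [MulAction G α] (x : α) (L : Subgroup G) :
    {y : α | ∃ l ∈ L, l • x = y}.ncard = (stabilizer G x).relIndex L := by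
  have h1 : {y : α | ∃ l ∈ L, l • x = y} = orbit L x := by
    ext y
    constructor
    · rintro ⟨l, hl, rfl⟩
      exact ⟨⟨l, hl⟩, rfl⟩
    · rintro ⟨⟨l, hl⟩, rfl⟩
      exact ⟨l, hl, rfl⟩
  have h2 : stabilizer L x = (stabilizer G x).subgroupOf L := by
    ext l
    simp [Subgroup.mem_subgroupOf, mem_stabilizer_iff, Subgroup.smul_def]
  rw [h1, ← index_stabilizer, h2]
  rfl

/-- a finite set is counted by classes -/
theorem ncard_eq_sum_classes {α : Type*} (B : Set α) (hB : B.Finite) (c : α → ℕ) (I : Finset ℕ)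
    (hI : ∀ y ∈ B, c y ∈ I) : B.ncard = ∑ i ∈ I, {y | y ∈ B ∧ c y = i}.ncard := by
  classical
  rw [Set.ncard_eq_toFinset_card B hB, Finset.card_eq_sum_card_fiberwise (f := c) (t := I)]
  · apply Finset.sum_congr rfl
    intro i _
    have hf : {y | y ∈ B ∧ c y = i}.Finite := hB.subset (fun y hy => hy.1)
    rw [Set.ncard_eq_toFinset_card _ hf]
    congr 1
    ext y
    simp
  · intro y hy
    exact hI y (by simpa using hy)

/-- **Maximality criterion.**  `Ω` is the orbit of `x`; the subgroup `H` contains the stabiliser of `x`; two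
points of `Ω` with the same value of `c` are conjugate under `H`, the class of `x` is its `H`-orbit.  If no sum of
class lengths (including the class of `x`) other than the trivial ones divides `|Ω|`, then `H` is maximal. -/
theorem isCoatom_of_classes {G α : Type*} [Group G] [Finite G] [MulAction G α] (H : Subgroup G) (x : α)
    (Ω : Set α) (hΩ : ∀ y, y ∈ Ω ↔ ∃ g : G, g • x = y) (hH0 : stabilizer G x ≤ H)
    (c : α → ℕ) (cl : Finset ℕ) (n : ℕ → ℕ) (hcl : ∀ y ∈ Ω, c y ∈ cl)
    (hn : ∀ i ∈ cl, {y | y ∈ Ω ∧ c y = i}.ncard = n i)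
    (hconj : ∀ y ∈ Ω, ∀ z ∈ Ω, c y = c z → ∃ h ∈ H, h • y = z)
    (hxH : ∀ h ∈ H, c (h • x) = c x)
    (hsum : ∀ I ∈ cl.powerset, c x ∈ I → (∑ i ∈ I, n i) ∣ (∑ i ∈ cl, n i) →
      (∑ i ∈ I, n i) = n (c x) ∨ (∑ i ∈ I, n i) = ∑ i ∈ cl, n i)
    (hne : n (c x) < ∑ i ∈ cl, n i) : IsCoatom H := by
  classical
  have hxΩ : x ∈ Ω := (hΩ x).2 ⟨1, one_smul _ _⟩
  have hΩfin : Ω.Finite := by
    have : Ω = Set.range (fun g : G => g • x) := by
      ext y; rw [hΩ y]; rfl
    rw [this]; exact Set.finite_range _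
  -- the orbit under an overgroup of `H`
  have key : ∀ L : Subgroup G, H ≤ L → ∃ I ∈ cl.powerset, c x ∈ I ∧
      (stabilizer G x).relIndex L = ∑ i ∈ I, n i := by
    intro L hL
    set B : Set α := {y : α | ∃ l ∈ L, l • x = y} with hB
    have hBΩ : B ⊆ Ω := by
      rintro y ⟨l, _, rfl⟩
      exact (hΩ _).2 ⟨l, rfl⟩
    have hxB : x ∈ B := ⟨1, L.one_mem, one_smul _ _⟩
    refine ⟨cl.filter (fun i => ∃ y ∈ B, c y = i), Finset.mem_powerset.2 (Finset.filter_subset _ _), ?_, ?_⟩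
    · exact Finset.mem_filter.2 ⟨hcl x hxΩ, x, hxB, rfl⟩
    · rw [← ncard_subgroup_orbit x L, ← hB,
        ncard_eq_sum_classes B (hΩfin.subset hBΩ) c (cl.filter (fun i => ∃ y ∈ B, c y = i))
          (fun y hy => Finset.mem_filter.2 ⟨hcl y (hBΩ hy), y, hy, rfl⟩)]
      apply Finset.sum_congr rfl
      intro i hi
      obtain ⟨hi1, y, hy, hyi⟩ := Finset.mem_filter.1 hi
      rw [← hn i hi1]
      congr 1
      ext z
      constructor
      · rintro ⟨hz, hzi⟩
        exact ⟨hBΩ hz, hzi⟩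
      · rintro ⟨hz, hzi⟩
        refine ⟨?_, hzi⟩
        obtain ⟨h, hh, hhz⟩ := hconj y (hBΩ hy) z hz (hyi.trans hzi.symm)
        obtain ⟨l, hl, rfl⟩ := hy
        exact ⟨h * l, L.mul_mem (hL hh) hl, by rw [mul_smul, hhz]⟩
  -- the orbit under `H`
  have hH : (stabilizer G x).relIndex H = n (c x) := by
    rw [← ncard_subgroup_orbit x H, ← hn _ (hcl x hxΩ)]
    congr 1
    ext y
    constructor
    · rintro ⟨h, hh, rfl⟩
      exact ⟨(hΩ _).2 ⟨h, rfl⟩, hxH h hh⟩
    · rintro ⟨hy, hyc⟩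
      exact hconj x hxΩ y hy hyc.symm
  -- the whole orbit
  have hG : (stabilizer G x).index = ∑ i ∈ cl, n i := by
    rw [← Subgroup.relIndex_top_right, ← ncard_subgroup_orbit x ⊤]
    have : {y : α | ∃ l ∈ (⊤ : Subgroup G), l • x = y} = Ω := by
      ext y; rw [hΩ y]; simp
    rw [this, ncard_eq_sum_classes Ω hΩfin c cl hcl]
    exact Finset.sum_congr rfl hn
  constructor
  · rintro rfl
    rw [Subgroup.relIndex_top_right, hG] at hH
    omega
  · intro L hL
    obtain ⟨I, hI, hxI, hrel⟩ := key L hL.le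
    have h1 := Subgroup.relIndex_mul_index (hH0.trans hL.le)
    rw [hrel, hG] at h1
    rcases hsum I hI hxI (Dvd.intro _ h1) with h2 | h2
    · exfalso
      have h3 := Subgroup.relIndex_mul_relIndex _ _ _ hH0 hL.le
      rw [hrel, hH, h2] at h3
      have hpos : 0 < n (c x) := by
        rw [← hH]
        exact Nat.pos_of_ne_zero (Subgroup.index_ne_zero_of_finite (H := (stabilizer G x).subgroupOf H))
      have h4 : H.relIndex L = 1 := by
        have : n (c x) * H.relIndex L = n (c x) * 1 := by rw [h3, mul_one]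
        exact Nat.eq_of_mul_eq_mul_left hpos this
      exact absurd (Subgroup.relIndex_eq_one.1 h4) (not_le_of_gt hL)
    · rw [h2] at h1
      have hpos : 0 < ∑ i ∈ cl, n i := by omega
      have h4 : L.index = 1 := by
        have : (∑ i ∈ cl, n i) * L.index = (∑ i ∈ cl, n i) * 1 := by rw [h1, mul_one]
        exact Nat.eq_of_mul_eq_mul_left hpos this
      exact Subgroup.index_eq_one.1 h4

/-- the same criterion with the class of `x` named -/
theorem isCoatom_of_classes' {G α : Type*} [Group G] [Finite G] [MulAction G α] (H : Subgroup G) (x : α)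
    (Ω : Set α) (c : α → ℕ) (cl : Finset ℕ) (n : ℕ → ℕ) (cx : ℕ)
    (hsum : ∀ I ∈ cl.powerset, cx ∈ I → (∑ i ∈ I, n i) ∣ (∑ i ∈ cl, n i) →
      (∑ i ∈ I, n i) = n cx ∨ (∑ i ∈ I, n i) = ∑ i ∈ cl, n i)
    (hne : n cx < ∑ i ∈ cl, n i) (hcx : c x = cx)
    (hΩ : ∀ y, y ∈ Ω ↔ ∃ g : G, g • x = y) (hH0 : stabilizer G x ≤ H)
    (hcl : ∀ y ∈ Ω, c y ∈ cl)
    (hn : ∀ i ∈ cl, {y | y ∈ Ω ∧ c y = i}.ncard = n i)
    (hconj : ∀ y ∈ Ω, ∀ z ∈ Ω, c y = c z → ∃ h ∈ H, h • y = z)
    (hxH : ∀ h ∈ H, c (h • x) = c x) : IsCoatom H := by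
  subst hcx
  exact isCoatom_of_classes H x Ω hΩ hH0 c cl n hcl hn hconj hxH hsum hne

end Cfsg.Agent.Lib.Helper10
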