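/-
Abstract lemmas on orbits described by an invariant, and on forest certificates.
-/
import Mathlib

set_option autoImplicit false

namespace Cfsg.Agent.Lib.Helper10

open MulAction

/-- the orbits of `H` on `Ω` are the fibres of an invariant `I` which separates orbits -/
theorem orbit_eq_class {G α : Type*} [Group G] [MulAction G α] (H : Subgroup G) (Ω : Set α) (I : α → ℕ)
    (hinv : ∀ h ∈ H, ∀ y, I (h • y) = I y) (hΩ : ∀ h ∈ H, ∀ y ∈ Ω, h • y ∈ Ω)
    (hconj : ∀ y ∈ Ω, ∀ z ∈ Ω, I y = I z → ∃ h ∈ H, h • y = z) {X : α} (hX : X ∈ Ω) :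
    orbit ↥H X = {y | y ∈ Ω ∧ I y = I X} := by
  ext y
  constructor
  · rintro ⟨⟨h, hh⟩, rfl⟩
    exact ⟨hΩ h hh X hX, hinv h hh X⟩
  · rintro ⟨hy, hI⟩
    obtain ⟨h, hh, rfl⟩ := hconj X hX y hy hI.symm
    exact ⟨⟨h, hh⟩, rfl⟩

/-- a class of positive length has a member whose orbit it is -/
theorem exists_orbit_eq {G α : Type*} [Group G] [MulAction G α] (H : Subgroup G) (Ω : Set α) (I : α → ℕ)
    (hinv : ∀ h ∈ H, ∀ y, I (h • y) = I y) (hΩ : ∀ h ∈ H, ∀ y ∈ Ω, h • y ∈ Ω)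
    (hconj : ∀ y ∈ Ω, ∀ z ∈ Ω, I y = I z → ∃ h ∈ H, h • y = z) (v n : ℕ) (hn : 0 < n)
    (hc : {y | y ∈ Ω ∧ I y = v}.ncard = n) :
    ∃ X ∈ Ω, orbit ↥H X = {y | y ∈ Ω ∧ I y = v} := by
  have : {y | y ∈ Ω ∧ I y = v}.Nonempty := by
    rw [← Set.ncard_pos (Set.finite_of_ncard_pos (by omega)), hc]; exact hn
  obtain ⟨X, hX, hXv⟩ := this
  exact ⟨X, hX, by rw [orbit_eq_class H Ω I hinv hΩ hconj hX, hXv]⟩

/-- abstract forest certificate -/
theorem forest_spec {G α : Type*} [Group G] [MulAction G α] {K : Subgroup G} (D : ℕ → α) (n : ℕ)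
    (par dep cl rt : ℕ → ℕ)
    (h : ∀ k, k < n → (rt (cl k) = k) ∨
      (par k < n ∧ dep (par k) < dep k ∧ cl (par k) = cl k ∧ ∃ g ∈ K, g • D (par k) = D k)) :
    ∀ k, k < n → ∃ g ∈ K, g • D (rt (cl k)) = D k := by
  have key : ∀ d k, dep k = d → k < n → ∃ g ∈ K, g • D (rt (cl k)) = D k := by
    intro d
    induction d using Nat.strong_induction_on with
    | _ d ih =>
      intro k hd hk
      rcases h k hk with h1 | ⟨h1, h2, h3, g, hg, hgD⟩
      · exact ⟨1, K.one_mem, by rw [h1, one_smul]⟩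
      · obtain ⟨g', hg', hgD'⟩ := ih (dep (par k)) (hd ▸ h2) (par k) rfl h1
        refine ⟨g * g', K.mul_mem hg hg', ?_⟩
        rw [mul_smul, ← h3, hgD', hgD]
  intro k hk
  exact key _ k rfl hk

/-- From a certificate (enumeration `D` of `Ω`, classes `cl`, all members of a class conjugate to its root) and
an invariant `I` taking different values `v i` on the roots: the invariant classifies the orbits. -/
theorem cert_main {G α : Type*} [Group G] [MulAction G α] {K : Subgroup G} (Ω : Set α) (D : ℕ → α) (n : ℕ)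
    (cl rt : ℕ → ℕ) (I : α → ℕ) (v : ℕ → ℕ)
    (hcov : ∀ X ∈ Ω, ∃ k, k < n ∧ D k = X) (hmem : ∀ k, k < n → D k ∈ Ω)
    (hinj : ∀ k, k < n → ∀ l, l < n → D k = D l → k = l)
    (hfor : ∀ k, k < n → ∃ g ∈ K, g • D (rt (cl k)) = D k)
    (hI : ∀ g ∈ K, ∀ X, I (g • X) = I X)
    (hv : ∀ k, k < n → I (D (rt (cl k))) = v (cl k))
    (hsep : ∀ k, k < n → ∀ l, l < n → v (cl k) = v (cl l) → cl k = cl l) :
    (∀ y ∈ Ω, ∀ z ∈ Ω, I y = I z → ∃ g ∈ K, g • y = z) ∧ (∀ y ∈ Ω, ∃ k, k < n ∧ I y = v (cl k)) ∧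
    (∀ k0, k0 < n → {y | y ∈ Ω ∧ I y = v (cl k0)}.ncard
      = ((Finset.range n).filter (fun k => cl k = cl k0)).card) := by
  have hID : ∀ k, k < n → I (D k) = v (cl k) := by
    intro k hk
    obtain ⟨g, hg, hgD⟩ := hfor k hk
    rw [← hgD, hI g hg, hv k hk]
  refine ⟨?_, ?_, ?_⟩
  · intro y hy z hz hyz
    obtain ⟨k, hk, rfl⟩ := hcov y hy
    obtain ⟨l, hl, rfl⟩ := hcov z hz
    rw [hID k hk, hID l hl] at hyz
    have hc := hsep k hk l hl hyz
    obtain ⟨a, ha, haD⟩ := hfor k hk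
    obtain ⟨b, hb, hbD⟩ := hfor l hl
    refine ⟨b * a⁻¹, K.mul_mem hb (K.inv_mem ha), ?_⟩
    rw [← haD, mul_smul, inv_smul_smul, hc, hbD]
  · intro y hy
    obtain ⟨k, hk, rfl⟩ := hcov y hy
    exact ⟨k, hk, hID k hk⟩
  · intro k0 hk0
    have himg : {y | y ∈ Ω ∧ I y = v (cl k0)}
        = D '' (((Finset.range n).filter (fun k => cl k = cl k0) : Finset ℕ) : Set ℕ) := by
      ext y
      simp only [Set.mem_ofPred_eq, Set.mem_image, Finset.coe_filter, Finset.mem_range]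
      constructor
      · rintro ⟨hy, hyv⟩
        obtain ⟨k, hk, rfl⟩ := hcov y hy
        rw [hID k hk] at hyv
        exact ⟨k, ⟨hk, hsep k hk k0 hk0 hyv⟩, rfl⟩
      · rintro ⟨k, ⟨hk, hkc⟩, rfl⟩
        exact ⟨hmem k hk, by rw [hID k hk, hkc]⟩
    rw [himg, Set.InjOn.ncard_image, Set.ncard_coe_finset]
    intro a ha b hb hab
    simp only [Finset.coe_filter, Finset.mem_range, Set.mem_ofPred_eq] at ha hb
    exact hinj a ha.1 b hb.1 hab

end Cfsg.Agent.Lib.Helper10
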