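/-
Systems of subsets of the 24 points given by lists of masks; an invariant of pairs of such systems;
forest certificates with packed data.
-/
import Cfsg.Agent.Lib.Helper10.M24Small
import Cfsg.Agent.Lib.Helper10.OrbitLemmas

set_option autoImplicit false

namespace Cfsg.Agent.Lib.Helper10

open Cfsg Cfsg.Agent.Lib.Helper28
open scoped Pointwise

theorem smul_unmask' (g : Equiv.Perm GolayPt) (m : ℕ) : g • unmask m = unmask (pm g m) := by
  ext p
  rw [mem_unmask, testBit_pm, pt_idx, ← Finset.inv_smul_mem_iff, mem_unmask, Equiv.Perm.smul_def]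
  simp [idx_lt]

/-- the system of the sets with the given masks -/
def decL (l : List ℕ) : Finset (Finset GolayPt) := (l.map unmask).toFinset

theorem mem_decL {l : List ℕ} {t : Finset GolayPt} : t ∈ decL l ↔ ∃ m ∈ l, unmask m = t := by
  simp [decL]

theorem smul_decL (g : Equiv.Perm GolayPt) (l : List ℕ) : g • decL l = decL (l.map (pm g)) := by
  ext t
  rw [Finset.mem_smul_finset, mem_decL]
  constructor
  · rintro ⟨y, hy, rfl⟩
    obtain ⟨m, hm, rfl⟩ := mem_decL.1 hy
    exact ⟨pm g m, List.mem_map.2 ⟨m, hm, rfl⟩, (smul_unmask' g m).symm⟩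
  · rintro ⟨m', hm', rfl⟩
    obtain ⟨m, hm, rfl⟩ := List.mem_map.1 hm'
    exact ⟨unmask m, mem_decL.2 ⟨m, hm, rfl⟩, smul_unmask' g m⟩

/-- the two lists have the same members -/
def sameSet (l1 l2 : List ℕ) : Bool :=
  and (l1.all fun a => l2.any (Nat.beq a)) (l2.all fun a => l1.any (Nat.beq a))

theorem sameSet_spec {l1 l2 : List ℕ} (h : sameSet l1 l2 = true) : decL l1 = decL l2 := by
  rw [sameSet, Bool.and_eq_true, List.all_eq_true, List.all_eq_true] at h
  ext t
  rw [mem_decL, mem_decL]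
  constructor
  · rintro ⟨m, hm, rfl⟩
    obtain ⟨x, hx, hxm⟩ := List.any_eq_true.1 (h.1 m hm)
    exact ⟨x, hx, by rw [Nat.eq_of_beq_eq_true hxm]⟩
  · rintro ⟨m, hm, rfl⟩
    obtain ⟨x, hx, hxm⟩ := List.any_eq_true.1 (h.2 m hm)
    exact ⟨x, hx, by rw [Nat.eq_of_beq_eq_true hxm]⟩

/-- the first `r` entries (of 24 bits) of a packed number -/
def unp : ℕ → ℕ → List ℕ
  | 0, _ => []
  | r + 1, e => Nat.land e 16777215 :: unp r (Nat.shiftRight e 24)

theorem unp_lt (r e : ℕ) : ∀ m ∈ unp r e, m < 2 ^ 24 := by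
  induction r generalizing e with
  | zero => intro m hm; simp [unp] at hm
  | succ r ih =>
    intro m hm
    rw [unp, List.mem_cons] at hm
    rcases hm with rfl | hm
    · have : Nat.land e 16777215 ≤ 16777215 := Nat.and_le_right
      omega
    · exact ih _ m hm

/-! ### the invariant -/

/-- the invariant of a pair of systems of sets: sum of `φ |t ∩ u|` -/
def Inv (φ : ℕ → ℕ) (X Y : Finset (Finset GolayPt)) : ℕ := ∑ t ∈ X, ∑ u ∈ Y, φ (t ∩ u).card

theorem Inv_smul (φ : ℕ → ℕ) (g : Equiv.Perm GolayPt) (X Y : Finset (Finset GolayPt)) :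
    Inv φ (g • X) (g • Y) = Inv φ X Y := by
  unfold Inv
  have hinj : Function.Injective (fun t : Finset GolayPt => g • t) := MulAction.injective g
  have hX : g • X = X.image (fun t => g • t) := rfl
  have hY : g • Y = Y.image (fun t => g • t) := rfl
  rw [hX, hY, Finset.sum_image (fun a _ b _ h => hinj h)]
  apply Finset.sum_congr rfl
  intro t _
  rw [Finset.sum_image (fun a _ b _ h => hinj h)]
  apply Finset.sum_congr rfl
  intro u _
  rw [card_smul_inter]

theorem Inv_smul_of_fix (φ : ℕ → ℕ) {g : Equiv.Perm GolayPt} (X : Finset (Finset GolayPt))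
    {Y : Finset (Finset GolayPt)} (hg : g • Y = Y) : Inv φ (g • X) Y = Inv φ X Y := by
  conv_lhs => rw [← hg]
  exact Inv_smul φ g X Y

/-- strictly increasing list of masks -/
def incrL : List ℕ → Bool
  | [] => true
  | [a] => Nat.blt a 16777216
  | a :: b :: l => and (Nat.blt a b) (incrL (b :: l))

theorem incrL_spec : ∀ {l : List ℕ}, incrL l = true → (∀ m ∈ l, m < 2 ^ 24) ∧ l.Pairwise (· < ·)
  | [], _ => ⟨by simp, List.Pairwise.nil⟩
  | [a], h => by
    have : a < 16777216 := Nat.blt_eq.mp h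
    exact ⟨by intro m hm; simp at hm; omega, List.pairwise_singleton _ _⟩
  | a :: b :: l, h => by
    rw [incrL, Bool.and_eq_true] at h
    obtain ⟨h1, h2⟩ := incrL_spec h.2
    have hab : a < b := Nat.blt_eq.mp h.1
    refine ⟨?_, ?_⟩
    · intro m hm
      rw [List.mem_cons] at hm
      rcases hm with rfl | hm
      · exact lt_trans hab (h1 b (by simp))
      · exact h1 m hm
    · rw [List.pairwise_cons]
      refine ⟨?_, h2⟩
      intro m hm
      rw [List.mem_cons] at hm
      rcases hm with rfl | hm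
      · exact hab
      · exact lt_trans hab ((List.pairwise_cons.1 h2).1 m hm)

theorem unmask_injOn {a b : ℕ} (ha : a < 2 ^ 24) (hb : b < 2 ^ 24) (h : unmask a = unmask b) : a = b := by
  rw [← mask_unmask a ha, ← mask_unmask b hb, h]

theorem sum_decL {l : List ℕ} (h : incrL l = true) (f : Finset GolayPt → ℕ) :
    ∑ t ∈ decL l, f t = (l.map fun m => f (unmask m)).sum := by
  obtain ⟨h1, h2⟩ := incrL_spec h
  have hnd : (l.map unmask).Nodup := by
    rw [List.nodup_map_iff_inj_on (h2.imp (fun h => ne_of_lt h))]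
    intro a ha b hb hab
    exact unmask_injOn (h1 a ha) (h1 b hb) hab
  rw [decL, List.sum_toFinset f hnd, List.map_map]
  rfl

theorem card_decL {l : List ℕ} (h : incrL l = true) : (decL l).card = l.length := by
  have := sum_decL h (fun _ => 1)
  simpa using this

/-- the invariant computed from lists of masks -/
def InvL (φ : ℕ → ℕ) (l1 l2 : List ℕ) : ℕ :=
  (l1.map fun a => (l2.map fun b => φ (pcF (Nat.land a b))).sum).sum

theorem Inv_decL (φ : ℕ → ℕ) {l1 l2 : List ℕ} (h1 : incrL l1 = true) (h2 : incrL l2 = true) :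
    Inv φ (decL l1) (decL l2) = InvL φ l1 l2 := by
  unfold Inv InvL
  rw [sum_decL h1]
  congr 1
  apply List.map_congr_left
  intro a ha
  rw [sum_decL h2]
  congr 1
  apply List.map_congr_left
  intro b hb
  rw [card_inter_eq_pcF, mask_unmask a ((incrL_spec h1).1 a ha), mask_unmask b ((incrL_spec h2).1 b hb)]

/-- two increasing lists with the same system are equal -/
theorem eq_of_decL_eq {l1 l2 : List ℕ} (h1 : incrL l1 = true) (h2 : incrL l2 = true) (h : decL l1 = decL l2) :
    l1 = l2 := by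
  obtain ⟨b1, s1⟩ := incrL_spec h1
  obtain ⟨b2, s2⟩ := incrL_spec h2
  have hmem : ∀ {la lb : List ℕ}, (∀ m ∈ la, m < 2 ^ 24) → (∀ m ∈ lb, m < 2 ^ 24) → decL la = decL lb →
      ∀ m ∈ la, m ∈ lb := by
    intro la lb ba bb hab m hm
    have : unmask m ∈ decL lb := by rw [← hab]; exact mem_decL.2 ⟨m, hm, rfl⟩
    obtain ⟨m', hm', he⟩ := mem_decL.1 this
    rw [← unmask_injOn (bb m' hm') (ba m hm) he]
    exact hm'
  have hperm : l1.Perm l2 := by
    rw [List.perm_ext_iff_of_nodup (s1.imp (fun h => ne_of_lt h)) (s2.imp (fun h => ne_of_lt h))]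
    intro m
    exact ⟨hmem b1 b2 h m, hmem b2 b1 h.symm m⟩
  exact hperm.eq_of_pairwise (fun a b _ _ hab hba => absurd hab (lt_asymm hba)) s1 s2

/-! ### packed forest certificates -/

/-- parent, generator, depth, class of entry `k` (12, 4, 8, 8 bits) -/
def fPar (pg k : ℕ) : ℕ := Nat.land (fld pg 32 4294967295 k) 4095
def fGen (pg k : ℕ) : ℕ := Nat.land (Nat.shiftRight (fld pg 32 4294967295 k) 12) 15
def fDep (pg k : ℕ) : ℕ := Nat.land (Nat.shiftRight (fld pg 32 4294967295 k) 16) 255
def fCl (pg k : ℕ) : ℕ := Nat.shiftRight (fld pg 32 4294967295 k) 24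

/-- the check for entry `k` -/
noncomputable def forStep (gens : List (List ℕ)) (stepOK : List ℕ → ℕ → ℕ → Bool) (rt : ℕ → ℕ) (pg n k : ℕ) : Bool :=
  strict (fPar pg k) fun p =>
    cond (Nat.beq p k) (Nat.beq (rt (fCl pg k)) k)
      (and (Nat.blt p n) (and (Nat.blt (fDep pg p) (fDep pg k)) (and (Nat.beq (fCl pg p) (fCl pg k))
        (and (Nat.blt (fGen pg k) gens.length) (stepOK (gens.getD (fGen pg k) []) p k)))))

noncomputable def forCheck (gens : List (List ℕ)) (stepOK : List ℕ → ℕ → ℕ → Bool) (rt : ℕ → ℕ) (pg n : ℕ) : Bool :=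
  allBelow (forStep gens stepOK rt pg n) n

theorem forCheck_spec {α : Type*} [MulAction (Equiv.Perm GolayPt) α] {K : Subgroup (Equiv.Perm GolayPt)}
    {gens : List (List ℕ)} {stepOK : List ℕ → ℕ → ℕ → Bool} {rt : ℕ → ℕ} {pg n : ℕ} (D : ℕ → α)
    (hg : ∀ L ∈ gens, permOf L ∈ K ∧ ∀ p k, stepOK L p k = true → permOf L • D p = D k)
    (h : forCheck gens stepOK rt pg n = true) :
    ∀ k, k < n → ∃ g ∈ K, g • D (rt (fCl pg k)) = D k := by
  apply forest_spec D n (fPar pg) (fDep pg) (fCl pg) rt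
  intro k hk
  have h1 := allBelow_spec h k hk
  simp only [forStep, strict_eq] at h1
  cases hpk : Nat.beq (fPar pg k) k with
  | true =>
    rw [hpk] at h1
    exact Or.inl (Nat.eq_of_beq_eq_true h1)
  | false =>
    rw [hpk] at h1
    simp only [cond_false, Bool.and_eq_true] at h1
    obtain ⟨h2, h3, h4, h5, h6⟩ := h1
    have h5' := Nat.blt_eq.mp h5
    rw [List.getD_eq_getElem _ _ h5'] at h6
    obtain ⟨hK, hstep⟩ := hg _ (List.getElem_mem h5')
    exact Or.inr ⟨Nat.blt_eq.mp h2, Nat.blt_eq.mp h3, Nat.eq_of_beq_eq_true h4, _, hK, hstep _ _ h6⟩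

end Cfsg.Agent.Lib.Helper10
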