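/-
Orbit data: orbits of a subgroup of the permutation group of the 24 points on a set `Ω`, classified by an invariant.
-/
import Cfsg.Agent.Lib.Helper10.SetSys
import Cfsg.Agent.Lib.Helper10.Primitive

set_option autoImplicit false

namespace Cfsg.Agent.Lib.Helper10

open Cfsg Cfsg.Agent.Lib.Helper28
open scoped Pointwise

/-- the stabiliser of `Y` in M24, as a subgroup of the symmetric group -/
def stabIn {β : Type*} [MulAction (Equiv.Perm GolayPt) β] (Y : β) : Subgroup (Equiv.Perm GolayPt) :=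
  M24 ⊓ MulAction.stabilizer (Equiv.Perm GolayPt) Y

theorem mem_stabIn {β : Type*} [MulAction (Equiv.Perm GolayPt) β] {Y : β} {g : Equiv.Perm GolayPt} :
    g ∈ stabIn Y ↔ g ∈ M24 ∧ g • Y = Y := Iff.rfl

/-- the orbits of `H` on `Ω` are the `r` fibres of `I`, with values `v i` and lengths `cnt i` -/
structure OrbData {α : Type*} [MulAction (Equiv.Perm GolayPt) α] (Ω : Set α) (H : Subgroup (Equiv.Perm GolayPt))
    (I : α → ℕ) (r : ℕ) (v cnt : ℕ → ℕ) : Prop where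
  conj : ∀ y ∈ Ω, ∀ z ∈ Ω, I y = I z → ∃ g ∈ H, g • y = z
  vals : ∀ y ∈ Ω, ∃ i, i < r ∧ I y = v i
  count : ∀ i, i < r → {y | y ∈ Ω ∧ I y = v i}.ncard = cnt i
  inv : ∀ g ∈ H, ∀ y, I (g • y) = I y
  stable : ∀ g ∈ H, ∀ y ∈ Ω, g • y ∈ Ω

/-- orbit data from a certificate -/
theorem OrbData.of_cert {α : Type*} [MulAction (Equiv.Perm GolayPt) α] {K : Subgroup (Equiv.Perm GolayPt)}
    (Ω : Set α) (D : ℕ → α) (n : ℕ) (cl rt : ℕ → ℕ) (I : α → ℕ) (r : ℕ) (v : ℕ → ℕ)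
    (hcov : ∀ X ∈ Ω, ∃ k, k < n ∧ D k = X) (hmem : ∀ k, k < n → D k ∈ Ω)
    (hinj : ∀ k, k < n → ∀ l, l < n → D k = D l → k = l)
    (hfor : ∀ k, k < n → ∃ g ∈ K, g • D (rt (cl k)) = D k)
    (hI : ∀ g ∈ K, ∀ X, I (g • X) = I X) (hst : ∀ g ∈ K, ∀ y ∈ Ω, g • y ∈ Ω)
    (hcl : ∀ k, k < n → cl k < r) (hrt : ∀ i, i < r → rt i < n ∧ cl (rt i) = i)
    (hv : ∀ i, i < r → I (D (rt i)) = v i)
    (hsep : ∀ i, i < r → ∀ j, j < r → v i = v j → i = j) :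
    OrbData Ω K I r v (fun i => countAcc (fun k => Nat.beq (cl k) i) n 0) := by
  obtain ⟨h1, h2, h3⟩ := cert_main (K := K) Ω D n cl rt I v hcov hmem hinj hfor hI
    (fun k hk => hv _ (hcl k hk)) (fun k hk l hl h => hsep _ (hcl k hk) _ (hcl l hl) h)
  refine ⟨h1, ?_, ?_, hI, hst⟩
  · intro y hy
    obtain ⟨k, hk, hk'⟩ := h2 y hy
    exact ⟨cl k, hcl k hk, hk'⟩
  · intro i hi
    obtain ⟨hr1, hr2⟩ := hrt i hi
    have := h3 (rt i) hr1
    rw [hr2] at this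
    rw [this, countAcc_eq, zero_add]
    congr 1
    apply Finset.filter_congr
    intro k _
    rw [Nat.beq_eq]

/-- transport of orbit data by an element `a` preserving `Ω` -/
theorem OrbData.transport {α β : Type*} [MulAction (Equiv.Perm GolayPt) α] [MulAction (Equiv.Perm GolayPt) β]
    {Ω : Set α} {Y0 : β} {I0 : α → ℕ} {r : ℕ} {v cnt : ℕ → ℕ} (h : OrbData Ω (stabIn Y0) I0 r v cnt)
    {a : Equiv.Perm GolayPt} (ha : a ∈ M24) (hΩ : ∀ y, y ∈ Ω ↔ a • y ∈ Ω) {Y : β} (hY : a • Y = Y0)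
    {I : α → ℕ} (hI : ∀ y, I y = I0 (a • y)) : OrbData Ω (stabIn Y) I r v cnt := by
  have hmem : ∀ g ∈ stabIn Y, a * g * a⁻¹ ∈ stabIn Y0 := by
    intro g hg
    obtain ⟨hg1, hg2⟩ := mem_stabIn.1 hg
    refine mem_stabIn.2 ⟨M24.mul_mem (M24.mul_mem ha hg1) (M24.inv_mem ha), ?_⟩
    rw [mul_smul, mul_smul, ← hY, inv_smul_smul, hg2]
  refine ⟨?_, ?_, ?_, ?_, ?_⟩
  · intro y hy z hz hyz
    rw [hI, hI] at hyz
    obtain ⟨g, hg, hgy⟩ := h.conj _ ((hΩ y).1 hy) _ ((hΩ z).1 hz) hyz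
    obtain ⟨hg1, hg2⟩ := mem_stabIn.1 hg
    refine ⟨a⁻¹ * g * a, mem_stabIn.2 ⟨M24.mul_mem (M24.mul_mem (M24.inv_mem ha) hg1) ha, ?_⟩, ?_⟩
    · rw [mul_smul, mul_smul, hY, hg2, ← hY, inv_smul_smul]
    · rw [mul_smul, mul_smul, hgy, inv_smul_smul]
  · intro y hy
    rw [hI]
    exact h.vals _ ((hΩ y).1 hy)
  · intro i hi
    rw [← h.count i hi]
    apply ncard_transport a
    intro y
    simp only [Set.mem_ofPred_eq]
    rw [hI, ← hΩ]
  · intro g hg y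
    rw [hI, hI]
    have := h.inv _ (hmem g hg) (a • y)
    rwa [mul_smul, mul_smul, inv_smul_smul] at this
  · intro g hg y hy
    have := h.stable _ (hmem g hg) _ ((hΩ y).1 hy)
    rw [mul_smul, mul_smul, inv_smul_smul] at this
    exact (hΩ _).2 this

/-- the orbit of the stabiliser (inside the group M24) in terms of permutations -/
theorem orbit_stabilizer_eq {α β : Type*} [MulAction (Equiv.Perm GolayPt) α] [MulAction (Equiv.Perm GolayPt) β]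
    (Y : β) (X : α) :
    MulAction.orbit ↥(MulAction.stabilizer ↥M24 Y) X = {y | ∃ g ∈ stabIn Y, g • X = y} := by
  ext y
  constructor
  · rintro ⟨⟨⟨g, hg⟩, hgY⟩, rfl⟩
    exact ⟨g, mem_stabIn.2 ⟨hg, hgY⟩, rfl⟩
  · rintro ⟨g, hg, rfl⟩
    obtain ⟨hg1, hg2⟩ := mem_stabIn.1 hg
    exact ⟨⟨⟨g, hg1⟩, hg2⟩, rfl⟩

/-- each class of positive length is an orbit of the stabiliser -/
theorem OrbData.exists_orbit {α β : Type*} [MulAction (Equiv.Perm GolayPt) α] [MulAction (Equiv.Perm GolayPt) β]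
    {Ω : Set α} {Y : β} {I : α → ℕ} {r : ℕ} {v cnt : ℕ → ℕ} (h : OrbData Ω (stabIn Y) I r v cnt)
    {i : ℕ} (hi : i < r) (hpos : 0 < cnt i) :
    ∃ X ∈ Ω, MulAction.orbit ↥(MulAction.stabilizer ↥M24 Y) X = {y | y ∈ Ω ∧ I y = v i} ∧
      (MulAction.orbit ↥(MulAction.stabilizer ↥M24 Y) X).ncard = cnt i := by
  have hc := h.count i hi
  have : {y | y ∈ Ω ∧ I y = v i}.Nonempty := by
    rw [← Set.ncard_pos (Set.finite_of_ncard_pos (by omega)), hc]; exact hpos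
  obtain ⟨X, hX, hXv⟩ := this
  have he : MulAction.orbit ↥(MulAction.stabilizer ↥M24 Y) X = {y | y ∈ Ω ∧ I y = v i} := by
    rw [orbit_stabilizer_eq]
    ext y
    constructor
    · rintro ⟨g, hg, rfl⟩
      exact ⟨h.stable g hg X hX, by rw [h.inv g hg, hXv]⟩
    · rintro ⟨hy, hyv⟩
      exact h.conj X hX y hy (hXv.trans hyv.symm)
  exact ⟨X, hX, he, by rw [he, hc]⟩

/-- maximality of the stabiliser from orbit data on the orbit of `Y` itself -/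
theorem OrbData.isCoatom {α : Type*} [MulAction (Equiv.Perm GolayPt) α] {Ω : Set α} {Y : α} {I : α → ℕ} {r : ℕ}
    {v cnt : ℕ → ℕ} (h : OrbData Ω (stabIn Y) I r v cnt)
    (hsep : ∀ i, i < r → ∀ j, j < r → v i = v j → i = j)
    (hΩ : ∀ y, y ∈ Ω ↔ ∃ g ∈ M24, g • Y = y) (i0 : ℕ) (hi0 : i0 < r) (hI : I Y = v i0) (n : ℕ → ℕ)
    (hn : ∀ i, i < r → cnt i = n i)
    (hsum : ∀ J ∈ (Finset.range r).powerset, i0 ∈ J → (∑ i ∈ J, n i) ∣ (∑ i ∈ Finset.range r, n i) →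
      (∑ i ∈ J, n i) = n i0 ∨ (∑ i ∈ J, n i) = ∑ i ∈ Finset.range r, n i)
    (hne : n i0 < ∑ i ∈ Finset.range r, n i) : IsCoatom (MulAction.stabilizer ↥M24 Y) := by
  classical
  let c : α → ℕ := fun y => if hy : ∃ i, i < r ∧ I y = v i then Nat.find hy else r
  have hc : ∀ y i, i < r → I y = v i → c y = i := by
    intro y i hi hyi
    have hy : ∃ i, i < r ∧ I y = v i := ⟨i, hi, hyi⟩
    have h1 : c y = Nat.find hy := dif_pos hy
    obtain ⟨h2, h3⟩ := Nat.find_spec hy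
    rw [h1]
    exact hsep _ h2 _ hi (h3.symm.trans hyi)
  have hc' : ∀ y ∈ Ω, ∀ i, c y = i → I y = v i := by
    intro y hy i hi
    obtain ⟨j, hj, hyj⟩ := h.vals y hy
    rw [← hi, hc y j hj hyj, hyj]
  have hYΩ : Y ∈ Ω := (hΩ Y).2 ⟨1, M24.one_mem, one_smul _ _⟩
  apply isCoatom_of_classes' (MulAction.stabilizer ↥M24 Y) Y Ω c (Finset.range r) n i0 hsum hne (hc Y i0 hi0 hI)
  · intro y
    rw [hΩ y]
    constructor
    · rintro ⟨g, hg, rfl⟩
      exact ⟨⟨g, hg⟩, rfl⟩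
    · rintro ⟨g, rfl⟩
      exact ⟨g, g.2, rfl⟩
  · exact le_refl _
  · intro y hy
    obtain ⟨j, hj, hyj⟩ := h.vals y hy
    rw [hc y j hj hyj]
    exact Finset.mem_range.2 hj
  · intro i hi
    have hi' := Finset.mem_range.1 hi
    rw [← hn i hi', ← h.count i hi']
    congr 1
    ext y
    constructor
    · rintro ⟨hy, hyc⟩
      exact ⟨hy, hc' y hy i hyc⟩
    · rintro ⟨hy, hyc⟩
      exact ⟨hy, hc y i hi' hyc⟩
  · intro y hy z hz hyz
    have h1 := hc' y hy _ rfl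
    have h2 := hc' z hz _ rfl
    obtain ⟨g, hg, hgy⟩ := h.conj y hy z hz (by rw [h1, h2, hyz])
    obtain ⟨hg1, hg2⟩ := mem_stabIn.1 hg
    exact ⟨⟨g, hg1⟩, hg2, hgy⟩
  · intro g hg
    have : g • Y = Y := hg
    rw [this]

end Cfsg.Agent.Lib.Helper10
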