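/-
Orbit data on the sextets from Boolean certificates.
-/
import Cfsg.Agent.Lib.Helper10.OrbData
import Cfsg.Agent.Lib.Helper10.M24SextetArr

set_option autoImplicit false

namespace Cfsg.Agent.Lib.Helper10

open Cfsg Cfsg.Agent.Lib.Helper28
open scoped Pointwise

/-- the weight function of the invariant: the invariant is the histogram of the intersection numbers -/
def phi (k : ℕ) : ℕ := Nat.shiftLeft 1 (Nat.mul 6 k)

/-- test for a table to lie in M24 and to fix the system of sets `decL l0` -/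
noncomputable def inStabL (l0 : List ℕ) (L : List ℕ) : Bool := and (inM24 L) (sameSet (l0.map (pmF L 0)) l0)

theorem validTbl_of_inM24 {L : List ℕ} (h : inM24 L = true) : validTbl L = true := by
  simp only [inM24, Bool.and_eq_true] at h
  exact h.1

theorem inStabL_spec {l0 L : List ℕ} (h : inStabL l0 L = true) :
    validTbl L = true ∧ permOf L ∈ stabIn (decL l0) := by
  rw [inStabL, Bool.and_eq_true] at h
  have hv := validTbl_of_inM24 h.1
  refine ⟨hv, mem_stabIn.2 ⟨permOf_mem_M24 h.1, ?_⟩⟩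
  rw [smul_decL, ← sameSet_spec h.2]
  congr 1
  apply List.map_congr_left
  intro m _
  exact pm_permOf' hv m

theorem gensL_spec {l0 : List ℕ} {gens : List (List ℕ)} (h : gens.all (inStabL l0) = true) :
    ∀ L ∈ gens, validTbl L = true ∧ permOf L ∈ stabIn (decL l0) :=
  fun L hL => inStabL_spec (List.all_eq_true.1 h L hL)

/-- test for a table to lie in M24 and to fix the set `unmask m0` -/
noncomputable def inStab1 (m0 : ℕ) (L : List ℕ) : Bool := and (inM24 L) (Nat.beq (pmF L 0 m0) m0)

theorem inStab1_spec {m0 : ℕ} {L : List ℕ} (h : inStab1 m0 L = true) :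
    validTbl L = true ∧ permOf L ∈ stabIn (unmask m0) := by
  rw [inStab1, Bool.and_eq_true] at h
  have hv := validTbl_of_inM24 h.1
  refine ⟨hv, mem_stabIn.2 ⟨permOf_mem_M24 h.1, ?_⟩⟩
  rw [smul_unmask', pm_permOf' hv, Nat.eq_of_beq_eq_true h.2]

theorem gens1_spec {m0 : ℕ} {gens : List (List ℕ)} (h : gens.all (inStab1 m0) = true) :
    ∀ L ∈ gens, validTbl L = true ∧ permOf L ∈ stabIn (unmask m0) :=
  fun L hL => inStab1_spec (List.all_eq_true.1 h L hL)

/-- the values `v i`, `i < r`, are pairwise different -/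
def sepChk (v : ℕ → ℕ) (r : ℕ) : Bool :=
  allBelow (fun i => allBelow (fun j => or (Nat.beq i j) (not (Nat.beq (v i) (v j)))) r) r

theorem sepChk_spec {v : ℕ → ℕ} {r : ℕ} (h : sepChk v r = true) : ∀ i, i < r → ∀ j, j < r → v i = v j → i = j := by
  intro i hi j hj hij
  have := allBelow_spec (allBelow_spec h i hi) j hj
  rw [Bool.or_eq_true, Bool.not_eq_true', Nat.beq_eq] at this
  rcases this with h1 | h1
  · exact h1
  · rw [hij] at h1
    have : Nat.beq (v j) (v j) = true := by rw [Nat.beq_eq]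
    rw [this] at h1
    exact absurd h1 (by simp)

/-- check of the roots: `rl i` is the list of the tetrads of the root of class `i` -/
noncomputable def sxRootChk (lY : List ℕ) (rt v : ℕ → ℕ) (rl : ℕ → List ℕ) (pg : ℕ) (i : ℕ) : Bool :=
  strict (rt i) fun k => strict (mk24 sxArr k) fun t =>
    and (Nat.blt k 1771) (and (Nat.beq (fCl pg k) i) (and (isSxL (rl i)) (and (Nat.beq (pcF t) 4)
      (and (Nat.beq (synd t) (synd ((rl i).headD 0))) (Nat.beq (InvL phi (rl i) lY) (v i))))))

theorem smul_mem_sextets_iff {g : Equiv.Perm GolayPt} (hg : g ∈ M24) (S : Finset (Finset GolayPt)) :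
    S ∈ sextets ↔ g • S ∈ sextets := by
  refine ⟨smul_mem_sextets hg, fun h => ?_⟩
  have := smul_mem_sextets (M24.inv_mem hg) h
  rwa [inv_smul_smul] at this

/-- orbit data on the sextets from a certificate -/
theorem sextet_orbData {β : Type*} [MulAction (Equiv.Perm GolayPt) β] (Y0 : β) (lY : List ℕ)
    (hY : ∀ g ∈ stabIn Y0, g • decL lY = decL lY) (hlY : incrL lY = true) {gens : List (List ℕ)}
    (hgens : ∀ L ∈ gens, validTbl L = true ∧ permOf L ∈ stabIn Y0) {rt v : ℕ → ℕ} {rl : ℕ → List ℕ} {pg r : ℕ}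
    (h1 : forCheck gens sxStep rt pg 1771 = true)
    (h2 : allBelow (fun k => Nat.blt (fCl pg k) r) 1771 = true)
    (h3 : allBelow (sxRootChk lY rt v rl pg) r = true) (h4 : sepChk v r = true) :
    OrbData sextets (stabIn Y0) (fun X => Inv phi X (decL lY)) r v
      (fun i => countAcc (fun k => Nat.beq (fCl pg k) i) 1771 0) := by
  have h3' : ∀ i, i < r → rt i < 1771 ∧ fCl pg (rt i) = i ∧ Inv phi (Dsx (rt i)) (decL lY) = v i := by
    intro i hi
    have := allBelow_spec h3 i hi
    simp only [sxRootChk, strict_eq, Bool.and_eq_true] at this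
    obtain ⟨a1, a2, a3, a4, a5, a6⟩ := this
    refine ⟨Nat.blt_eq.mp a1, Nat.eq_of_beq_eq_true a2, ?_⟩
    have hl : incrL (rl i) = true := by
      rw [isSxL, Bool.and_eq_true] at a3
      exact a3.1
    rw [Dsx, decL_eq_sxt a3 (mk24_lt _ _) a4 a5, Inv_decL phi hl hlY]
    exact Nat.eq_of_beq_eq_true a6
  apply OrbData.of_cert sextets Dsx 1771 (fCl pg) rt _ r v
  · intro X hX; exact Dsx_cov hX
  · intro k hk; exact Dsx_mem hk
  · intro k hk l hl h; exact Dsx_inj hk hl h
  · apply forCheck_spec Dsx _ h1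
    intro L hL
    obtain ⟨hv, hK⟩ := hgens L hL
    exact ⟨hK, fun p k h => sxStep_spec hv (mem_stabIn.1 hK).1 h⟩
  · intro g hg X
    exact Inv_smul_of_fix phi X (hY g hg)
  · intro g hg y hy
    exact smul_mem_sextets (mem_stabIn.1 hg).1 hy
  · intro k hk
    exact Nat.blt_eq.mp (allBelow_spec h2 k hk)
  · intro i hi
    exact ⟨(h3' i hi).1, (h3' i hi).2.1⟩
  · intro i hi
    exact (h3' i hi).2.2
  · exact sepChk_spec h4

end Cfsg.Agent.Lib.Helper10
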