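/-
Counting the octads, dodecads, trios and sextets fixed by an element of M24 given by a table.
-/
import Cfsg.Agent.Lib.Helper10.ElemCls
import Cfsg.Agent.Lib.Helper10.TrioArr
import Cfsg.Agent.Lib.Helper10.SextetOrb

set_option autoImplicit false

namespace Cfsg.Agent.Lib.Helper10

open Cfsg Cfsg.Agent.Lib.Helper28
open scoped Pointwise

theorem ncard_fix_conj {α : Type*} [MulAction (Equiv.Perm GolayPt) α] (Ω : Set α) (k g : Equiv.Perm GolayPt)
    (hk : ∀ X, X ∈ Ω ↔ k • X ∈ Ω) :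
    {X | X ∈ Ω ∧ g • X = X}.ncard = {X | X ∈ Ω ∧ (k * g * k⁻¹) • X = X}.ncard := by
  apply ncard_transport k
  intro X
  simp only [Set.mem_ofPred_eq]
  rw [← hk X, mul_smul, mul_smul, inv_smul_smul, smul_left_cancel_iff]

theorem ncard_enum {α : Type*} (Ω : Set α) (D : ℕ → α) (n : ℕ) (cov : ∀ X ∈ Ω, ∃ k, k < n ∧ D k = X)
    (mem : ∀ k, k < n → D k ∈ Ω) (inj : ∀ k, k < n → ∀ l, l < n → D k = D l → k = l) (P : α → Prop)
    (f : ℕ → Bool) (hf : ∀ k, k < n → (f k = true ↔ P (D k))) :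
    {X | X ∈ Ω ∧ P X}.ncard = countAcc f n 0 := by
  rw [countAcc_eq, zero_add]
  have himg : {X | X ∈ Ω ∧ P X} = D '' (((Finset.range n).filter (fun k => f k = true) : Finset ℕ) : Set ℕ) := by
    ext X
    simp only [Set.mem_ofPred_eq, Set.mem_image, Finset.coe_filter, Finset.mem_range]
    constructor
    · rintro ⟨h1, h2⟩
      obtain ⟨k, hk, rfl⟩ := cov X h1
      exact ⟨k, ⟨hk, (hf k hk).2 h2⟩, rfl⟩
    · rintro ⟨k, ⟨hk, h2⟩, rfl⟩
      exact ⟨mem k hk, (hf k hk).1 h2⟩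
  rw [himg, Set.InjOn.ncard_image, Set.ncard_coe_finset]
  intro a ha b hb hab
  simp only [Finset.coe_filter, Finset.mem_range, Set.mem_ofPred_eq] at ha hb
  exact inj a ha.1 b hb.1 hab

theorem smul_eq_iff_mask {Z : List ℕ} (hv : validTbl Z = true) (s : Finset GolayPt) :
    permOf Z • s = s ↔ Nat.beq (pmF Z 0 (mask s)) (mask s) = true := by
  rw [Nat.beq_eq, ← pm_permOf' hv, ← mask_smul, mask_injective.eq_iff]

/-- codewords of weight `w` fixed by a table -/
noncomputable def fixW (Z : List ℕ) (w : ℕ) (m : ℕ) : Bool := and (Nat.beq (pcF m) w) (Nat.beq (pmF Z 0 m) m)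

theorem ncard_fix_octads {Z : List ℕ} (hv : validTbl Z = true) :
    {o : Finset GolayPt | o ∈ octads ∧ permOf Z • o = o}.ncard = countAcc (fun j => fixW Z 8 (encF j)) 4096 0 := by
  rw [← ncard_code_eq]
  congr 1
  ext o
  simp only [Set.mem_ofPred_eq]
  rw [mem_octads_iff', smul_eq_iff_mask hv, fixW, Bool.and_eq_true, and_assoc]

theorem ncard_fix_dodecads {Z : List ℕ} (hv : validTbl Z = true) :
    {o : Finset GolayPt | o ∈ dodecads ∧ permOf Z • o = o}.ncard = countAcc (fun j => fixW Z 12 (encF j)) 4096 0 := by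
  rw [← ncard_code_eq]
  congr 1
  ext o
  simp only [Set.mem_ofPred_eq]
  rw [mem_dodecads_iff', smul_eq_iff_mask hv, fixW, Bool.and_eq_true, and_assoc]

theorem sameSet_of_decL_eq {l1 l2 : List ℕ} (b1 : ∀ m ∈ l1, m < 2 ^ 24) (b2 : ∀ m ∈ l2, m < 2 ^ 24)
    (h : decL l1 = decL l2) : sameSet l1 l2 = true := by
  have hmem : ∀ {la lb : List ℕ}, (∀ m ∈ la, m < 2 ^ 24) → (∀ m ∈ lb, m < 2 ^ 24) → decL la = decL lb →
      ∀ m ∈ la, m ∈ lb := by
    intro la lb ba bb hab m hm
    have : unmask m ∈ decL lb := by rw [← hab]; exact mem_decL.2 ⟨m, hm, rfl⟩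
    obtain ⟨m', hm', he⟩ := mem_decL.1 this
    rw [← unmask_injOn (bb m' hm') (ba m hm) he]
    exact hm'
  rw [sameSet, Bool.and_eq_true, List.all_eq_true, List.all_eq_true]
  constructor
  · intro a ha
    rw [List.any_eq_true]
    exact ⟨a, hmem b1 b2 h a ha, by simp⟩
  · intro a ha
    rw [List.any_eq_true]
    exact ⟨a, hmem b2 b1 h.symm a ha, by simp⟩

theorem trStep_iff {L : List ℕ} (hv : validTbl L = true) {p k : ℕ} (hk : k < 3795) :
    trStep L p k = true ↔ permOf L • Dtr p = Dtr k := by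
  refine ⟨trStep_spec hv, fun h => ?_⟩
  unfold Dtr at h
  rw [smul_decL] at h
  have e : (trL p).map (pm (permOf L)) = (trL p).map (pmF L 0) := by
    apply List.map_congr_left
    intro m _
    exact pm_permOf' hv m
  rw [e] at h
  apply sameSet_of_decL_eq _ (incrL_spec (trL_incr hk)).1 h
  intro m hm
  obtain ⟨m', -, rfl⟩ := List.mem_map.1 hm
  rw [← pm_permOf' hv]
  exact pm_lt _ _

theorem ncard_fix_trios {Z : List ℕ} (hv : validTbl Z = true) :
    {T : Finset (Finset GolayPt) | T ∈ trios ∧ permOf Z • T = T}.ncard = countAcc (fun k => trStep Z k k) 3795 0 :=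
  ncard_enum trios Dtr 3795 (fun _ h => Dtr_cov h) (fun _ h => Dtr_mem h) (fun _ hk _ hl h => Dtr_inj hk hl h)
    (fun T => permOf Z • T = T) _ (fun _ hk => trStep_iff hv hk)

theorem sxStep_iff {L : List ℕ} (hv : validTbl L = true) (hL : permOf L ∈ M24) {p k : ℕ} (hk : k < 1771) :
    sxStep L p k = true ↔ permOf L • Dsx p = Dsx k := by
  refine ⟨sxStep_spec hv hL, fun h => ?_⟩
  unfold Dsx at h
  rw [smul_sxt hL, smul_unmask', pm_permOf' hv] at h
  have hlt : pmF L 0 (mk24 sxArr p) < 2 ^ 24 := by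
    rw [← pm_permOf' hv]
    exact pm_lt _ _
  have := synd_eq_of_sxt (mk24_lt _ _) hlt (sxArr_card hk) h.symm
  rw [sxStep, this]
  simp

theorem ncard_fix_sextets {Z : List ℕ} (hZ : inM24 Z = true) :
    {S : Finset (Finset GolayPt) | S ∈ sextets ∧ permOf Z • S = S}.ncard = countAcc (fun k => sxStep Z k k) 1771 0 :=
  ncard_enum sextets Dsx 1771 (fun _ h => Dsx_cov h) (fun _ h => Dsx_mem h) (fun _ hk _ hl h => Dsx_inj hk hl h)
    (fun T => permOf Z • T = T) _ (fun _ hk => sxStep_iff (inM24_valid hZ) (permOf_mem_M24 hZ) hk)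

/-- the numbers of fixed octads, dodecads, trios, sextets are class functions -/
theorem ncard_fix_octads_of_conj {g k : Equiv.Perm GolayPt} (hk : k ∈ M24) {Z : List ℕ} (hZ : inM24 Z = true)
    (h : k * g * k⁻¹ = permOf Z) :
    {o : Finset GolayPt | o ∈ octads ∧ g • o = o}.ncard = countAcc (fun j => fixW Z 8 (encF j)) 4096 0 := by
  rw [← ncard_fix_octads (inM24_valid hZ), ← h]
  exact ncard_fix_conj octads k g (fun X => (smul_mem_octads_iff hk X).symm)

theorem ncard_fix_dodecads_of_conj {g k : Equiv.Perm GolayPt} (hk : k ∈ M24) {Z : List ℕ} (hZ : inM24 Z = true)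
    (h : k * g * k⁻¹ = permOf Z) :
    {o : Finset GolayPt | o ∈ dodecads ∧ g • o = o}.ncard = countAcc (fun j => fixW Z 12 (encF j)) 4096 0 := by
  rw [← ncard_fix_dodecads (inM24_valid hZ), ← h]
  exact ncard_fix_conj dodecads k g (fun X => (smul_mem_dodecads_iff hk X).symm)

theorem ncard_fix_trios_of_conj {g k : Equiv.Perm GolayPt} (hk : k ∈ M24) {Z : List ℕ} (hZ : inM24 Z = true)
    (h : k * g * k⁻¹ = permOf Z) :
    {T : Finset (Finset GolayPt) | T ∈ trios ∧ g • T = T}.ncard = countAcc (fun k => trStep Z k k) 3795 0 := by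
  rw [← ncard_fix_trios (inM24_valid hZ), ← h]
  exact ncard_fix_conj trios k g (fun X => smul_mem_trios_iff hk X)

theorem ncard_fix_sextets_of_conj {g k : Equiv.Perm GolayPt} (hk : k ∈ M24) {Z : List ℕ} (hZ : inM24 Z = true)
    (h : k * g * k⁻¹ = permOf Z) :
    {S : Finset (Finset GolayPt) | S ∈ sextets ∧ g • S = S}.ncard = countAcc (fun k => sxStep Z k k) 1771 0 := by
  rw [← ncard_fix_sextets hZ, ← h]
  exact ncard_fix_conj sextets k g (fun X => smul_mem_sextets_iff hk X)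

end Cfsg.Agent.Lib.Helper10
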