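/-
Subgroups of M24 listed by tables: orders, orbit-stabiliser steps, centralisers.
-/
import Cfsg.Agent.Lib.Helper10.ElemCls

set_option autoImplicit false

namespace Cfsg.Agent.Lib.Helper10

open Cfsg Cfsg.Agent.Lib.Helper28
open scoped Pointwise

/-- the 48 elements of M24 fixing the points 23, 0, 1, 2, 3 -/
def U48 : List (List ℕ) := [
  [0,1,2,3,4,5,6,7,8,9,10,11,12,13,14,15,16,17,18,19,20,21,22,23],
  [0,1,2,3,6,5,4,22,20,12,11,10,9,19,14,18,21,17,15,13,8,16,7,23],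
  [0,1,2,3,7,5,22,4,15,11,12,9,10,21,14,8,19,17,20,16,18,13,6,23],
  [0,1,2,3,8,5,20,15,4,21,19,13,16,11,14,7,12,17,22,10,6,9,18,23],
  [0,1,2,3,9,5,12,11,21,4,22,7,6,15,14,13,20,17,19,18,16,8,10,23],
  [0,1,2,3,10,5,11,12,19,22,4,6,7,20,14,16,15,17,21,8,13,18,9,23],
  [0,1,2,3,11,5,10,9,13,7,6,4,22,8,14,21,18,17,16,20,19,15,12,23],
  [0,1,2,3,12,5,9,10,16,6,7,22,4,18,14,19,8,17,13,15,21,20,11,23],
  [0,1,2,3,13,5,19,21,11,15,20,8,18,4,14,9,22,17,12,6,10,7,16,23],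
  [0,1,2,3,15,5,18,8,7,13,16,21,19,9,14,4,10,17,6,12,22,11,20,23],
  [0,1,2,3,16,5,21,19,12,20,15,18,8,22,14,10,4,17,11,7,9,6,13,23],
  [0,1,2,3,18,5,15,20,22,19,21,16,13,12,14,6,11,17,4,9,7,10,8,23],
  [0,1,2,3,19,5,13,16,10,18,8,20,15,6,14,12,7,17,9,4,11,22,21,23],
  [0,1,2,3,20,5,8,18,6,16,13,19,21,10,14,22,9,17,7,11,4,12,15,23],
  [0,1,2,3,21,5,16,13,9,8,18,15,20,7,14,11,6,17,10,22,12,4,19,23],
  [0,1,2,3,22,5,7,6,18,10,9,12,11,16,14,20,13,17,8,21,15,19,4,23],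
  [0,1,2,3,21,14,11,18,4,9,20,22,13,19,17,10,7,5,16,12,15,8,6,23],
  [0,1,2,3,11,14,21,6,15,13,22,20,9,12,17,16,8,5,10,19,4,7,18,23],
  [0,1,2,3,18,14,6,21,10,22,13,9,20,8,17,4,12,5,15,7,16,19,11,23],
  [0,1,2,3,4,14,15,10,21,8,12,19,7,22,17,18,13,5,6,20,11,9,16,23],
  [0,1,2,3,9,14,13,22,8,21,6,18,11,10,17,19,15,5,12,16,7,4,20,23],
  [0,1,2,3,20,14,22,13,12,6,21,11,18,15,17,7,10,5,8,4,19,16,9,23],
  [0,1,2,3,22,14,20,9,19,18,11,21,6,4,17,8,16,5,7,15,12,10,13,23],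
  [0,1,2,3,13,14,9,20,7,11,18,6,21,16,17,12,4,5,19,10,8,15,22,23],
  [0,1,2,3,19,14,12,8,22,10,15,4,16,21,17,9,6,5,13,11,20,18,7,23],
  [0,1,2,3,10,14,16,4,18,19,7,8,12,9,17,21,20,5,11,13,6,22,15,23],
  [0,1,2,3,7,14,8,12,13,15,10,16,4,6,17,20,21,5,22,18,9,11,19,23],
  [0,1,2,3,16,14,10,15,6,12,8,7,19,13,17,11,22,5,21,9,18,20,4,23],
  [0,1,2,3,12,14,19,7,20,16,4,15,10,11,17,13,18,5,9,21,22,6,8,23],
  [0,1,2,3,15,14,4,16,11,7,19,12,8,20,17,6,9,5,18,22,21,13,10,23],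
  [0,1,2,3,8,14,7,19,9,4,16,10,15,18,17,22,11,5,20,6,13,21,12,23],
  [0,1,2,3,6,14,18,11,16,20,9,13,22,7,17,15,19,5,4,8,10,12,21,23],
  [0,1,2,3,8,17,22,16,21,9,15,6,19,12,5,20,18,14,7,13,10,4,11,23],
  [0,1,2,3,22,17,8,11,10,19,6,15,9,13,5,7,4,14,20,12,21,18,16,23],
  [0,1,2,3,16,17,11,8,20,6,19,9,15,4,5,21,13,14,10,18,7,12,22,23],
  [0,1,2,3,21,17,10,20,8,4,13,12,18,6,5,16,19,14,11,15,22,9,7,23],
  [0,1,2,3,9,17,19,6,4,8,11,16,22,20,5,12,10,14,13,7,18,21,15,23],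
  [0,1,2,3,15,17,6,19,13,11,8,22,16,10,5,18,20,14,4,21,12,7,9,23],
  [0,1,2,3,6,17,15,9,12,16,22,8,11,21,5,4,7,14,18,10,13,20,19,23],
  [0,1,2,3,19,17,9,15,18,22,16,11,8,7,5,13,21,14,12,20,4,10,6,23],
  [0,1,2,3,12,17,13,4,6,20,10,21,7,8,5,9,11,14,19,22,15,16,18,23],
  [0,1,2,3,20,17,7,21,16,12,18,4,13,9,5,8,15,14,22,19,11,6,10,23],
  [0,1,2,3,18,17,4,13,19,10,20,7,21,11,5,15,8,14,6,16,9,22,12,23],
  [0,1,2,3,7,17,20,10,11,13,4,18,12,19,5,22,6,14,8,9,16,15,21,23],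
  [0,1,2,3,13,17,12,18,15,7,21,10,20,22,5,19,16,14,9,8,6,11,4,23],
  [0,1,2,3,10,17,21,7,22,18,12,13,4,15,5,11,9,14,16,6,8,19,20,23],
  [0,1,2,3,4,17,18,12,9,21,7,20,10,16,5,6,22,14,15,11,19,8,13,23],
  [0,1,2,3,11,17,16,22,7,15,9,19,6,18,5,10,12,14,21,4,20,13,8,23]]

theorem U48_chk : ([5, 14, 17].all fun y => tg7.all fun z =>
    U48.any (eqL (mulTbl (trans6.getD y []) (trans7.getD z [])))) = true := by decide +kernel

theorem U48_in : U48.all inM24 = true := by decide +kernel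

theorem enum5' {g : Equiv.Perm GolayPt} (hg : g ∈ M24) {T : List ℕ} (hT : inM24 T = true)
    (h : ∀ f ∈ [23, 0, 1, 2, 3], g (pt f) = permOf T (pt f)) : ∃ U ∈ U48, g = permOf (mulTbl T U) := by
  obtain ⟨y, hy, z, hz, hg'⟩ := enum5 hg hT h
  have h1 := U48_chk
  simp only [List.all_eq_true, List.any_eq_true] at h1
  obtain ⟨U, hU, hUe⟩ := h1 y hy z hz
  refine ⟨U, hU, ?_⟩
  rw [hg', candTbl, eqL_spec hUe]

theorem inM24_mulTbl {A B : List ℕ} (hA : inM24 A = true) (hB : inM24 B = true) :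
    validTbl (mulTbl A B) = true ∧ permOf (mulTbl A B) ∈ M24 := by
  refine ⟨validTbl_mulTbl (inM24_valid hA) (inM24_valid hB), ?_⟩
  rw [← permOf_mul (inM24_valid hA) (inM24_valid hB)]
  exact M24.mul_mem (permOf_mem_M24 hA) (permOf_mem_M24 hB)

/-! ### lists without repetition -/

def keyL : List ℕ → ℕ → ℕ
  | [], acc => acc
  | a :: l, acc => keyL l (Nat.add (Nat.mul acc 32) a)

def incrK : List ℕ → Bool
  | [] => true
  | [_] => true
  | a :: b :: l => and (Nat.blt a b) (incrK (b :: l))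

theorem incrK_spec : ∀ {l : List ℕ}, incrK l = true → l.Pairwise (· < ·)
  | [], _ => List.Pairwise.nil
  | [a], _ => List.pairwise_singleton _ _
  | a :: b :: l, h => by
    rw [incrK, Bool.and_eq_true] at h
    have h2 := incrK_spec h.2
    have hab : a < b := Nat.blt_eq.mp h.1
    rw [List.pairwise_cons]
    refine ⟨?_, h2⟩
    intro m hm
    rw [List.mem_cons] at hm
    rcases hm with rfl | hm
    · exact hab
    · exact lt_trans hab ((List.pairwise_cons.1 h2).1 m hm)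

theorem nodup_of_keys {L : List (List ℕ)} (h : incrK (L.map fun C => keyL C 0) = true) : L.Nodup :=
  List.Nodup.of_map _ ((incrK_spec h).imp (fun h => ne_of_lt h))

/-- the order of a subgroup listed by tables -/
theorem card_of_list {H : Subgroup (Equiv.Perm GolayPt)} {L : List (List ℕ)} (hnd : L.Nodup)
    (hv : ∀ C ∈ L, validTbl C = true) (hmem : ∀ C ∈ L, permOf C ∈ H)
    (hcov : ∀ g ∈ H, ∃ C ∈ L, g = permOf C) : Nat.card H = L.length := by
  classical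
  have h1 : (H : Set (Equiv.Perm GolayPt)) = ↑(L.toFinset.image permOf) := by
    ext g
    simp only [SetLike.mem_coe, Finset.coe_image, Set.mem_image, List.coe_toFinset, Set.mem_ofPred_eq]
    constructor
    · intro hg
      obtain ⟨C, hC, rfl⟩ := hcov g hg
      exact ⟨C, hC, rfl⟩
    · rintro ⟨C, hC, rfl⟩
      exact hmem C hC
  have h2 : Nat.card H = (H : Set (Equiv.Perm GolayPt)).ncard := rfl
  rw [h2, h1, Set.ncard_coe_finset, Finset.card_image_of_injOn, List.toFinset_card_of_nodup hnd]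
  intro A hA B hB hAB
  simp only [List.coe_toFinset, Set.mem_ofPred_eq] at hA hB
  exact tbl_ext (hv A hA) (hv B hB) hAB

/-- the elements of `H` fixing the point `b` -/
def stabPt (H : Subgroup (Equiv.Perm GolayPt)) (b : GolayPt) : Subgroup (Equiv.Perm GolayPt) where
  carrier := {g | g ∈ H ∧ g b = b}
  mul_mem' := by
    rintro x y ⟨hx, hx'⟩ ⟨hy, hy'⟩
    exact ⟨H.mul_mem hx hy, by rw [Equiv.Perm.mul_apply, hy', hx']⟩
  one_mem' := ⟨H.one_mem, rfl⟩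
  inv_mem' := by
    rintro x ⟨hx, hx'⟩
    exact ⟨H.inv_mem hx, by rw [Equiv.Perm.inv_eq_iff_eq, hx']⟩

theorem mem_stabPt {H : Subgroup (Equiv.Perm GolayPt)} {b : GolayPt} {g : Equiv.Perm GolayPt} :
    g ∈ stabPt H b ↔ g ∈ H ∧ g b = b := Iff.rfl

/-- orbit-stabiliser step -/
theorem card_orbit_step (H : Subgroup (Equiv.Perm GolayPt)) (b : GolayPt) (targets : Finset GolayPt)
    (hu : ∀ y ∈ targets, ∃ u ∈ H, u b = y) (hsub : ∀ g ∈ H, g b ∈ targets) :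
    Nat.card H = targets.card * Nat.card (stabPt H b) := by
  classical
  choose! u hu1 hu3 using hu
  let e : H ≃ targets × stabPt H b :=
    { toFun := fun g => (⟨g.1 b, hsub g.1 g.2⟩, ⟨(u (g.1 b))⁻¹ * g.1, by
        have ht := hsub g.1 g.2
        refine ⟨H.mul_mem (H.inv_mem (hu1 _ ht)) g.2, ?_⟩
        rw [Equiv.Perm.mul_apply, Equiv.Perm.inv_eq_iff_eq, hu3 _ ht]⟩)
      invFun := fun x => ⟨u x.1.1 * x.2.1, H.mul_mem (hu1 _ x.1.2) x.2.2.1⟩
      left_inv := by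
        intro g
        apply Subtype.ext
        simp
      right_inv := by
        rintro ⟨⟨y, hy⟩, ⟨h, hh⟩⟩
        have h1 : (u y * h) b = y := by
          rw [Equiv.Perm.mul_apply, hh.2, hu3 y hy]
        apply Prod.ext
        · apply Subtype.ext
          exact h1
        · apply Subtype.ext
          show (u ((u y * h) b))⁻¹ * (u y * h) = h
          rw [h1]; simp }
  rw [Nat.card_congr e, Nat.card_prod]
  simp

/-! ### coverage of a subgroup by a list -/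

/-- every candidate with the property `Q` occurs in the list `L` -/
noncomputable def covChkL (Q : List ℕ → Bool) (Ts L : List (List ℕ)) : Bool :=
  Ts.all fun T => U48.all fun U => cond (Q (mulTbl T U)) (forceL (mulTbl T U) fun C => L.any (eqL C)) true

theorem covChkL_spec {Q : List ℕ → Bool} {Ts L : List (List ℕ)} (h : covChkL Q Ts L = true)
    (hTs : Ts.all inM24 = true) {g : Equiv.Perm GolayPt} (hg : g ∈ M24) {T : List ℕ} (hT : T ∈ Ts)
    (hgT : ∀ f ∈ [23, 0, 1, 2, 3], g (pt f) = permOf T (pt f))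
    (hQ : ∀ C, validTbl C = true → g = permOf C → Q C = true) : ∃ C ∈ L, g = permOf C := by
  rw [List.all_eq_true] at hTs
  obtain ⟨U, hU, hgC⟩ := enum5' hg (hTs T hT) hgT
  have hC := (inM24_mulTbl (hTs T hT) (List.all_eq_true.1 U48_in U hU)).1
  simp only [covChkL, List.all_eq_true, forceL_eq] at h
  have h1 := h T hT U hU
  rw [hQ _ hC hgC, cond_true, List.any_eq_true] at h1
  obtain ⟨C, hCL, hCe⟩ := h1
  exact ⟨C, hCL, by rw [hgC, eqL_spec hCe]⟩

/-! ### centralisers -/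

/-- the centraliser in M24 -/
def cenIn (t : Equiv.Perm GolayPt) : Subgroup (Equiv.Perm GolayPt) where
  carrier := {c | c ∈ M24 ∧ c * t = t * c}
  mul_mem' := by
    rintro x y ⟨hx, hx'⟩ ⟨hy, hy'⟩
    exact ⟨M24.mul_mem hx hy, by rw [mul_assoc, hy', ← mul_assoc, hx', mul_assoc]⟩
  one_mem' := ⟨M24.one_mem, by simp⟩
  inv_mem' := by
    rintro x ⟨hx, hx'⟩
    refine ⟨M24.inv_mem hx, ?_⟩
    rw [inv_mul_eq_iff_eq_mul, ← mul_assoc, hx', mul_assoc, mul_inv_cancel, mul_one]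

theorem mem_cenIn {t c : Equiv.Perm GolayPt} : c ∈ cenIn t ↔ c ∈ M24 ∧ c * t = t * c := Iff.rfl

theorem conj_mem_cenIn {t k c : Equiv.Perm GolayPt} (hk : k ∈ M24) :
    k * c * k⁻¹ ∈ cenIn (k * t * k⁻¹) ↔ c ∈ cenIn t := by
  rw [mem_cenIn, mem_cenIn]
  constructor
  · rintro ⟨h1, h2⟩
    refine ⟨?_, ?_⟩
    · have := M24.mul_mem (M24.mul_mem (M24.inv_mem hk) h1) hk
      have e : k⁻¹ * (k * c * k⁻¹) * k = c := by group
      rwa [e] at this
    · have e1 : c * t = k⁻¹ * ((k * c * k⁻¹) * (k * t * k⁻¹)) * k := by group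
      rw [e1, h2]; group
  · rintro ⟨h1, h2⟩
    refine ⟨M24.mul_mem (M24.mul_mem hk h1) (M24.inv_mem hk), ?_⟩
    calc k * c * k⁻¹ * (k * t * k⁻¹) = k * (c * t) * k⁻¹ := by group
      _ = k * (t * c) * k⁻¹ := by rw [h2]
      _ = _ := by group

theorem card_cenIn_conj {t k : Equiv.Perm GolayPt} (hk : k ∈ M24) :
    Nat.card (cenIn (k * t * k⁻¹)) = Nat.card (cenIn t) := by
  symm
  apply Nat.card_congr
  exact
    { toFun := fun c => ⟨k * c.1 * k⁻¹, (conj_mem_cenIn hk).2 c.2⟩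
      invFun := fun c => ⟨k⁻¹ * c.1 * k, by
        rw [← conj_mem_cenIn (t := t) hk]
        have e : k * (k⁻¹ * c.1 * k) * k⁻¹ = c.1 := by group
        rw [e]; exact c.2⟩
      left_inv := by
        intro c; apply Subtype.ext
        show k⁻¹ * (k * c.1 * k⁻¹) * k = c.1
        group
      right_inv := by
        intro c; apply Subtype.ext
        show k * (k⁻¹ * c.1 * k) * k⁻¹ = c.1
        group }

/-- the table `C` commutes with the table `Z` -/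
def comQ (Z C : List ℕ) : Bool := eqL (mulTbl C Z) (mulTbl Z C)

theorem comQ_iff {Z C : List ℕ} (hZ : validTbl Z = true) (hC : validTbl C = true) :
    comQ Z C = true ↔ permOf C * permOf Z = permOf Z * permOf C := by
  rw [comQ, permOf_mul hC hZ, permOf_mul hZ hC]
  constructor
  · intro h; rw [eqL_spec h]
  · intro h
    rw [tbl_ext (validTbl_mulTbl hC hZ) (validTbl_mulTbl hZ hC) h]
    exact eqL_refl _

end Cfsg.Agent.Lib.Helper10
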