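/-
Tables of permutations of the 24 points packed into one number (24 fields of 5 bits): fast products in the kernel.
-/
import Cfsg.Agent.Lib.Helper10.ElemEnum
import Cfsg.Agent.Lib.Helper10.SetSys

set_option autoImplicit false

namespace Cfsg.Agent.Lib.Helper10

open Cfsg Cfsg.Agent.Lib.Helper28
open scoped Pointwise

/-- entry `i` of a packed table -/
def gP (A i : ℕ) : ℕ := Nat.mod (Nat.div A (Nat.pow 32 i)) 32

theorem gP_lt (A i : ℕ) : gP A i < 32 := Nat.mod_lt _ (by norm_num)

/-- pack the `n` values `f i, f (i+1), ...` -/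
noncomputable def packF (f : ℕ → ℕ) (n : ℕ) : ℕ → ℕ :=
  Nat.rec (fun _ => 0) (fun _ ih i => Nat.add (f i) (Nat.mul 32 (ih (Nat.succ i)))) n

theorem packF_zero (f : ℕ → ℕ) (i : ℕ) : packF f 0 i = 0 := rfl

theorem packF_succ (f : ℕ → ℕ) (n i : ℕ) : packF f (n + 1) i = f i + 32 * packF f n (i + 1) := rfl

theorem gP_add_zero {a X : ℕ} (ha : a < 32) : gP (a + 32 * X) 0 = a := by
  show (a + 32 * X) / 32 ^ 0 % 32 = a
  rw [pow_zero, Nat.div_one, Nat.add_mul_mod_self_left, Nat.mod_eq_of_lt ha]

theorem gP_add_succ {a X : ℕ} (ha : a < 32) (k : ℕ) : gP (a + 32 * X) (k + 1) = gP X k := by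
  show (a + 32 * X) / 32 ^ (k + 1) % 32 = X / 32 ^ k % 32
  rw [pow_succ, mul_comm (32 ^ k) 32, ← Nat.div_div_eq_div_mul, Nat.add_mul_div_left _ _ (by norm_num : 0 < 32),
    Nat.div_eq_of_lt ha, zero_add]

theorem gP_packF {f : ℕ → ℕ} (hf : ∀ i, f i < 32) (n i k : ℕ) (hk : k < n) : gP (packF f n i) k = f (i + k) := by
  induction n generalizing i k with
  | zero => omega
  | succ n ih =>
    rw [packF_succ]
    cases k with
    | zero => rw [gP_add_zero (hf i)]; rfl
    | succ k =>
      rw [gP_add_succ (hf i), ih (i + 1) k (by omega)]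
      congr 1; omega

theorem packF_congr {f g : ℕ → ℕ} (n i : ℕ) (h : ∀ k, k < n → f (i + k) = g (i + k)) : packF f n i = packF g n i := by
  induction n generalizing i with
  | zero => rfl
  | succ n ih =>
    rw [packF_succ, packF_succ, ih (i + 1) (fun k hk => by
      have := h (k + 1) (by omega)
      rwa [show i + (k + 1) = i + 1 + k by omega] at this)]
    have := h 0 (by omega)
    rw [add_zero] at this
    rw [this]

/-- the list of the entries -/
def tblP (A : ℕ) : List ℕ := (List.range' 0 24).map (gP A)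

theorem length_tblP (A : ℕ) : (tblP A).length = 24 := by simp [tblP]

theorem getD_tblP (A : ℕ) {i : ℕ} (hi : i < 24) : (tblP A).getD i 0 = gP A i := by
  have h : i < (tblP A).length := by rw [length_tblP]; exact hi
  rw [List.getD_eq_getElem _ _ h]
  simp [tblP]

/-- the permutation given by a packed table -/
noncomputable def permP (A : ℕ) : Equiv.Perm GolayPt := permOf (tblP A)

/-- validity -/
def VP (A : ℕ) : Prop := validTbl (tblP A) = true

theorem gP_lt_of_VP {A : ℕ} (h : VP A) {i : ℕ} (hi : i < 24) : gP A i < 24 := by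
  rw [← getD_tblP A hi]
  exact getD_lt h i hi

theorem permP_apply {A : ℕ} (h : VP A) {i : ℕ} (hi : i < 24) : permP A (pt i) = pt (gP A i) := by
  rw [permP, permOf_apply h, idx_pt i hi, getD_tblP A hi]

/-- the product -/
noncomputable def mulP (A B : ℕ) : ℕ := packF (fun i => gP A (gP B i)) 24 0

theorem gP_mulP (A B : ℕ) {i : ℕ} (hi : i < 24) : gP (mulP A B) i = gP A (gP B i) := by
  rw [mulP, gP_packF (fun i => gP_lt _ _) 24 0 i hi, zero_add]

theorem tblP_ext {A B : ℕ} (h : ∀ i, i < 24 → gP A i = gP B i) : tblP A = tblP B := by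
  apply List.map_congr_left
  intro i hi
  rw [List.mem_range'_1] at hi
  exact h i (by omega)

theorem tblP_mulP (A : ℕ) {B : ℕ} (hB : VP B) : tblP (mulP A B) = mulTbl (tblP A) (tblP B) := by
  have e : mulTbl (tblP A) (tblP B) = (List.range' 0 24).map ((fun y => (tblP A).getD y 0) ∘ gP B) := by
    show List.map (fun y => (tblP A).getD y 0) (List.map (gP B) (List.range' 0 24)) = _
    rw [List.map_map]
  rw [e]
  conv_lhs => rw [tblP]
  apply List.map_congr_left
  intro i hi
  rw [List.mem_range'_1] at hi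
  have hi' : i < 24 := by omega
  rw [gP_mulP A B hi', Function.comp_apply]
  exact (getD_tblP A (gP_lt_of_VP hB hi')).symm

theorem VP_mulP {A B : ℕ} (hA : VP A) (hB : VP B) : VP (mulP A B) := by
  rw [VP, tblP_mulP A hB]
  exact validTbl_mulTbl hA hB

theorem permP_mul {A B : ℕ} (hA : VP A) (hB : VP B) : permP A * permP B = permP (mulP A B) := by
  rw [permP, permP, permP, tblP_mulP A hB]
  exact permOf_mul hA hB

/-- canonical packed tables -/
def canonP (A : ℕ) : Prop := packF (gP A) 24 0 = A

theorem canonP_mulP (A B : ℕ) : canonP (mulP A B) := by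
  rw [canonP]
  conv_rhs => rw [mulP]
  apply packF_congr
  intro k hk
  rw [zero_add]
  exact gP_mulP A B hk

theorem eq_of_permP_eq {A B : ℕ} (cA : canonP A) (cB : canonP B) (hA : VP A) (hB : VP B)
    (h : permP A = permP B) : A = B := by
  have h1 := tbl_ext hA hB h
  rw [← cA, ← cB]
  apply packF_congr
  intro k hk
  rw [zero_add, ← getD_tblP A hk, ← getD_tblP B hk, h1]

/-! ### images of masks -/

noncomputable def pmPAux (A m : ℕ) (n : ℕ) : ℕ → ℕ :=
  Nat.rec (fun _ => 0)
    (fun _ ih i => Nat.lor (Nat.shiftLeft (Nat.land (Nat.shiftRight m i) 1) (gP A i)) (ih (Nat.succ i))) n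

theorem pmPAux_eq (A m n i : ℕ) : pmPAux A m n i = pmF ((List.range' i n).map (gP A)) i m := by
  induction n generalizing i with
  | zero => rfl
  | succ n ih =>
    have : pmPAux A m (n + 1) i = (((m >>> i) &&& 1) <<< gP A i) ||| pmPAux A m n (i + 1) := rfl
    rw [this, ih, List.range'_succ, List.map_cons, pmF_cons]

/-- the image of a mask under a packed table -/
noncomputable def pmP (A m : ℕ) : ℕ := pmPAux A m 24 0

theorem pmP_eq (A m : ℕ) : pmP A m = pmF (tblP A) 0 m := pmPAux_eq A m 24 0

theorem pm_permP {A : ℕ} (h : VP A) (m : ℕ) : pm (permP A) m = pmP A m := by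
  rw [pmP_eq, permP, pm_permOf' h]

/-- fast validity test -/
noncomputable def validP (A : ℕ) : Bool := Nat.beq (pmP A 16777215) 16777215

theorem validP_spec {A : ℕ} (h : validP A = true) : VP A := by
  have h1 : permMask (tblP A) 16777215 = 16777215 := by
    rw [← pmF_zero_eq, ← pmP_eq]
    exact Nat.eq_of_beq_eq_true h
  simp only [VP, validTbl, Bool.and_eq_true, beq_iff_eq, List.all_eq_true, List.mem_range, List.contains_iff_mem]
  refine ⟨length_tblP A, ?_⟩
  intro j hj
  have h2 : (permMask (tblP A) 16777215).testBit j = true := by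
    rw [h1]
    have : ∀ j, j < 24 → Nat.testBit 16777215 j = true := by decide
    exact this j hj
  rw [testBit_permMask] at h2
  obtain ⟨i, hi, -, hij⟩ := h2
  rw [← hij, List.getD_eq_getElem _ _ hi]
  exact List.getElem_mem hi

/-- fast membership test for M24 -/
noncomputable def inM24P (A : ℕ) : Bool := and (validP A) (basis.all fun b => isCodeF (pmP A b))

theorem inM24P_spec {A : ℕ} (h : inM24P A = true) : inM24 (tblP A) = true := by
  rw [inM24P, Bool.and_eq_true, List.all_eq_true] at h
  have hv := validP_spec h.1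
  rw [inM24, Bool.and_eq_true, List.all_eq_true]
  refine ⟨hv, ?_⟩
  intro b hb
  have h1 := h.2 b hb
  rw [← pm_permP hv, isCodeF_eq (pm_lt _ _), permP, pm_permOf hv] at h1
  exact h1

theorem inM24P_VP {A : ℕ} (h : inM24P A = true) : VP A := inM24_valid (inM24P_spec h)

theorem permP_mem {A : ℕ} (h : inM24P A = true) : permP A ∈ M24 := permOf_mem_M24 (inM24P_spec h)

noncomputable def canonB (A : ℕ) : Bool := Nat.beq (packF (gP A) 24 0) A

theorem canonB_spec {A : ℕ} (h : canonB A = true) : canonP A := Nat.eq_of_beq_eq_true h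

theorem smul_unmask_permP {A : ℕ} (h : VP A) (m : ℕ) : permP A • unmask m = unmask (pmP A m) := by
  rw [smul_unmask', pm_permP h]

theorem smul_eq_iff_pmP {A : ℕ} (h : VP A) {m : ℕ} (hm : m < 2 ^ 24) :
    permP A • unmask m = unmask m ↔ Nat.beq (pmP A m) m = true := by
  rw [smul_unmask_permP h, Nat.beq_eq]
  constructor
  · intro he
    apply unmask_injOn _ hm he
    rw [← pm_permP h]; exact pm_lt _ _
  · intro he; rw [he]

end Cfsg.Agent.Lib.Helper10
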