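/-
Subgroups of M24 listed by packed tables.
-/
import Cfsg.Agent.Lib.Helper10.Packed

set_option autoImplicit false

namespace Cfsg.Agent.Lib.Helper10

open Cfsg Cfsg.Agent.Lib.Helper28
open scoped Pointwise

/-- the 48 elements of M24 fixing the points 23, 0, 1, 2, 3 (packed) -/
def U48P : List ℕ := [
  984818244535754528103549039458486304, 965128854020860192151391391390468128, 963721886883755259286232606933354528, 979121071158219704299181131031480352,
  968708902336673183175954409307867168, 967812279691448225500382947153381408, 971592882964418941354553515258775584, 970499966350631336865513127433832480,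
  976448692869377735270425038196672544, 981818691054096003685363657089320992, 972512676110088067912772961567868960, 966182099583441531322624363496310816,
  983548720921252936276249910206105632, 975346028712660580592452217730074656, 980224387687010295957922729495201824, 961365507626256404119956257276790816,
  963515095949177277443875056653535264, 979037747421335847153138073498388512, 970452748381697609285226999098476576, 976531636853126291160407323722221600,
  981515887986994088769278604842469408, 967738580936480664927891663448279072, 972679049849814778609582601333213216, 984559288045672395699075860841728032,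
  965225113279737155758354497310656544, 975754295934893126319599781779965984, 980504394422866046962412236452235296, 961409415667826064667231448532617248,
  966039336168793943308839874394687520, 968918221426309407724683958819063840, 971828115858035635643548061566863392, 983141956895601025126892051911247904,
  969836898326968551397880902883313696, 976909097487365034896521273070946336, 984436632068016323118584907140532256, 964862721552653238424309835408443424,
  975728708050008715525885598301784096, 967365292857695660364575527991871520, 980874226864350081512017426024335392, 963582593757073591850928955785840672,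
  979416905286026856737440949975746592, 968621477650857569167789942210922528, 971863989228759034920585190470420512, 983271302155371035984055114495264800,
  961029066359601346093702817927759904, 982125237077252311731715764534741024, 972606645568131968584696805283956768, 966320096358733541442380578386184224]

theorem U48P_chk : (U48.all fun U => U48P.any fun A => eqL (tblP A) U) = true := by decide +kernel

theorem U48P_in : U48P.all inM24P = true := by decide +kernel

theorem permP_of_tbl {A : ℕ} {L : List ℕ} (h : eqL (tblP A) L = true) : permP A = permOf L := by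
  rw [permP, eqL_spec h]

theorem enum5P {g : Equiv.Perm GolayPt} (hg : g ∈ M24) {T : ℕ} (hT : inM24P T = true)
    (h : ∀ f ∈ [23, 0, 1, 2, 3], g (pt f) = permP T (pt f)) : ∃ U ∈ U48P, g = permP (mulP T U) := by
  obtain ⟨U, hU, hgU⟩ := enum5' hg (inM24P_spec hT) h
  have h1 := U48P_chk
  simp only [List.all_eq_true, List.any_eq_true] at h1
  obtain ⟨A, hA, hAU⟩ := h1 U hU
  refine ⟨A, hA, ?_⟩
  rw [hgU, permP, tblP_mulP T (inM24P_VP (List.all_eq_true.1 U48P_in A hA)), eqL_spec hAU]

def hasPatP (Ts : List ℕ) (a0 a1 a2 a3 a4 : ℕ) : Bool :=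
  Ts.any fun T => and (Nat.beq (gP T 1) a2) (and (Nat.beq (gP T 3) a4) (and (Nat.beq (gP T 23) a0)
    (and (Nat.beq (gP T 0) a1) (Nat.beq (gP T 2) a3))))

theorem hasPatP_spec {Ts : List ℕ} {a0 a1 a2 a3 a4 : ℕ} (h : hasPatP Ts a0 a1 a2 a3 a4 = true) :
    ∃ T ∈ Ts, gP T 23 = a0 ∧ gP T 0 = a1 ∧ gP T 1 = a2 ∧ gP T 2 = a3 ∧ gP T 3 = a4 := by
  simp only [hasPatP, List.any_eq_true, Bool.and_eq_true] at h
  obtain ⟨T, hT, h2, h4, h0, h1, h3⟩ := h
  exact ⟨T, hT, Nat.eq_of_beq_eq_true h0, Nat.eq_of_beq_eq_true h1, Nat.eq_of_beq_eq_true h2,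
    Nat.eq_of_beq_eq_true h3, Nat.eq_of_beq_eq_true h4⟩

theorem agree5P {g : Equiv.Perm GolayPt} {T : ℕ} (hv : VP T) {a0 a1 a2 a3 a4 : ℕ}
    (t0 : gP T 23 = a0) (t1 : gP T 0 = a1) (t2 : gP T 1 = a2) (t3 : gP T 2 = a3)
    (t4 : gP T 3 = a4) (e0 : g (pt 23) = pt a0) (e1 : g (pt 0) = pt a1) (e2 : g (pt 1) = pt a2)
    (e3 : g (pt 2) = pt a3) (e4 : g (pt 3) = pt a4) :
    ∀ f ∈ [23, 0, 1, 2, 3], g (pt f) = permP T (pt f) := by
  intro f hf
  simp only [List.mem_cons, List.not_mem_nil, or_false] at hf
  rcases hf with rfl | rfl | rfl | rfl | rfl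
  · rw [permP_apply hv (by norm_num), t0, e0]
  · rw [permP_apply hv (by norm_num), t1, e1]
  · rw [permP_apply hv (by norm_num), t2, e2]
  · rw [permP_apply hv (by norm_num), t3, e3]
  · rw [permP_apply hv (by norm_num), t4, e4]

/-- every candidate with the property `Q` occurs in the list `L` -/
noncomputable def covChkP (Q : ℕ → Bool) (Ts L : List ℕ) : Bool :=
  Ts.all fun T => U48P.all fun U => strict (mulP T U) fun C => cond (Q C) (L.any (Nat.beq C)) true

theorem covChkP_spec {Q : ℕ → Bool} {Ts L : List ℕ} (h : covChkP Q Ts L = true)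
    (hTs : Ts.all inM24P = true) {g : Equiv.Perm GolayPt} (hg : g ∈ M24) {T : ℕ} (hT : T ∈ Ts)
    (hgT : ∀ f ∈ [23, 0, 1, 2, 3], g (pt f) = permP T (pt f))
    (hQ : ∀ C, VP C → g = permP C → Q C = true) : ∃ C ∈ L, g = permP C := by
  rw [List.all_eq_true] at hTs
  obtain ⟨U, hU, hgC⟩ := enum5P hg (hTs T hT) hgT
  have hC := VP_mulP (inM24P_VP (hTs T hT)) (inM24P_VP (List.all_eq_true.1 U48P_in U hU))
  simp only [covChkP, List.all_eq_true, strict_eq] at h
  have h1 := h T hT U hU
  rw [hQ _ hC hgC, cond_true, List.any_eq_true] at h1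
  obtain ⟨C, hCL, hCe⟩ := h1
  exact ⟨C, hCL, by rw [hgC, Nat.eq_of_beq_eq_true hCe]⟩

/-- the order of a subgroup listed by packed tables -/
theorem card_of_listP {H : Subgroup (Equiv.Perm GolayPt)} {L : List ℕ} (hinc : incrK L = true)
    (hv : ∀ C ∈ L, VP C ∧ canonP C) (hmem : ∀ C ∈ L, permP C ∈ H)
    (hcov : ∀ g ∈ H, ∃ C ∈ L, g = permP C) : Nat.card H = L.length := by
  classical
  have hnd : L.Nodup := (incrK_spec hinc).imp (fun h => ne_of_lt h)
  have h1 : (H : Set (Equiv.Perm GolayPt)) = ↑(L.toFinset.image permP) := by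
    ext g
    simp only [SetLike.mem_coe, Finset.coe_image, Set.mem_image, List.coe_toFinset, Set.mem_ofPred_eq]
    constructor
    · intro hg
      obtain ⟨C, hC, rfl⟩ := hcov g hg
      exact ⟨C, hC, rfl⟩
    · rintro ⟨C, hC, rfl⟩
      exact hmem C hC
  have h2 : Nat.card H = (H : Set (Equiv.Perm GolayPt)).ncard := rfl
  rw [h2, h1, Set.ncard_coe_finset, Finset.card_image_of_injOn, List.toFinset_card_of_nodup hnd]
  intro A hA B hB hAB
  simp only [List.coe_toFinset, Set.mem_ofPred_eq] at hA hB
  exact eq_of_permP_eq (hv A hA).2 (hv B hB).2 (hv A hA).1 (hv B hB).1 hAB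

/-- `C Z = W C` -/
noncomputable def conjQP (Z W C : ℕ) : Bool := Nat.beq (mulP C Z) (mulP W C)

theorem conjQP_iff {Z W C : ℕ} (hZ : VP Z) (hW : VP W) (hC : VP C) :
    conjQP Z W C = true ↔ permP C * permP Z = permP W * permP C := by
  rw [conjQP, permP_mul hC hZ, permP_mul hW hC, Nat.beq_eq]
  constructor
  · intro h; rw [h]
  · intro h
    exact eq_of_permP_eq (canonP_mulP _ _) (canonP_mulP _ _) (VP_mulP hC hZ) (VP_mulP hW hC) h

/-- the standard test for the members of a list -/
noncomputable def okP (Q : ℕ → Bool) (L : List ℕ) : Bool := L.all fun C => and (inM24P C) (and (canonB C) (Q C))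

theorem okP_spec {Q : ℕ → Bool} {L : List ℕ} (h : okP Q L = true) {C : ℕ} (hC : C ∈ L) :
    inM24P C = true ∧ canonP C ∧ Q C = true := by
  have := List.all_eq_true.1 h C hC
  simp only [Bool.and_eq_true] at this
  exact ⟨this.1, canonB_spec this.2.1, this.2.2⟩

theorem idx_ne {g : Equiv.Perm GolayPt} {i j a : ℕ} (hi : i < 24) (hj : j < 24) (hij : i ≠ j)
    (h : g (pt j) = pt a) : idx (g (pt i)) ≠ a := by
  intro he
  have : g (pt i) = g (pt j) := by rw [h, ← he, pt_idx]
  exact pt_ne hi hj hij (g.injective this)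

/-! ### predicates on the image function (evaluated lazily) -/

theorem allBelow_of {f : ℕ → Bool} {n : ℕ} (h : ∀ j, j < n → f j = true) : allBelow f n = true := by
  induction n with
  | zero => rfl
  | succ n ih =>
    show cond (f n) (allBelow f n) false = true
    rw [h n (by omega), cond_true]
    exact ih (fun j hj => h j (by omega))

/-- `f` is the image function of `g` -/
def IsFn (g : Equiv.Perm GolayPt) (f : ℕ → ℕ) : Prop := ∀ i, i < 24 → g (pt i) = pt (f i) ∧ f i < 24

theorem isFn_permP {C : ℕ} (hC : VP C) : IsFn (permP C) (gP C) :=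
  fun _ hi => ⟨permP_apply hC hi, gP_lt_of_VP hC hi⟩

theorem isFn_mulP {T U : ℕ} (hT : VP T) (hU : VP U) : IsFn (permP (mulP T U)) (fun i => gP T (gP U i)) := by
  intro i hi
  have := isFn_permP (VP_mulP hT hU) i hi
  rw [gP_mulP T U hi] at this
  exact this

/-- every candidate with the property `Q` occurs in the list `L` -/
noncomputable def covChkF (Q : (ℕ → ℕ) → Bool) (Ts L : List ℕ) : Bool :=
  Ts.all fun T => U48P.all fun U =>
    cond (Q (fun i => gP T (gP U i))) (strict (mulP T U) fun C => L.any (Nat.beq C)) true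

theorem covChkF_spec {Q : (ℕ → ℕ) → Bool} {Ts L : List ℕ} (h : covChkF Q Ts L = true)
    (hTs : Ts.all inM24P = true) {g : Equiv.Perm GolayPt} (hg : g ∈ M24) {T : ℕ} (hT : T ∈ Ts)
    (hgT : ∀ f ∈ [23, 0, 1, 2, 3], g (pt f) = permP T (pt f))
    (hQ : ∀ f, IsFn g f → Q f = true) : ∃ C ∈ L, g = permP C := by
  rw [List.all_eq_true] at hTs
  obtain ⟨U, hU, hgC⟩ := enum5P hg (hTs T hT) hgT
  have hf := isFn_mulP (inM24P_VP (hTs T hT)) (inM24P_VP (List.all_eq_true.1 U48P_in U hU))
  rw [← hgC] at hf
  simp only [covChkF, List.all_eq_true, strict_eq] at h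
  have h1 := h T hT U hU
  rw [hQ _ hf, cond_true, List.any_eq_true] at h1
  obtain ⟨C, hCL, hCe⟩ := h1
  exact ⟨C, hCL, by rw [hgC, Nat.eq_of_beq_eq_true hCe]⟩

/-- `g Z = W g` in terms of the image function of `g` -/
def conjQF (Z W : ℕ) (f : ℕ → ℕ) : Bool := allBelow (fun i => Nat.beq (f (gP Z i)) (gP W (f i))) 24

theorem conjQF_iff {Z W : ℕ} (hZ : VP Z) (hW : VP W) {g : Equiv.Perm GolayPt} {f : ℕ → ℕ} (hf : IsFn g f) :
    conjQF Z W f = true ↔ g * permP Z = permP W * g := by
  constructor
  · intro h
    ext p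
    have hi := idx_lt p
    have h1 := Nat.eq_of_beq_eq_true (allBelow_spec h _ hi)
    rw [← pt_idx p, Equiv.Perm.mul_apply, Equiv.Perm.mul_apply, permP_apply hZ hi,
      (hf _ (gP_lt_of_VP hZ hi)).1, (hf _ hi).1, permP_apply hW (hf _ hi).2, h1]
  · intro h
    apply allBelow_of
    intro i hi
    have h1 := Equiv.Perm.congr_fun h (pt i)
    rw [Equiv.Perm.mul_apply, Equiv.Perm.mul_apply, permP_apply hZ hi,
      (hf _ (gP_lt_of_VP hZ hi)).1, (hf _ hi).1, permP_apply hW (hf _ hi).2] at h1
    rw [Nat.beq_eq]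
    exact pt_injOn (hf _ (gP_lt_of_VP hZ hi)).2 (gP_lt_of_VP hW (hf _ hi).2) h1

/-- `g` maps the points of the list `l` into the set with mask `m` -/
def mapsF (l : List ℕ) (m : ℕ) (f : ℕ → ℕ) : Bool := l.all fun i => Nat.testBit m (f i)

theorem mapsF_iff {l : List ℕ} (hl : ∀ i ∈ l, i < 24) (m : ℕ) {g : Equiv.Perm GolayPt} {f : ℕ → ℕ} (hf : IsFn g f) :
    mapsF l m f = true ↔ ∀ i ∈ l, g (pt i) ∈ unmask m := by
  rw [mapsF, List.all_eq_true]
  apply forall_congr'
  intro i
  apply imp_congr_right
  intro hi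
  rw [(hf i (hl i hi)).1, mem_unmask, idx_pt _ (hf i (hl i hi)).2]

end Cfsg.Agent.Lib.Helper10
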