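/-
Normalisers and centralisers of cyclic subgroups of M24, at the level of permutations; powers of packed tables.
-/
import Cfsg.Agent.Lib.Helper10.PackedEnum

set_option autoImplicit false

namespace Cfsg.Agent.Lib.Helper10

open Cfsg Cfsg.Agent.Lib.Helper28
open scoped Pointwise

theorem mem_normalizer_zpowers_iff {G : Type*} [Group G] [Finite G] (x n : G) :
    n ∈ Subgroup.normalizer (Subgroup.zpowers x : Set G) ↔ n * x * n⁻¹ ∈ Subgroup.zpowers x := by
  constructor
  · intro h
    exact (Subgroup.mem_normalizer_iff.1 h x).1 (Subgroup.mem_zpowers x)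
  · intro h
    apply Subgroup.mem_normalizer_fintype
    rintro _ ⟨j, rfl⟩
    show n * x ^ j * n⁻¹ ∈ Subgroup.zpowers x
    rw [← conj_zpow]
    exact Subgroup.zpow_mem _ h j

theorem mem_centralizer_zpowers_iff {G : Type*} [Group G] (x c : G) :
    c ∈ Subgroup.centralizer (Subgroup.zpowers x : Set G) ↔ c * x = x * c := by
  rw [Subgroup.mem_centralizer_iff]
  constructor
  · intro h
    exact (h x (Subgroup.mem_zpowers x)).symm
  · rintro h _ ⟨j, rfl⟩
    have : Commute x c := h.symm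
    exact (this.zpow_left j).eq

/-- the normaliser in M24 of the cyclic group generated by `t` -/
def norIn (t : Equiv.Perm GolayPt) : Subgroup (Equiv.Perm GolayPt) :=
  M24 ⊓ Subgroup.normalizer (Subgroup.zpowers t : Set (Equiv.Perm GolayPt))

theorem mem_norIn {t n : Equiv.Perm GolayPt} : n ∈ norIn t ↔ n ∈ M24 ∧ n * t * n⁻¹ ∈ Subgroup.zpowers t := by
  rw [norIn, Subgroup.mem_inf, mem_normalizer_zpowers_iff]

theorem conj_mem_M24_iff {k c : Equiv.Perm GolayPt} (hk : k ∈ M24) : k * c * k⁻¹ ∈ M24 ↔ c ∈ M24 := by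
  constructor
  · intro h1
    have := M24.mul_mem (M24.mul_mem (M24.inv_mem hk) h1) hk
    have e : k⁻¹ * (k * c * k⁻¹) * k = c := by group
    rwa [e] at this
  · intro h1
    exact M24.mul_mem (M24.mul_mem hk h1) (M24.inv_mem hk)

theorem conj_mem_zpowers_iff (k t y : Equiv.Perm GolayPt) :
    k * y * k⁻¹ ∈ Subgroup.zpowers (k * t * k⁻¹) ↔ y ∈ Subgroup.zpowers t := by
  rw [Subgroup.mem_zpowers_iff, Subgroup.mem_zpowers_iff]
  apply exists_congr
  intro j
  rw [conj_zpow]
  constructor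
  · intro h
    have := congrArg (fun z => k⁻¹ * z * k) h
    simpa [mul_assoc] using this
  · intro h; rw [h]

theorem conj_mem_norIn {t k n : Equiv.Perm GolayPt} (hk : k ∈ M24) :
    k * n * k⁻¹ ∈ norIn (k * t * k⁻¹) ↔ n ∈ norIn t := by
  rw [mem_norIn, mem_norIn, conj_mem_M24_iff hk]
  have e : k * n * k⁻¹ * (k * t * k⁻¹) * (k * n * k⁻¹)⁻¹ = k * (n * t * n⁻¹) * k⁻¹ := by group
  rw [e, conj_mem_zpowers_iff]

theorem card_conj_family {F : Equiv.Perm GolayPt → Subgroup (Equiv.Perm GolayPt)} {t k : Equiv.Perm GolayPt}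
    (h : ∀ c, k * c * k⁻¹ ∈ F (k * t * k⁻¹) ↔ c ∈ F t) : Nat.card (F (k * t * k⁻¹)) = Nat.card (F t) := by
  symm
  apply Nat.card_congr
  exact
    { toFun := fun c => ⟨k * c.1 * k⁻¹, (h c.1).2 c.2⟩
      invFun := fun c => ⟨k⁻¹ * c.1 * k, by
        rw [← h]
        have e : k * (k⁻¹ * c.1 * k) * k⁻¹ = c.1 := by group
        rw [e]; exact c.2⟩
      left_inv := by
        intro c; apply Subtype.ext
        show k⁻¹ * (k * c.1 * k⁻¹) * k = c.1
        group
      right_inv := by
        intro c; apply Subtype.ext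
        show k * (k⁻¹ * c.1 * k) * k⁻¹ = c.1
        group }

theorem card_norIn_conj {t k : Equiv.Perm GolayPt} (hk : k ∈ M24) :
    Nat.card (norIn (k * t * k⁻¹)) = Nat.card (norIn t) :=
  card_conj_family (F := norIn) (fun _ => conj_mem_norIn hk)

/-- a subgroup of `↥M24` and the corresponding group of permutations have the same order -/
theorem card_sub_eq {K : Subgroup ↥M24} {H : Subgroup (Equiv.Perm GolayPt)} (hH : H ≤ M24)
    (h : ∀ n : ↥M24, n ∈ K ↔ (n : Equiv.Perm GolayPt) ∈ H) : Nat.card K = Nat.card H := by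
  apply Nat.card_congr
  exact
    { toFun := fun n => ⟨n.1.1, (h n.1).1 n.2⟩
      invFun := fun c => ⟨⟨c.1, hH c.2⟩, (h _).2 c.2⟩
      left_inv := fun _ => rfl
      right_inv := fun _ => rfl }

theorem coe_mem_zpowers_iff (x y : ↥M24) :
    (y : Equiv.Perm GolayPt) ∈ Subgroup.zpowers (x : Equiv.Perm GolayPt) ↔ y ∈ Subgroup.zpowers x := by
  rw [Subgroup.mem_zpowers_iff, Subgroup.mem_zpowers_iff]
  apply exists_congr
  intro j
  rw [← Subgroup.coe_zpow, Subtype.ext_iff]

theorem mem_normalizer_M24 (x n : ↥M24) :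
    n ∈ Subgroup.normalizer (Subgroup.zpowers x : Set ↥M24) ↔ (n : Equiv.Perm GolayPt) ∈ norIn (x : Equiv.Perm GolayPt) := by
  rw [mem_normalizer_zpowers_iff, mem_norIn, ← coe_mem_zpowers_iff]
  simp

theorem mem_centralizer_M24 (x c : ↥M24) :
    c ∈ Subgroup.centralizer (Subgroup.zpowers x : Set ↥M24) ↔ (c : Equiv.Perm GolayPt) ∈ cenIn (x : Equiv.Perm GolayPt) := by
  rw [mem_centralizer_zpowers_iff, mem_cenIn, Subtype.ext_iff]
  simp

theorem norIn_le (t : Equiv.Perm GolayPt) : norIn t ≤ M24 := inf_le_left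

theorem cenIn_le (t : Equiv.Perm GolayPt) : cenIn t ≤ M24 := fun _ h => h.1

/-! ### powers of packed tables -/

/-- the packed identity -/
def idP : ℕ := 984818244535754528103549039458486304

theorem idP_in : inM24P idP = true := by decide +kernel

theorem permP_idP : permP idP = 1 := by
  rw [permP_of_tbl (L := idTbl) (by decide +kernel), permOf_idTbl]

noncomputable def powP (A : ℕ) : ℕ → ℕ
  | 0 => idP
  | k + 1 => mulP A (powP A k)

theorem VP_powP {A : ℕ} (hA : VP A) : ∀ k, VP (powP A k)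
  | 0 => inM24P_VP idP_in
  | k + 1 => VP_mulP hA (VP_powP hA k)

theorem pow_permP {A : ℕ} (hA : VP A) : ∀ k, (permP A) ^ k = permP (powP A k)
  | 0 => by rw [pow_zero, powP, permP_idP]
  | k + 1 => by rw [pow_succ', pow_permP hA k, permP_mul hA (VP_powP hA k), powP]

/-- elements normalising `⟨permP A⟩` conjugate `permP A` to one of its first `r` powers, `r` the order -/
theorem norIn_pow {A : ℕ} (hA : VP A) {r : ℕ} (hr : orderOf (permP A) = r) {n : Equiv.Perm GolayPt}
    (hn : n ∈ norIn (permP A)) : ∃ k, k < r ∧ n * permP A = permP (powP A k) * n := by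
  have h := (mem_norIn.1 hn).2
  rw [mem_zpowers_iff_mem_range_orderOf, hr, Finset.mem_image] at h
  obtain ⟨k, hk, hkn⟩ := h
  refine ⟨k, Finset.mem_range.1 hk, ?_⟩
  rw [← pow_permP hA, hkn]
  group

theorem mem_norIn_of_pow {A : ℕ} (hA : VP A) {n : Equiv.Perm GolayPt} (hn : n ∈ M24) {k : ℕ}
    (h : n * permP A = permP (powP A k) * n) : n ∈ norIn (permP A) := by
  rw [mem_norIn]
  refine ⟨hn, ?_⟩
  rw [h, ← pow_permP hA, mul_inv_cancel_right]
  exact Subgroup.pow_mem _ (Subgroup.mem_zpowers _) k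

theorem orderOf_permP {A : ℕ} (hA : VP A) (cA : canonP A) {p : ℕ} (hp : p.Prime) (h1 : Nat.beq A idP = false)
    (hpow : Nat.beq (powP A p) idP = true) : orderOf (permP A) = p := by
  have : Fact p.Prime := ⟨hp⟩
  apply orderOf_eq_prime
  · rw [pow_permP hA, Nat.eq_of_beq_eq_true hpow, permP_idP]
  · intro h
    rw [← permP_idP] at h
    have := eq_of_permP_eq cA (canonB_spec (by decide +kernel)) hA (inM24P_VP idP_in) h
    rw [this] at h1
    simp at h1

end Cfsg.Agent.Lib.Helper10
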