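import Mathlib
import Cfsg.Agent.Lib.Helper10.Singular2
import Cfsg.Agent.Lib.Helper8.FStar

set_option autoImplicit false

/-! If `F*(C_G(z))` is extraspecial, its image in `G` satisfies the elementwise description `ES`. -/

namespace Cfsg.Agent.Lib.Helper10

open Cfsg Cfsg.Agent.Lib.Helper27

theorem center_le_gfit2 (C : Type*) [Group C] :
    Subgroup.center C ≤ generalizedFittingSubgroup C := by
  refine le_trans ?_ le_sup_right
  have hn : Group.IsNilpotent (Subgroup.center C) :=
    ⟨1, Subgroup.upperCentralSeries_one_eq_top_iff.2 inferInstance⟩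
  exact le_sSup (show Subgroup.center C ∈ {N : Subgroup C | N.Normal ∧ Group.IsNilpotent N} from
    ⟨inferInstance, hn⟩)

theorem fstar_ES {G : Type*} [Group G] [Finite G] (z : G) (hz : orderOf z = 2)
    (hE : Cfsg.IsExtraspecial 2
      ↥(Cfsg.generalizedFittingSubgroup ↥(Subgroup.centralizer ({z} : Set G)))) :
    ES ((Cfsg.generalizedFittingSubgroup ↥(Subgroup.centralizer ({z} : Set G))).map
      (Subgroup.centralizer ({z} : Set G)).subtype) z := by
  have hz1 : z ≠ 1 := by
    intro h; rw [h, orderOf_one] at hz; omega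
  obtain ⟨F, hF⟩ : ∃ F, F = Cfsg.generalizedFittingSubgroup ↥(Subgroup.centralizer ({z} : Set G)) :=
    ⟨_, rfl⟩
  rw [← hF] at hE ⊢
  have hFn : F.Normal := hF ▸ Cfsg.Agent.Lib.Helper8.generalizedFittingSubgroup_normal
  have hzC : z ∈ Subgroup.centralizer ({z} : Set G) := Subgroup.mem_centralizer_singleton_iff.2 rfl
  have hzcen : (⟨z, hzC⟩ : ↥(Subgroup.centralizer ({z} : Set G))) ∈
      Subgroup.center ↥(Subgroup.centralizer ({z} : Set G)) := by
    rw [Subgroup.mem_center_iff]
    intro x
    exact Subtype.ext (Subgroup.mem_centralizer_singleton_iff.1 x.2)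
  have hzF : (⟨z, hzC⟩ : ↥(Subgroup.centralizer ({z} : Set G))) ∈ F := by
    rw [hF]; exact center_le_gfit2 _ hzcen
  have hL2 : Subgroup.centralizer (F : Set ↥(Subgroup.centralizer ({z} : Set G)))
      = (Subgroup.center ↥F).map F.subtype := by
    ext x
    rw [mem_center_map_iff, Subgroup.mem_centralizer_iff]
    constructor
    · intro h
      refine ⟨?_, fun q hq => h q hq⟩
      have h1 : x ∈ Subgroup.centralizer (F : Set ↥(Subgroup.centralizer ({z} : Set G))) :=
        Subgroup.mem_centralizer_iff.2 h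
      rw [hF] at h1 ⊢
      exact Cfsg.Agent.Lib.Helper8.centralizer_generalizedFitting_le h1
    · intro h q hq
      exact h.2 q hq
  have hL3 : Subgroup.centralizer (((Subgroup.center ↥F).map F.subtype :
      Subgroup ↥(Subgroup.centralizer ({z} : Set G))) : Set ↥(Subgroup.centralizer ({z} : Set G)))
      ≤ Subgroup.normalizer (F : Set ↥(Subgroup.centralizer ({z} : Set G))) := by
    rw [Subgroup.normalizer_eq_top_iff.2 hFn]; exact le_top
  obtain ⟨z', hES, hmem⟩ := ES.of_extra F hE hL2 hL3
  have hzz' : z' = ⟨z, hzC⟩ := by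
    have h1 : (⟨z, hzC⟩ : ↥(Subgroup.centralizer ({z} : Set G))) ∈ (Subgroup.center ↥F).map F.subtype := by
      rw [mem_center_map_iff]
      exact ⟨hzF, fun y _ => Subgroup.mem_center_iff.1 hzcen y⟩
    rcases (hmem _).1 h1 with h2 | h2
    · exact absurd (congrArg Subtype.val h2) hz1
    · exact h2.symm
  rw [hzz'] at hES
  refine ⟨⟨_, hES.mem, rfl⟩, hz1, congrArg Subtype.val hES.sq, ?_, ?_, ?_, ?_, ?_⟩
  · rintro _ ⟨q, hq, rfl⟩
    exact congrArg Subtype.val (hES.cen q hq)
  · rintro _ ⟨x, hx, rfl⟩ _ ⟨y, hy, rfl⟩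
    rcases hES.comm x hx y hy with h | h
    · left; exact congrArg Subtype.val h
    · right; exact congrArg Subtype.val h
  · rintro _ ⟨x, hx, rfl⟩
    rcases hES.sqs x hx with h | h
    · left; exact congrArg Subtype.val h
    · right; exact congrArg Subtype.val h
  · intro x hx
    have hxC : x ∈ Subgroup.centralizer ({z} : Set G) :=
      Subgroup.mem_centralizer_singleton_iff.2 (hx z ⟨_, hES.mem, rfl⟩).symm
    rcases hES.cent ⟨x, hxC⟩ (fun q hq => Subtype.ext (hx q ⟨q, hq, rfl⟩)) with h | h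
    · left; exact congrArg Subtype.val h
    · right; exact congrArg Subtype.val h
  · rintro x hx _ ⟨q, hq, rfl⟩
    have hxC : x ∈ Subgroup.centralizer ({z} : Set G) :=
      Subgroup.mem_centralizer_singleton_iff.2 hx
    exact ⟨_, hES.nor ⟨x, hxC⟩ (Subtype.ext hx) q hq, rfl⟩

end Cfsg.Agent.Lib.Helper10
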