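/-
More predicates for subgroups of M24 listed by packed tables.
-/
import Cfsg.Agent.Lib.Helper10.ElemNor
import Cfsg.Agent.Lib.Helper28.GolaySix

set_option autoImplicit false

namespace Cfsg.Agent.Lib.Helper10

open Cfsg Cfsg.Agent.Lib.Helper28
open scoped Pointwise

/-- `g` stabilises the set with mask `m`, in terms of the image function of `g` -/
def stabMF (m : ℕ) (f : ℕ → ℕ) : Bool :=
  allBelow (fun i => cond (Nat.testBit m i) (Nat.testBit m (f i)) true) 24

theorem stabMF_iff (m : ℕ) {g : Equiv.Perm GolayPt} {f : ℕ → ℕ} (hf : IsFn g f) :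
    stabMF m f = true ↔ g • unmask m = unmask m := by
  constructor
  · intro h
    apply smul_eq_of_maps
    intro p hp
    have hi := idx_lt p
    have h1 := allBelow_spec h _ hi
    rw [mem_unmask] at hp
    simp only [hp, cond_true] at h1
    rw [← pt_idx p, (hf _ hi).1, mem_unmask, idx_pt _ (hf _ hi).2]
    exact h1
  · intro h
    apply allBelow_of
    intro i hi
    cases hb : Nat.testBit m i with
    | false => rfl
    | true =>
      have h1 : pt i ∈ unmask m := by rw [mem_unmask, idx_pt i hi]; exact hb
      have h2 := (apply_mem_iff_of_smul_eq h (pt i)).2 h1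
      rw [(hf i hi).1, mem_unmask, idx_pt _ (hf i hi).2] at h2
      exact h2

theorem sqP_iff {A : ℕ} (hA : VP A) : Nat.beq (mulP A A) idP = true ↔ permP A * permP A = 1 := by
  rw [permP_mul hA hA, Nat.beq_eq, ← permP_idP]
  constructor
  · intro h; rw [h]
  · intro h
    exact eq_of_permP_eq (canonP_mulP _ _) (canonB_spec (by decide +kernel)) (VP_mulP hA hA) (inM24P_VP idP_in) h

theorem eqP_iff {A B : ℕ} (hA : VP A) (hB : VP B) (cA : canonP A) (cB : canonP B) :
    Nat.beq A B = true ↔ permP A = permP B := by
  rw [Nat.beq_eq]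
  exact ⟨fun h => by rw [h], eq_of_permP_eq cA cB hA hB⟩

/-- a family of subgroups compatible with conjugation and an action -/
theorem card_conj_family' {α : Type*} [MulAction (Equiv.Perm GolayPt) α]
    {F : α → Subgroup (Equiv.Perm GolayPt)} {X : α} {k : Equiv.Perm GolayPt}
    (h : ∀ c, k * c * k⁻¹ ∈ F (k • X) ↔ c ∈ F X) : Nat.card (F (k • X)) = Nat.card (F X) := by
  symm
  apply Nat.card_congr
  exact
    { toFun := fun c => ⟨k * c.1 * k⁻¹, (h c.1).2 c.2⟩
      invFun := fun c => ⟨k⁻¹ * c.1 * k, by
        rw [← h]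
        have e : k * (k⁻¹ * c.1 * k) * k⁻¹ = c.1 := by group
        rw [e]; exact c.2⟩
      left_inv := by
        intro c; apply Subtype.ext
        show k⁻¹ * (k * c.1 * k⁻¹) * k = c.1
        group
      right_inv := by
        intro c; apply Subtype.ext
        show k * (k⁻¹ * c.1 * k) * k⁻¹ = c.1
        group }

end Cfsg.Agent.Lib.Helper10
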