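/-
The subgroup of M24 fixing every member of a system of sets; listings by packed tables.
-/
import Cfsg.Agent.Lib.Helper10.PackedMore

set_option autoImplicit false

namespace Cfsg.Agent.Lib.Helper10

open Cfsg Cfsg.Agent.Lib.Helper28
open scoped Pointwise

/-- the elements of M24 fixing every member of `S` -/
def fixSys (S : Finset (Finset GolayPt)) : Subgroup (Equiv.Perm GolayPt) where
  carrier := {g | g ∈ M24 ∧ ∀ t ∈ S, g • t = t}
  mul_mem' := by
    rintro a b ⟨ha, ha'⟩ ⟨hb, hb'⟩
    exact ⟨M24.mul_mem ha hb, fun t ht => by rw [mul_smul, hb' t ht, ha' t ht]⟩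
  one_mem' := ⟨M24.one_mem, fun t _ => one_smul _ t⟩
  inv_mem' := by
    rintro a ⟨ha, ha'⟩
    exact ⟨M24.inv_mem ha, fun t ht => by rw [inv_smul_eq_iff, ha' t ht]⟩

theorem mem_fixSys {S : Finset (Finset GolayPt)} {g : Equiv.Perm GolayPt} :
    g ∈ fixSys S ↔ g ∈ M24 ∧ ∀ t ∈ S, g • t = t := Iff.rfl

theorem fixSys_le (S : Finset (Finset GolayPt)) : fixSys S ≤ M24 := fun _ h => h.1

theorem conj_mem_fixSys {S : Finset (Finset GolayPt)} {k c : Equiv.Perm GolayPt} (hk : k ∈ M24) :
    k * c * k⁻¹ ∈ fixSys (k • S) ↔ c ∈ fixSys S := by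
  rw [mem_fixSys, mem_fixSys, conj_mem_M24_iff hk]
  apply and_congr_right
  intro _
  constructor
  · intro h t ht
    have := h (k • t) (Finset.smul_mem_smul_finset ht)
    rw [mul_smul, mul_smul, inv_smul_smul, smul_left_cancel_iff] at this
    exact this
  · intro h t ht
    obtain ⟨y, hy, rfl⟩ := Finset.mem_smul_finset.1 ht
    rw [mul_smul, mul_smul, inv_smul_smul, h y hy]

theorem card_fixSys_smul {S : Finset (Finset GolayPt)} {k : Equiv.Perm GolayPt} (hk : k ∈ M24) :
    Nat.card (fixSys (k • S)) = Nat.card (fixSys S) :=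
  card_conj_family' (F := fixSys) (fun _ => conj_mem_fixSys hk)

/-- the test for `fixSys (decL ms)` on image functions -/
def sysQ (ms : List ℕ) (f : ℕ → ℕ) : Bool := ms.all fun m => stabMF m f

theorem sysQ_iff (ms : List ℕ) {g : Equiv.Perm GolayPt} {f : ℕ → ℕ} (hf : IsFn g f) :
    sysQ ms f = true ↔ ∀ t ∈ decL ms, g • t = t := by
  rw [sysQ, List.all_eq_true]
  constructor
  · intro h t ht
    obtain ⟨m, hm, rfl⟩ := mem_decL.1 ht
    exact (stabMF_iff m hf).1 (h m hm)
  · intro h m hm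
    exact (stabMF_iff m hf).2 (h _ (mem_decL.2 ⟨m, hm, rfl⟩))

theorem smul_unmask_of_mem {ms : List ℕ} {g : Equiv.Perm GolayPt} (hg : g ∈ fixSys (decL ms)) {m : ℕ} (hm : m ∈ ms) :
    g • unmask m = unmask m := hg.2 _ (mem_decL.2 ⟨m, hm, rfl⟩)

/-- the list `L` lists the group `fixSys (decL ms)` -/
structure Listing (ms L : List ℕ) : Prop where
  keys : incrK L = true
  ok : okP (fun C => sysQ ms (gP C)) L = true
  cov : ∀ g ∈ fixSys (decL ms), ∃ C ∈ L, g = permP C

theorem Listing.spec {ms L : List ℕ} (h : Listing ms L) {C : ℕ} (hC : C ∈ L) :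
    inM24P C = true ∧ canonP C ∧ permP C ∈ fixSys (decL ms) := by
  obtain ⟨h1, h2, h3⟩ := okP_spec h.ok hC
  exact ⟨h1, h2, permP_mem h1, (sysQ_iff ms (isFn_permP (inM24P_VP h1))).1 h3⟩

theorem Listing.card {ms L : List ℕ} (h : Listing ms L) : Nat.card (fixSys (decL ms)) = L.length :=
  card_of_listP h.keys (fun _ hC => ⟨inM24P_VP (h.spec hC).1, (h.spec hC).2.1⟩)
    (fun _ hC => (h.spec hC).2.2) h.cov

/-- the image of a point of an invariant set -/
theorem idx_mem_of_smul {g : Equiv.Perm GolayPt} {m : ℕ} (h : g • unmask m = unmask m) {i : ℕ} (hi : i < 24)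
    (hb : Nat.testBit m i = true) : Nat.testBit m (idx (g (pt i))) = true := by
  have h1 : pt i ∈ unmask m := by rw [mem_unmask, idx_pt i hi]; exact hb
  have h2 := (apply_mem_iff_of_smul_eq h (pt i)).2 h1
  rwa [mem_unmask] at h2

/-- the coverage part of a listing, from a certificate: `mk i` is the mask of an invariant set containing the
`i`-th base point -/
theorem Listing.of_cert {ms L Ts : List ℕ} (m0 m1 m2 m3 m4 : ℕ) (h0 : m0 ∈ ms) (h1 : m1 ∈ ms) (h2 : m2 ∈ ms)
    (h3 : m3 ∈ ms) (h4 : m4 ∈ ms)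
    (b0 : Nat.testBit m0 23 = true) (b1 : Nat.testBit m1 0 = true) (b2 : Nat.testBit m2 1 = true)
    (b3 : Nat.testBit m3 2 = true) (b4 : Nat.testBit m4 3 = true)
    (keys : incrK L = true) (ok : okP (fun C => sysQ ms (gP C)) L = true) (hTs : Ts.all inM24P = true)
    (cov : covChkF (sysQ ms) Ts L = true)
    (lookup : allBelow (fun a0 => cond (Nat.testBit m0 a0) (allBelow (fun a1 => cond (and (Nat.testBit m1 a1)
      (not (Nat.beq a1 a0))) (allBelow (fun a2 => cond (and (Nat.testBit m2 a2) (and (not (Nat.beq a2 a0))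
      (not (Nat.beq a2 a1)))) (allBelow (fun a3 => cond (and (Nat.testBit m3 a3) (and (not (Nat.beq a3 a0))
      (and (not (Nat.beq a3 a1)) (not (Nat.beq a3 a2))))) (allBelow (fun a4 => cond (and (Nat.testBit m4 a4)
      (and (not (Nat.beq a4 a0)) (and (not (Nat.beq a4 a1)) (and (not (Nat.beq a4 a2)) (not (Nat.beq a4 a3))))))
      (hasPatP Ts a0 a1 a2 a3 a4) true) 24) true) 24) true) 24) true) 24) true) 24 = true) :
    Listing ms L := by
  refine ⟨keys, ok, ?_⟩
  intro g hg
  have e0 : g (pt 23) = pt (idx (g (pt 23))) := (pt_idx _).symm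
  have e1 : g (pt 0) = pt (idx (g (pt 0))) := (pt_idx _).symm
  have e2 : g (pt 1) = pt (idx (g (pt 1))) := (pt_idx _).symm
  have e3 : g (pt 2) = pt (idx (g (pt 2))) := (pt_idx _).symm
  have e4 : g (pt 3) = pt (idx (g (pt 3))) := (pt_idx _).symm
  have c0 := idx_mem_of_smul (smul_unmask_of_mem hg h0) (by norm_num) b0
  have c1 := idx_mem_of_smul (smul_unmask_of_mem hg h1) (by norm_num) b1
  have c2 := idx_mem_of_smul (smul_unmask_of_mem hg h2) (by norm_num) b2
  have c3 := idx_mem_of_smul (smul_unmask_of_mem hg h3) (by norm_num) b3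
  have c4 := idx_mem_of_smul (smul_unmask_of_mem hg h4) (by norm_num) b4
  have nb : ∀ {i j : ℕ}, i < 24 → j < 24 → i ≠ j → Nat.beq (idx (g (pt i))) (idx (g (pt j))) = false := by
    intro i j hi hj hij
    cases hb : Nat.beq (idx (g (pt i))) (idx (g (pt j))) with
    | false => rfl
    | true =>
      exfalso
      exact idx_ne hi hj hij (pt_idx _).symm (Nat.eq_of_beq_eq_true hb)
  have l0 := allBelow_spec lookup _ (idx_lt (g (pt 23)))
  rw [c0, cond_true] at l0
  have l1 := allBelow_spec l0 _ (idx_lt (g (pt 0)))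
  simp only [c1, nb (i := 0) (j := 23) (by norm_num) (by norm_num) (by norm_num), Bool.not_false, Bool.and_self,
    cond_true] at l1
  have l2 := allBelow_spec l1 _ (idx_lt (g (pt 1)))
  simp only [c2, nb (i := 1) (j := 23) (by norm_num) (by norm_num) (by norm_num),
    nb (i := 1) (j := 0) (by norm_num) (by norm_num) (by norm_num), Bool.not_false, Bool.and_self,
    cond_true] at l2
  have l3 := allBelow_spec l2 _ (idx_lt (g (pt 2)))
  simp only [c3, nb (i := 2) (j := 23) (by norm_num) (by norm_num) (by norm_num),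
    nb (i := 2) (j := 0) (by norm_num) (by norm_num) (by norm_num),
    nb (i := 2) (j := 1) (by norm_num) (by norm_num) (by norm_num), Bool.not_false, Bool.and_self,
    cond_true] at l3
  have l4 := allBelow_spec l3 _ (idx_lt (g (pt 3)))
  simp only [c4, nb (i := 3) (j := 23) (by norm_num) (by norm_num) (by norm_num),
    nb (i := 3) (j := 0) (by norm_num) (by norm_num) (by norm_num),
    nb (i := 3) (j := 1) (by norm_num) (by norm_num) (by norm_num),
    nb (i := 3) (j := 2) (by norm_num) (by norm_num) (by norm_num), Bool.not_false, Bool.and_self,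
    cond_true] at l4
  obtain ⟨T, hT, t0, t1, t2, t3, t4⟩ := hasPatP_spec l4
  have hv : VP T := inM24P_VP (List.all_eq_true.1 hTs T hT)
  apply covChkF_spec cov hTs hg.1 hT (agree5P hv t0 t1 t2 t3 t4 e0 e1 e2 e3 e4)
  intro f hf
  exact (sysQ_iff ms hf).2 hg.2

/-- members of `↥M24` -/
theorem smul_singleton_iff (g : Equiv.Perm GolayPt) (p : GolayPt) : g • ({p} : Finset GolayPt) = {p} ↔ g p = p := by
  rw [Finset.smul_finset_singleton, Finset.singleton_inj, Equiv.Perm.smul_def]

end Cfsg.Agent.Lib.Helper10
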