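/-
Counting vectors of the Leech lattice by generating functions evaluated at a large base
(Kronecker substitution): the number of lattice vectors with all coordinates in a finite list `V`
and with `∑ i, wt i (x i) = n` is a sum over the codewords of base-`B` digits of explicit products.
-/
import Cfsg.Agent.Lib.Helper28.Leech
set_option autoImplicit false
open Cfsg Cfsg.Agent.Lib.Helper28
open scoped Pointwise
namespace Cfsg.Agent.Lib.Helper10

/-- digit extraction -/
theorem card_filter_eq_digit {α : Type*} (X : Finset α) (e : α → ℕ) (B : ℕ) (hB : X.card < B) (n : ℕ) :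
    (X.filter (fun x => e x = n)).card = (∑ x ∈ X, B ^ e x) / B ^ n % B := by
  classical
  have hB0 : 0 < B := by omega
  set c := (X.filter (fun x => e x = n)).card with hc
  set R := ∑ x ∈ X.filter (fun x => e x < n), B ^ e x with hR
  set Q := ∑ x ∈ X.filter (fun x => n < e x), B ^ (e x - n - 1) with hQ
  have h1 : ∑ x ∈ X, B ^ e x = R + B ^ n * (c + B * Q) := by
    rw [← Finset.sum_filter_add_sum_filter_not X (fun x => e x < n)]
    congr 1
    rw [← Finset.sum_filter_add_sum_filter_not (X.filter (fun x => ¬ e x < n)) (fun x => e x = n)]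
    rw [mul_add]
    congr 1
    · rw [Finset.filter_filter]
      have : X.filter (fun x => ¬ e x < n ∧ e x = n) = X.filter (fun x => e x = n) := by
        apply Finset.filter_congr; intro x _; omega
      rw [this, Finset.sum_congr rfl (g := fun _ => B ^ n), Finset.sum_const, smul_eq_mul, mul_comm]
      intro x hx
      rw [(Finset.mem_filter.1 hx).2]
    · rw [Finset.filter_filter]
      have : X.filter (fun x => ¬ e x < n ∧ ¬ e x = n) = X.filter (fun x => n < e x) := by
        apply Finset.filter_congr; intro x _; omega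
      rw [this, hQ, Finset.mul_sum, Finset.mul_sum]
      apply Finset.sum_congr rfl
      intro x hx
      have hx' := (Finset.mem_filter.1 hx).2
      rw [← mul_assoc, ← pow_succ, ← pow_add]
      congr 1; omega
  have h2 : R < B ^ n := by
    rcases Nat.eq_zero_or_pos n with rfl | hn
    · simp [hR]
    · calc R ≤ ∑ x ∈ X.filter (fun x => e x < n), B ^ (n - 1) := by
            apply Finset.sum_le_sum
            intro x hx
            have hx' := (Finset.mem_filter.1 hx).2
            exact Nat.pow_le_pow_right hB0 (by omega)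
        _ = (X.filter (fun x => e x < n)).card * B ^ (n - 1) := by rw [Finset.sum_const, smul_eq_mul]
        _ ≤ X.card * B ^ (n - 1) := Nat.mul_le_mul_right _ (Finset.card_filter_le _ _)
        _ < B * B ^ (n - 1) := Nat.mul_lt_mul_of_pos_right hB (Nat.pow_pos hB0)
        _ = B ^ n := by rw [← pow_succ']; congr 1; omega
  have h3 : c < B := lt_of_le_of_lt (Finset.card_filter_le _ _) hB
  rw [h1, Nat.add_mul_div_left _ _ (Nat.pow_pos hB0), Nat.div_eq_of_lt h2, zero_add,
    Nat.add_mul_mod_self_left, Nat.mod_eq_of_lt h3]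

/-- digit extraction with a sign condition -/
theorem card_filter_sign_eq_digit {α : Type*} (X : Finset α) (e : α → ℕ) (sg : α → ℤ)
    (hsg : ∀ x ∈ X, sg x = 1 ∨ sg x = -1) (s : ℤ) (hs : s = 1 ∨ s = -1)
    (B : ℕ) (hB : X.card < B) (n : ℕ) :
    (X.filter (fun x => sg x = s ∧ e x = n)).card =
      (((∑ x ∈ X, (B : ℤ) ^ e x) + s * ∑ x ∈ X, sg x * (B : ℤ) ^ e x) / 2).toNat / B ^ n % B := by
  classical
  have h1 : (∑ x ∈ X, (B : ℤ) ^ e x) + s * ∑ x ∈ X, sg x * (B : ℤ) ^ e x =
      2 * ((∑ x ∈ X.filter (fun x => sg x = s), B ^ e x : ℕ) : ℤ) := by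
    rw [Finset.mul_sum, ← Finset.sum_add_distrib, Nat.cast_sum, Finset.sum_filter, Finset.mul_sum]
    apply Finset.sum_congr rfl
    intro x hx
    rcases hsg x hx with h | h <;> rcases hs with h' | h' <;> rw [h, h'] <;> norm_num <;> ring
  rw [h1, Int.mul_ediv_cancel_left _ (by norm_num), Int.toNat_natCast,
    ← card_filter_eq_digit _ e B (lt_of_le_of_lt (Finset.card_filter_le _ _) hB) n, Finset.filter_filter]

/-- sign of an integer: `(-1)^z` -/
def tau (z : ℤ) : ℤ := if z % 2 = 0 then 1 else -1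

theorem tau_add (a b : ℤ) : tau (a + b) = tau a * tau b := by
  unfold tau
  split_ifs <;> first | rfl | omega

theorem tau_cases (a : ℤ) : tau a = 1 ∨ tau a = -1 := by
  unfold tau; split_ifs <;> simp

theorem prod_tau {ι : Type*} (s : Finset ι) (f : ι → ℤ) : ∏ i ∈ s, tau (f i) = tau (∑ i ∈ s, f i) := by
  classical
  induction s using Finset.induction_on with
  | empty => simp [tau]
  | insert a s ha ih => rw [Finset.prod_insert ha, Finset.sum_insert ha, tau_add, ih]

/-- counting in a product set -/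
theorem card_pi_filter {ι : Type*} [Fintype ι] [DecidableEq ι] (S : ι → Finset ℤ) (wt : ι → ℤ → ℕ)
    (s : ℤ) (hs : s = 1 ∨ s = -1) (B : ℕ) (hB : ∏ i, (S i).card < B) (n : ℕ) :
    ((Fintype.piFinset S).filter (fun x => tau (∑ i, x i / 4) = s ∧ ∑ i, wt i (x i) = n)).card =
      (((∏ i, ∑ v ∈ S i, (B : ℤ) ^ wt i v) + s * ∏ i, ∑ v ∈ S i, tau (v / 4) * (B : ℤ) ^ wt i v) / 2).toNat
        / B ^ n % B := by
  rw [card_filter_sign_eq_digit (Fintype.piFinset S) (fun x => ∑ i, wt i (x i)) (fun x => tau (∑ i, x i / 4))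
    (fun x _ => tau_cases _) s hs B (by rw [Fintype.card_piFinset]; exact hB) n]
  rw [Finset.prod_univ_sum, Finset.prod_univ_sum]
  congr 5
  · apply Finset.sum_congr rfl
    intro x _
    rw [Finset.prod_pow_eq_pow_sum]
  · congr 1
    apply Finset.sum_congr rfl
    intro x _
    rw [Finset.prod_mul_distrib, Finset.prod_pow_eq_pow_sum, prod_tau]

/-- normal form of membership in the lattice -/
theorem mem_leech_iff_normal (x : GolayPt → ℤ) : x ∈ leechLattice ↔
    ∃ m : ℤ, (m = 0 ∨ m = 1) ∧ ∃ c : Finset GolayPt, IsC c ∧ (∀ i, x i % 4 = m + 2 * chi c i) ∧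
      (∑ i, x i) % 8 = 4 * m := by
  rw [mem_leechLattice_iff]
  constructor
  · rintro ⟨m, c, hc, h1, h2⟩
    unfold Int.ModEq at h1 h2
    by_cases hm : m % 4 < 2
    · refine ⟨m % 4, by omega, c, hc, fun i => ?_, by omega⟩
      have := h1 i
      rcases chi_cases c i with ⟨-, h⟩ | ⟨-, h⟩ <;> rw [h] at this ⊢ <;> omega
    · refine ⟨m % 4 - 2, by omega, cᶜ, isC_compl hc, fun i => ?_, by omega⟩
      have := h1 i
      rcases chi_cases c i with ⟨hi, h⟩ | ⟨hi, h⟩
      · have h' : chi cᶜ i = 0 := by simp [chi, hi]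
        rw [h] at this; rw [h']; omega
      · have h' : chi cᶜ i = 1 := by simp [chi, hi]
        rw [h] at this; rw [h']; omega
  · rintro ⟨m, hm, c, hc, h1, h2⟩
    refine ⟨m, c, hc, fun i => ?_, ?_⟩
    · have := h1 i
      unfold Int.ModEq
      rcases chi_cases c i with ⟨-, h⟩ | ⟨-, h⟩ <;> rw [h] at this ⊢ <;> omega
    · unfold Int.ModEq; omega

/-- the sum condition as a sign condition -/
theorem sum_cond_iff {x : GolayPt → ℤ} {m : ℤ} (hm : m = 0 ∨ m = 1) {c : Finset GolayPt} (hc : IsC c)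
    (h1 : ∀ i, x i % 4 = m + 2 * chi c i) :
    (∑ i, x i) % 8 = 4 * m ↔ tau (∑ i, x i / 4) = 1 - 2 * m := by
  obtain ⟨a, ha⟩ := isC_card_four hc
  have h2 : ∑ i, x i = 24 * m + 2 * (c.card : ℤ) + 4 * ∑ i, x i / 4 := by
    apply sum_repr
    intro i
    rw [← h1 i]
    omega
  rw [h2, ha]
  push_cast
  unfold tau
  rcases hm with rfl | rfl <;> split_ifs <;> omega

open Classical in
/-- the codewords, as a finset of sets -/
noncomputable def codeFin : Finset (Finset GolayPt) := Finset.univ.filter (fun c => IsC c)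

theorem mem_codeFin (c : Finset GolayPt) : c ∈ codeFin ↔ IsC c := by
  unfold codeFin; simp

/-- allowed values at the point `i` -/
def valS (V : List ℤ) (m : ℤ) (c : Finset GolayPt) (i : GolayPt) : Finset ℤ :=
  (V.filter (fun v => v % 4 = m + 2 * chi c i)).toFinset

theorem mem_valS (V : List ℤ) (m : ℤ) (c : Finset GolayPt) (i : GolayPt) (v : ℤ) :
    v ∈ valS V m c i ↔ v ∈ V ∧ v % 4 = m + 2 * chi c i := by
  unfold valS; simp

theorem card_valS_le (V : List ℤ) (m : ℤ) (c : Finset GolayPt) (i : GolayPt) :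
    (valS V m c i).card ≤ V.length :=
  le_trans (List.toFinset_card_le _) (List.length_filter_le _ _)

/-- the digit attached to a parity and a codeword -/
def digMC (B : ℕ) (V : List ℤ) (wt : GolayPt → ℤ → ℕ) (n : ℕ) (m : ℤ) (c : Finset GolayPt) : ℕ :=
  (((∏ i, ∑ v ∈ valS V m c i, (B : ℤ) ^ wt i v) +
    (1 - 2 * m) * ∏ i, ∑ v ∈ valS V m c i, tau (v / 4) * (B : ℤ) ^ wt i v) / 2).toNat / B ^ n % B

/-- master counting theorem -/
theorem ncard_leech (B : ℕ) (V : List ℤ) (hB : V.length ^ 24 < B) (wt : GolayPt → ℤ → ℕ) (n : ℕ) :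
    {x : GolayPt → ℤ | x ∈ leechLattice ∧ (∀ i, x i ∈ V) ∧ ∑ i, wt i (x i) = n}.ncard =
      ∑ c ∈ codeFin, (digMC B V wt n 0 c + digMC B V wt n 1 c) := by
  classical
  set Fib : ℤ → Finset GolayPt → Finset (GolayPt → ℤ) := fun m c =>
    (Fintype.piFinset (valS V m c)).filter (fun x => tau (∑ i, x i / 4) = 1 - 2 * m ∧ ∑ i, wt i (x i) = n)
    with hFib
  have hcard : ∀ m : ℤ, (m = 0 ∨ m = 1) → ∀ c, (Fib m c).card = digMC B V wt n m c := by
    intro m hm c
    apply card_pi_filter
    · omega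
    · refine lt_of_le_of_lt ?_ hB
      calc ∏ i, (valS V m c i).card ≤ ∏ _i : GolayPt, V.length :=
            Finset.prod_le_prod' (fun i _ => card_valS_le V m c i)
        _ = V.length ^ 24 := by rw [Finset.prod_const]; rfl
  have hmem : ∀ m c x, x ∈ Fib m c ↔ (∀ i, x i ∈ V ∧ x i % 4 = m + 2 * chi c i) ∧
      tau (∑ i, x i / 4) = 1 - 2 * m ∧ ∑ i, wt i (x i) = n := by
    intro m c x
    simp only [hFib, Finset.mem_filter, Fintype.mem_piFinset, mem_valS]
  have hset : {x : GolayPt → ℤ | x ∈ leechLattice ∧ (∀ i, x i ∈ V) ∧ ∑ i, wt i (x i) = n} =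
      ↑(codeFin.biUnion (fun c => Fib 0 c ∪ Fib 1 c)) := by
    ext x
    simp only [Set.mem_ofPred_eq, Finset.coe_biUnion, Set.mem_iUnion, Finset.mem_coe, Finset.mem_union,
      hmem, mem_codeFin, exists_prop]
    constructor
    · rintro ⟨hx, hV, hn⟩
      obtain ⟨m, hm, c, hc, h1, h2⟩ := (mem_leech_iff_normal x).1 hx
      refine ⟨c, hc, ?_⟩
      have h3 := (sum_cond_iff hm hc h1).1 h2
      rcases hm with rfl | rfl
      · exact Or.inl ⟨fun i => ⟨hV i, h1 i⟩, h3, hn⟩
      · exact Or.inr ⟨fun i => ⟨hV i, h1 i⟩, h3, hn⟩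
    · rintro ⟨c, hc, ⟨h1, h3, hn⟩ | ⟨h1, h3, hn⟩⟩
      · exact ⟨(mem_leech_iff_normal x).2 ⟨0, Or.inl rfl, c, hc, fun i => (h1 i).2,
          (sum_cond_iff (Or.inl rfl) hc (fun i => (h1 i).2)).2 h3⟩, fun i => (h1 i).1, hn⟩
      · exact ⟨(mem_leech_iff_normal x).2 ⟨1, Or.inr rfl, c, hc, fun i => (h1 i).2,
          (sum_cond_iff (Or.inr rfl) hc (fun i => (h1 i).2)).2 h3⟩, fun i => (h1 i).1, hn⟩
  have hchi : ∀ (c c' : Finset GolayPt), (∀ i, chi c i = chi c' i) → c = c' := by
    intro c c' h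
    ext i
    have := h i
    rcases chi_cases c i with ⟨hi, h1⟩ | ⟨hi, h1⟩ <;> rcases chi_cases c' i with ⟨hi', h2⟩ | ⟨hi', h2⟩
    · simp [hi, hi']
    · omega
    · omega
    · simp [hi, hi']
  have hres : ∀ (m m' : ℤ) (c c' : Finset GolayPt) (x : GolayPt → ℤ), (m = 0 ∨ m = 1) → (m' = 0 ∨ m' = 1) →
      x ∈ Fib m c → x ∈ Fib m' c' → m = m' ∧ c = c' := by
    intro m m' c c' x hm hm' h h'
    rw [hmem] at h h'
    have key : ∀ i, m = m' ∧ chi c i = chi c' i := by
      intro i
      have e1 := (h.1 i).2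
      have e2 := (h'.1 i).2
      rcases chi_cases c i with ⟨-, h1⟩ | ⟨-, h1⟩ <;> rcases chi_cases c' i with ⟨-, h2⟩ | ⟨-, h2⟩ <;>
        rw [h1] at e1 ⊢ <;> rw [h2] at e2 ⊢ <;> omega
    exact ⟨(key none).1, hchi c c' (fun i => (key i).2)⟩
  rw [hset, Set.ncard_coe_finset, Finset.card_biUnion]
  · apply Finset.sum_congr rfl
    intro c _
    rw [Finset.card_union_of_disjoint, hcard 0 (Or.inl rfl), hcard 1 (Or.inr rfl)]
    rw [Finset.disjoint_left]
    intro x h h'
    have := (hres 0 1 c c x (Or.inl rfl) (Or.inr rfl) h h').1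
    omega
  · intro c _ c' _ hcc
    show Disjoint (Fib 0 c ∪ Fib 1 c) (Fib 0 c' ∪ Fib 1 c')
    rw [Finset.disjoint_left]
    intro x h h'
    apply hcc
    rw [Finset.mem_union] at h h'
    rcases h with h | h <;> rcases h' with h' | h'
    · exact (hres _ _ _ _ x (Or.inl rfl) (Or.inl rfl) h h').2
    · exact (hres _ _ _ _ x (Or.inl rfl) (Or.inr rfl) h h').2
    · exact (hres _ _ _ _ x (Or.inr rfl) (Or.inl rfl) h h').2
    · exact (hres _ _ _ _ x (Or.inr rfl) (Or.inr rfl) h h').2

/-- number of codewords of a given weight -/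
theorem card_codeFin_weight (w : ℕ) : (codeFin.filter (fun c => c.card = w)).card =
    countBelow (fun j => Nat.beq (pcF (encF j)) w) 4096 := by
  rw [← ncard_supports_filter (P := fun s => s.card = w) (f := fun m => Nat.beq (pcF m) w)]
  · rw [← Set.ncard_coe_finset]
    congr 1
    ext c
    simp [mem_codeFin]
  · intro s _
    rw [Nat.beq_eq, ← card_eq_pcF]

theorem sum_codeFin_card (f : ℕ → ℕ) :
    ∑ c ∈ codeFin, f c.card = f 0 + 759 * f 8 + 2576 * f 12 + 759 * f 16 + f 24 := by
  classical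
  rw [← Finset.sum_fiberwise_of_maps_to (s := codeFin) (t := ({0, 8, 12, 16, 24} : Finset ℕ))
    (g := fun c => c.card)]
  · have h : ∀ w, ∑ c ∈ codeFin with c.card = w, f c.card =
        countBelow (fun j => Nat.beq (pcF (encF j)) w) 4096 * f w := by
      intro w
      rw [← card_codeFin_weight, Finset.sum_congr rfl (g := fun _ => f w), Finset.sum_const, smul_eq_mul]
      intro c hc
      rw [(Finset.mem_filter.1 hc).2]
    simp only [h]
    have e0 : countBelow (fun j => Nat.beq (pcF (encF j)) 0) 4096 = 1 := by decide +kernel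
    have e8 : countBelow (fun j => Nat.beq (pcF (encF j)) 8) 4096 = 759 := by decide +kernel
    have e12 : countBelow (fun j => Nat.beq (pcF (encF j)) 12) 4096 = 2576 := by decide +kernel
    have e16 : countBelow (fun j => Nat.beq (pcF (encF j)) 16) 4096 = 759 := by decide +kernel
    have e24 : countBelow (fun j => Nat.beq (pcF (encF j)) 24) 4096 = 1 := by decide +kernel
    rw [Finset.sum_insert (by decide), Finset.sum_insert (by decide), Finset.sum_insert (by decide),
      Finset.sum_insert (by decide), Finset.sum_singleton, e0, e8, e12, e16, e24]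
    ring
  · intro c hc
    rw [mem_codeFin] at hc
    have := isC_card hc
    simp only [Finset.mem_insert, Finset.mem_singleton]
    exact this

/-- one-coordinate generating functions, computable -/
def genP (B : ℕ) (V : List ℤ) (w : ℤ → ℕ) (r : ℤ) : ℤ :=
  ((V.filter (fun v => v % 4 = r)).map (fun v => (B : ℤ) ^ w v)).sum

def genD (B : ℕ) (V : List ℤ) (w : ℤ → ℕ) (r : ℤ) : ℤ :=
  ((V.filter (fun v => v % 4 = r)).map (fun v => tau (v / 4) * (B : ℤ) ^ w v)).sum

/-- the digit for a uniform weight, computable -/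
def digU (B : ℕ) (V : List ℤ) (w : ℤ → ℕ) (n : ℕ) (m : ℤ) (k : ℕ) : ℕ :=
  ((genP B V w (m + 2) ^ k * genP B V w m ^ (24 - k) +
    (1 - 2 * m) * (genD B V w (m + 2) ^ k * genD B V w m ^ (24 - k))) / 2).toNat / B ^ n % B

theorem prod_chi (c : Finset GolayPt) (g : ℤ → ℤ) : ∏ i, g (chi c i) = g 1 ^ c.card * g 0 ^ (24 - c.card) := by
  classical
  have h : ∀ i, g (chi c i) = if i ∈ c then g 1 else g 0 := by
    intro i
    unfold chi
    split_ifs <;> rfl
  simp only [h]
  rw [Finset.prod_ite, Finset.prod_const, Finset.prod_const]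
  congr 2
  · congr 1; ext i; simp
  · have : (Finset.univ.filter (fun i => i ∉ c)) = cᶜ := by ext i; simp
    rw [this, Finset.card_compl]; rfl

theorem digMC_uniform (B : ℕ) (V : List ℤ) (hV : V.Nodup) (w : ℤ → ℕ) (n : ℕ) (m : ℤ) (c : Finset GolayPt) :
    digMC B V (fun _ => w) n m c = digU B V w n m c.card := by
  unfold digMC digU
  have h1 : ∀ i, ∑ v ∈ valS V m c i, (B : ℤ) ^ w v = genP B V w (m + 2 * chi c i) := by
    intro i
    unfold valS genP
    rw [List.sum_toFinset _ (hV.filter _)]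
  have h2 : ∀ i, ∑ v ∈ valS V m c i, tau (v / 4) * (B : ℤ) ^ w v = genD B V w (m + 2 * chi c i) := by
    intro i
    unfold valS genD
    rw [List.sum_toFinset _ (hV.filter _)]
  simp only [h1, h2]
  rw [prod_chi c (fun t => genP B V w (m + 2 * t)), prod_chi c (fun t => genD B V w (m + 2 * t))]
  simp only [mul_one, mul_zero, add_zero]

/-- total count for a uniform weight, computable -/
def leechCnt (B : ℕ) (V : List ℤ) (w : ℤ → ℕ) (n : ℕ) : ℕ :=
  (digU B V w n 0 0 + digU B V w n 1 0) + 759 * (digU B V w n 0 8 + digU B V w n 1 8) +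
    2576 * (digU B V w n 0 12 + digU B V w n 1 12) + 759 * (digU B V w n 0 16 + digU B V w n 1 16) +
    (digU B V w n 0 24 + digU B V w n 1 24)

theorem ncard_leech_uniform (B : ℕ) (V : List ℤ) (hV : V.Nodup) (hB : V.length ^ 24 < B) (w : ℤ → ℕ) (n : ℕ) :
    {x : GolayPt → ℤ | x ∈ leechLattice ∧ (∀ i, x i ∈ V) ∧ ∑ i, w (x i) = n}.ncard = leechCnt B V w n := by
  rw [ncard_leech B V hB (fun _ => w) n]
  simp only [digMC_uniform B V hV]
  rw [sum_codeFin_card (fun k => digU B V w n 0 k + digU B V w n 1 k)]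
  rfl

end Cfsg.Agent.Lib.Helper10
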