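/-
Numbers of vectors of the Leech lattice of given norm (at most 64 in the scale of the definitions).
-/
import Cfsg.Agent.Lib.Helper10.LeechCount
set_option autoImplicit false
open Cfsg Cfsg.Agent.Lib.Helper28
namespace Cfsg.Agent.Lib.Helper10

def V8 : List ℤ := [-8,-7,-6,-5,-4,-3,-2,-1,0,1,2,3,4,5,6,7,8]

def sqW (v : ℤ) : ℕ := v.natAbs ^ 2

theorem mem_V8 (v : ℤ) : v ∈ V8 ↔ -8 ≤ v ∧ v ≤ 8 := by
  simp only [V8, List.mem_cons, List.not_mem_nil, or_false]
  omega

theorem V8_nodup : V8.Nodup := by decide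

theorem V8_bound : V8.length ^ 24 < 2 ^ 100 := by decide

theorem sqNorm_eq_sum_sqW (x : GolayPt → ℤ) : sqNorm x = ((∑ i, sqW (x i) : ℕ) : ℤ) := by
  unfold sqNorm sqW
  push_cast
  apply Finset.sum_congr rfl
  intro i _
  rw [sq_abs]

theorem sq_le_sqNorm (x : GolayPt → ℤ) (i : GolayPt) : x i ^ 2 ≤ sqNorm x := by
  unfold sqNorm
  exact Finset.single_le_sum (f := fun i => x i ^ 2) (fun j _ => sq_nonneg _) (Finset.mem_univ i)

theorem mem_V8_of_sqNorm_le {x : GolayPt → ℤ} (h : sqNorm x ≤ 64) (i : GolayPt) : x i ∈ V8 := by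
  rw [mem_V8]
  have := sq_le_sqNorm x i
  constructor <;> nlinarith

theorem ncard_norm (N : ℕ) (hN : N ≤ 64) :
    {x : GolayPt → ℤ | x ∈ leechLattice ∧ sqNorm x = N}.ncard = leechCnt (2 ^ 100) V8 sqW N := by
  rw [← ncard_leech_uniform (2 ^ 100) V8 V8_nodup V8_bound sqW N]
  congr 1
  ext x
  simp only [Set.mem_ofPred_eq]
  constructor
  · rintro ⟨h1, h2⟩
    refine ⟨h1, mem_V8_of_sqNorm_le (by rw [h2]; exact_mod_cast hN), ?_⟩
    rw [sqNorm_eq_sum_sqW] at h2
    exact_mod_cast h2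
  · rintro ⟨h1, -, h2⟩
    refine ⟨h1, ?_⟩
    rw [sqNorm_eq_sum_sqW, h2]

set_option maxRecDepth 100000 in
theorem ncard_norm32 : {x : GolayPt → ℤ | x ∈ leechLattice ∧ sqNorm x = 32}.ncard = 196560 := by
  have := ncard_norm 32 (by norm_num)
  rw [show leechCnt (2 ^ 100) V8 sqW 32 = 196560 by decide +kernel] at this
  exact_mod_cast this

set_option maxRecDepth 100000 in
theorem ncard_norm48 : {x : GolayPt → ℤ | x ∈ leechLattice ∧ sqNorm x = 48}.ncard = 16773120 := by
  have := ncard_norm 48 (by norm_num)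
  rw [show leechCnt (2 ^ 100) V8 sqW 48 = 16773120 by decide +kernel] at this
  exact_mod_cast this

set_option maxRecDepth 100000 in
theorem ncard_norm64 : {x : GolayPt → ℤ | x ∈ leechLattice ∧ sqNorm x = 64}.ncard = 398034000 := by
  have := ncard_norm 64 (by norm_num)
  rw [show leechCnt (2 ^ 100) V8 sqW 64 = 398034000 by decide +kernel] at this
  exact_mod_cast this

end Cfsg.Agent.Lib.Helper10
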