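/-
Counting lattice vectors of given norm with at least `a` coordinates satisfying a property.
-/
import Cfsg.Agent.Lib.Helper10.LeechNorm
set_option autoImplicit false
open Cfsg Cfsg.Agent.Lib.Helper28
namespace Cfsg.Agent.Lib.Helper10

theorem finite_box (V : List ℤ) : {x : GolayPt → ℤ | ∀ i, x i ∈ V}.Finite := by
  have : {x : GolayPt → ℤ | ∀ i, x i ∈ V} = ↑(Fintype.piFinset (fun _ : GolayPt => V.toFinset)) := by
    ext x; simp
  rw [this]
  exact Finset.finite_toSet _

theorem ncard_leech_uniform_list (B : ℕ) (V : List ℤ) (hV : V.Nodup) (hB : V.length ^ 24 < B) (w : ℤ → ℕ)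
    (ns : List ℕ) (hns : ns.Nodup) :
    {x : GolayPt → ℤ | x ∈ leechLattice ∧ (∀ i, x i ∈ V) ∧ ∑ i, w (x i) ∈ ns}.ncard =
      (ns.map (fun n => leechCnt B V w n)).sum := by
  induction ns with
  | nil => simp
  | cons a ns ih =>
    rw [List.nodup_cons] at hns
    have hset : {x : GolayPt → ℤ | x ∈ leechLattice ∧ (∀ i, x i ∈ V) ∧ ∑ i, w (x i) ∈ a :: ns} =
        {x : GolayPt → ℤ | x ∈ leechLattice ∧ (∀ i, x i ∈ V) ∧ ∑ i, w (x i) = a} ∪
        {x : GolayPt → ℤ | x ∈ leechLattice ∧ (∀ i, x i ∈ V) ∧ ∑ i, w (x i) ∈ ns} := by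
      ext x
      simp only [Set.mem_ofPred_eq, List.mem_cons, Set.mem_union]
      constructor
      · rintro ⟨h1, h2, h3 | h3⟩
        · exact Or.inl ⟨h1, h2, h3⟩
        · exact Or.inr ⟨h1, h2, h3⟩
      · rintro (⟨h1, h2, h3⟩ | ⟨h1, h2, h3⟩)
        · exact ⟨h1, h2, Or.inl h3⟩
        · exact ⟨h1, h2, Or.inr h3⟩
    rw [hset, Set.ncard_union_eq ?_ ((finite_box V).subset (fun x hx => hx.2.1))
      ((finite_box V).subset (fun x hx => hx.2.1)), ncard_leech_uniform B V hV hB, ih hns.2,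
      List.map_cons, List.sum_cons]
    rw [Set.disjoint_left]
    rintro x ⟨-, -, h1⟩ ⟨-, -, h2⟩
    rw [h1] at h2
    exact hns.1 h2

/-- norm weight with a marker -/
def wM (p : ℤ → Bool) (v : ℤ) : ℕ := sqW v + (if p v = true then 2048 else 0)

theorem sum_wM (p : ℤ → Bool) (x : GolayPt → ℤ) :
    ∑ i, wM p (x i) = ∑ i, sqW (x i) + (Finset.univ.filter (fun i => p (x i) = true)).card * 2048 := by
  unfold wM
  rw [Finset.sum_add_distrib, ← Finset.sum_filter, Finset.sum_const, smul_eq_mul]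

theorem sum_sqW_le {x : GolayPt → ℤ} (h : ∀ i, x i ∈ V8) : ∑ i, sqW (x i) ≤ 1536 := by
  calc ∑ i, sqW (x i) ≤ ∑ _i : GolayPt, 64 := by
        apply Finset.sum_le_sum
        intro i _
        have := (mem_V8 _).1 (h i)
        unfold sqW
        have h8 : (x i).natAbs ≤ 8 := by omega
        calc (x i).natAbs ^ 2 ≤ 8 ^ 2 := Nat.pow_le_pow_left h8 2
          _ = 64 := by norm_num
    _ = 1536 := by rw [Finset.sum_const]; rfl

theorem ncard_marker (N : ℕ) (hN : N ≤ 64) (p : ℤ → Bool) (a : ℕ) :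
    {x : GolayPt → ℤ | x ∈ leechLattice ∧ sqNorm x = N ∧
      a ≤ (Finset.univ.filter (fun i => p (x i) = true)).card}.ncard =
    ((List.range (25 - a)).map (fun t => leechCnt (2 ^ 100) V8 (wM p) (N + (t + a) * 2048))).sum := by
  have h := ncard_leech_uniform_list (2 ^ 100) V8 V8_nodup V8_bound (wM p)
    ((List.range (25 - a)).map (fun t => N + (t + a) * 2048))
    ((List.nodup_range).map (fun s t hst => by
      have hst' : N + (s + a) * 2048 = N + (t + a) * 2048 := hst
      omega))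
  rw [List.map_map] at h
  rw [show (fun t => leechCnt (2 ^ 100) V8 (wM p) (N + (t + a) * 2048)) =
    (fun n => leechCnt (2 ^ 100) V8 (wM p) n) ∘ (fun t => N + (t + a) * 2048) from rfl, ← h]
  congr 1
  ext x
  simp only [Set.mem_ofPred_eq, List.mem_map, List.mem_range, sum_wM]
  have hc : (Finset.univ.filter (fun i => p (x i) = true)).card ≤ 24 := Finset.card_filter_le _ _
  constructor
  · rintro ⟨h1, h2, h3⟩
    refine ⟨h1, mem_V8_of_sqNorm_le (by rw [h2]; exact_mod_cast hN), ?_⟩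
    rw [sqNorm_eq_sum_sqW] at h2
    have h2' : ∑ i, sqW (x i) = N := by exact_mod_cast h2
    refine ⟨(Finset.univ.filter (fun i => p (x i) = true)).card - a, by omega, ?_⟩
    rw [h2', Nat.sub_add_cancel h3]
  · rintro ⟨h1, h2, t, ht, h3⟩
    have h4 := sum_sqW_le h2
    have h5 : ∑ i, sqW (x i) = N ∧ (Finset.univ.filter (fun i => p (x i) = true)).card = t + a := by
      omega
    refine ⟨h1, ?_, by omega⟩
    rw [sqNorm_eq_sum_sqW, h5.1]

end Cfsg.Agent.Lib.Helper10
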