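/-
Generators of the Leech lattice and a kernel-checkable membership test for explicit vectors.
-/
import Cfsg.Agent.Lib.Helper10.LeechCount
set_option autoImplicit false
open Cfsg Cfsg.Agent.Lib.Helper28
namespace Cfsg.Agent.Lib.Helper10

theorem sum_pt {M : Type*} [AddCommMonoid M] (f : GolayPt → M) : ∑ i, f i = ∑ k ∈ Finset.range 24, f (pt k) := by
  rw [Finset.sum_range, ← Equiv.sum_comp ptEquiv.symm]
  rfl

theorem forall_pt {P : GolayPt → Prop} (h : ∀ k, k < 24 → P (pt k)) (i : GolayPt) : P i := by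
  rw [← pt_idx i]; exact h _ (idx_lt i)

/-- the vector (-3, 1^23) -/
def vOdd : GolayPt → ℤ := fun i => if i = none then -3 else 1

/-- the vector 2 on `c`, 0 elsewhere -/
def vCode (c : Finset GolayPt) : GolayPt → ℤ := fun i => 2 * chi c i

/-- the vector 4 at `i`, -4 at the extra point -/
def vFour (i : GolayPt) : GolayPt → ℤ := Pi.single i 4 - Pi.single none 4

/-- the vector 8 at the extra point -/
def vEight : GolayPt → ℤ := Pi.single none 8

/-- a subgroup containing the generators contains the lattice -/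
theorem leech_le (K : AddSubgroup (GolayPt → ℤ)) (h1 : vOdd ∈ K) (h2 : ∀ c, IsC c → vCode c ∈ K)
    (h4 : ∀ i, vFour i ∈ K) (h8 : vEight ∈ K) : leechLattice ≤ K := by
  intro x hx
  obtain ⟨m, hm, c, hc, hr, hs⟩ := (mem_leech_iff_normal x).1 hx
  obtain ⟨a, ha⟩ := isC_card_four hc
  have hy : ∀ i, ∃ y : ℤ, x i = m * vOdd i + 2 * chi c i + 4 * y := by
    intro i
    have := hr i
    refine ⟨(x i - m * vOdd i - 2 * chi c i) / 4, ?_⟩
    have hv : vOdd i = -3 ∨ vOdd i = 1 := by unfold vOdd; split_ifs <;> simp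
    rcases hm with rfl | rfl <;> rcases hv with hv | hv <;> rw [hv] <;> omega
  choose y hy using hy
  have hsv : ∑ i, vOdd i = 20 := by decide +kernel
  have hsum : ∑ i, x i = 20 * m + 2 * (c.card : ℤ) + 4 * ∑ i, y i := by
    simp_rw [hy]
    rw [Finset.sum_add_distrib, Finset.sum_add_distrib, ← Finset.mul_sum, ← Finset.mul_sum, ← Finset.mul_sum,
      sum_chi, hsv]
    ring
  have hk : ∃ k : ℤ, ∑ i, y i = 2 * k := by
    refine ⟨(∑ i, y i) / 2, ?_⟩
    rw [hsum, ha] at hs
    push_cast at hs
    rcases hm with rfl | rfl <;> omega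
  obtain ⟨k, hk⟩ := hk
  have hx' : x = m • vOdd + vCode c + (∑ i, y i • vFour i + k • vEight) := by
    funext j
    simp only [Pi.add_apply, Pi.smul_apply, smul_eq_mul, Finset.sum_apply, vCode, vFour, vEight, Pi.sub_apply,
      Pi.single_apply]
    rw [hy j]
    have e1 : ∑ i, y i * ((if j = i then 4 else 0) - (if j = none then 4 else 0)) =
        4 * y j - (if j = none then 4 else 0) * ∑ i, y i := by
      simp_rw [mul_sub]
      rw [Finset.sum_sub_distrib, ← Finset.sum_mul]
      simp only [mul_ite, mul_zero, Finset.sum_ite_eq, Finset.mem_univ, if_true]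
      by_cases hj : j = none <;> simp [hj] <;> ring
    rw [e1, hk]
    by_cases hj : j = none <;> simp [hj] <;> ring
  rw [hx']
  exact K.add_mem (K.add_mem (K.zsmul_mem h1 m) (h2 c hc))
    (K.add_mem (K.sum_mem (fun i _ => K.zsmul_mem (h4 i) _)) (K.zsmul_mem h8 k))

/-- mask of a predicate on indices -/
def mkMask (f : ℕ → Bool) (n : ℕ) : ℕ :=
  Nat.rec 0 (fun k ih => Nat.add (cond (f k) (Nat.pow 2 k) 0) ih) n

theorem mkMask_succ (f : ℕ → Bool) (n : ℕ) : mkMask f (n + 1) = (cond (f n) (2 ^ n) 0) + mkMask f n := rfl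

theorem mkMask_lt (f : ℕ → Bool) (n : ℕ) : mkMask f n < 2 ^ n := by
  induction n with
  | zero => simp [mkMask]
  | succ n ih =>
    rw [mkMask_succ, pow_succ]
    cases f n <;> simp <;> omega

theorem testBit_mkMask (f : ℕ → Bool) (n k : ℕ) : (mkMask f n).testBit k = (decide (k < n) && f k) := by
  induction n with
  | zero => simp [mkMask]
  | succ n ih =>
    rw [mkMask_succ]
    have h : (cond (f n) (2 ^ n) 0) + mkMask f n = 2 ^ n * (cond (f n) 1 0) + mkMask f n := by
      cases f n <;> simp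
    rw [h, Nat.testBit_two_pow_mul_add _ (mkMask_lt f n), ih]
    by_cases hk : k < n
    · simp [hk, Nat.lt_succ_of_lt hk]
    · by_cases hk' : k = n
      · subst hk'
        cases f k <;> simp
      · have h1 : ¬ k < n + 1 := by omega
        have h2 : k - n ≠ 0 := by omega
        obtain ⟨t, ht⟩ := Nat.exists_eq_succ_of_ne_zero h2
        simp only [hk, h1, if_false, decide_false, Bool.false_and, ht]
        cases f n <;> simp [Nat.testBit_succ]

/-- sum of an index function -/
def sumN (y : ℕ → ℤ) (n : ℕ) : ℤ := Nat.rec 0 (fun k ih => Int.add (y k) ih) n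

theorem sumN_eq (y : ℕ → ℤ) (n : ℕ) : sumN y n = ∑ k ∈ Finset.range n, y k := by
  induction n with
  | zero => rfl
  | succ n ih =>
    rw [Finset.sum_range_succ, ← ih, add_comm (sumN y n)]; rfl

/-- membership test for the vector `i ↦ y (idx i)` -/
def leechChk (y : ℕ → ℤ) : Bool :=
  allBelow (fun k => decide (y k % 4 = y 0 % 2) || decide (y k % 4 = y 0 % 2 + 2)) 24 &&
  isCodeF (mkMask (fun k => decide (y k % 4 = y 0 % 2 + 2)) 24) &&
  decide (sumN y 24 % 8 = 4 * (y 0 % 2))

theorem leechChk_spec {y : ℕ → ℤ} (h : leechChk y = true) : (fun i => y (idx i)) ∈ leechLattice := by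
  unfold leechChk at h
  rw [Bool.and_eq_true, Bool.and_eq_true, decide_eq_true_eq] at h
  obtain ⟨⟨h1, h2⟩, h3⟩ := h
  have h1' := allBelow_spec h1
  set M := mkMask (fun k => decide (y k % 4 = y 0 % 2 + 2)) 24 with hM
  have hMlt : M < 2 ^ 24 := mkMask_lt _ _
  rw [isCodeF_eq hMlt] at h2
  rw [mem_leech_iff_normal]
  refine ⟨y 0 % 2, by omega, unmask M, ?_, ?_, ?_⟩
  · rw [isC_iff, mask_unmask _ hMlt]; exact h2
  · intro i
    have hi := h1' (idx i) (idx_lt i)
    rw [Bool.or_eq_true, decide_eq_true_eq, decide_eq_true_eq] at hi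
    have hc : chi (unmask M) i = if y (idx i) % 4 = y 0 % 2 + 2 then 1 else 0 := by
      unfold chi
      have : i ∈ unmask M ↔ y (idx i) % 4 = y 0 % 2 + 2 := by
        rw [mem_unmask, hM, testBit_mkMask]
        simp [idx_lt i]
      simp only [this]
    rw [hc]
    split_ifs with hh
    · omega
    · rcases hi with hi | hi
      · omega
      · exact absurd hi hh
  · have e : ∑ k ∈ Finset.range 24, y (idx (pt k)) = ∑ k ∈ Finset.range 24, y k := by
      apply Finset.sum_congr rfl
      intro k hk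
      rw [idx_pt k (Finset.mem_range.1 hk)]
    rw [sum_pt, e, ← h3, sumN_eq]

end Cfsg.Agent.Lib.Helper10
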