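/-
Conway's counting argument: in an even lattice of rank 24 without vectors of norm 2 and with the
numbers of vectors of norm 4, 6, 8 of the Leech lattice, every class modulo twice the lattice contains
a vector of norm at most 8, and the vectors of norm 8 fall into classes of exactly 48.
-/
import Mathlib
set_option autoImplicit false
set_option linter.unusedSectionVars false
set_option linter.style.haveILetI false
namespace Cfsg.Agent.Lib.Helper10

section
variable {ι : Type} [Fintype ι] [DecidableEq ι]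

/-- symmetric biadditive forms on integer vectors -/
structure BForm (b : (ι → ℤ) → (ι → ℤ) → ℤ) : Prop where
  add : ∀ x y z, b (x + y) z = b x z + b y z
  symm : ∀ x y, b x y = b y x

namespace BForm
variable {b : (ι → ℤ) → (ι → ℤ) → ℤ} (hb : BForm b)
include hb

/-- the additive map `x ↦ b x z` -/
def hom (z : ι → ℤ) : (ι → ℤ) →+ ℤ := AddMonoidHom.mk' (fun x => b x z) (fun x y => hb.add x y z)

theorem hom_apply (z x : ι → ℤ) : hb.hom z x = b x z := rfl

theorem zero_left (z : ι → ℤ) : b 0 z = 0 := map_zero (hb.hom z)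

theorem neg_left (x z : ι → ℤ) : b (-x) z = - b x z := map_neg (hb.hom z) x

theorem sub_left (x y z : ι → ℤ) : b (x - y) z = b x z - b y z := map_sub (hb.hom z) x y

theorem q_add (x y : ι → ℤ) : b (x + y) (x + y) = b x x + b y y + 2 * b x y := by
  rw [hb.add, hb.symm x (x + y), hb.symm y (x + y), hb.add, hb.add, hb.symm y x]; ring

theorem q_sub (x y : ι → ℤ) : b (x - y) (x - y) = b x x + b y y - 2 * b x y := by
  rw [hb.sub_left, hb.symm x (x - y), hb.symm y (x - y), hb.sub_left, hb.sub_left, hb.symm y x]; ring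

theorem q_two (z : ι → ℤ) : b (2 • z) (2 • z) = 4 * b z z := by
  rw [two_smul, hb.q_add]; ring

theorem q_neg (z : ι → ℤ) : b (-z) (-z) = b z z := by
  rw [hb.neg_left, hb.symm, hb.neg_left]; ring

theorem card_le_of_orth' {κ : Type} [Fintype κ] (v : κ → ι → ℤ) (hpos : ∀ k, 0 < b (v k) (v k))
    (horth : ∀ k k', k ≠ k' → b (v k) (v k') = 0) : Fintype.card κ ≤ Fintype.card ι := by
  classical
  have hli : LinearIndependent ℤ v := by
    rw [linearIndependent_iff']
    intro s g hg k hk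
    have e : (hb.hom (v k)) (∑ i ∈ s, g i • v i) = ∑ i ∈ s, g i * b (v i) (v k) := by
      rw [map_sum]
      apply Finset.sum_congr rfl
      intro i _
      rw [map_zsmul, smul_eq_mul, hom_apply]
    rw [hg, map_zero, Finset.sum_eq_single k] at e
    · rcases mul_eq_zero.1 e.symm with h | h
      · exact h
      · exact absurd h (ne_of_gt (hpos k))
    · intro i _ hik
      rw [horth i k hik, mul_zero]
    · intro h; exact absurd hk h
  have := hli.fintype_card_le_finrank
  rwa [Module.finrank_fintype_fun_eq_card] at this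

theorem card_le_of_orth (Φ : Finset (ι → ℤ)) (hpos : ∀ y ∈ Φ, 0 < b y y)
    (h : ∀ y ∈ Φ, ∀ y' ∈ Φ, y = y' ∨ y = -y' ∨ b y y' = 0) : Φ.card ≤ 2 * Fintype.card ι := by
  classical
  set f : (ι → ℤ) → Finset (ι → ℤ) := fun y => {y, -y} with hf
  have hfe : ∀ y y' : ι → ℤ, f y = f y' → y = y' ∨ y = -y' := by
    intro y y' hyy
    have : y ∈ f y' := by rw [← hyy]; simp [hf]
    simpa [hf] using this
  have h1 : Φ.card ≤ 2 * (Φ.image f).card := by
    apply Finset.card_le_mul_card_image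
    intro P hP
    obtain ⟨y, hy, rfl⟩ := Finset.mem_image.1 hP
    calc (Φ.filter (fun x => f x = f y)).card ≤ ({y, -y} : Finset (ι → ℤ)).card := by
          apply Finset.card_le_card
          intro x hx
          have := hfe x y (Finset.mem_filter.1 hx).2
          simpa using this
      _ ≤ 2 := Finset.card_le_two
  have hr : ∀ P : ↥(Φ.image f), ∃ y ∈ Φ, f y = P.1 := fun P => Finset.mem_image.1 P.2
  choose r hrΦ hrf using hr
  have h2 : Fintype.card ↥(Φ.image f) ≤ Fintype.card ι := by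
    apply hb.card_le_of_orth' r (fun P => hpos _ (hrΦ P))
    intro P P' hPP
    rcases h _ (hrΦ P) _ (hrΦ P') with h' | h' | h'
    · exfalso; apply hPP; apply Subtype.ext; rw [← hrf P, ← hrf P', h']
    · exfalso; apply hPP; apply Subtype.ext; rw [← hrf P, ← hrf P', h']
      simp only [hf, neg_neg]
      exact Finset.pair_comm _ _
    · exact h'
  rw [Fintype.card_coe] at h2
  omega

end BForm

theorem card_le_two_of_pm (Φ : Finset (ι → ℤ)) (h : ∀ x ∈ Φ, ∀ y ∈ Φ, x = y ∨ x = -y) : Φ.card ≤ 2 := by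
  classical
  rcases Φ.eq_empty_or_nonempty with rfl | ⟨x, hx⟩
  · simp
  · calc Φ.card ≤ ({x, -x} : Finset (ι → ℤ)).card := by
          apply Finset.card_le_card
          intro y hy
          simpa using h y hy x hx
      _ ≤ 2 := Finset.card_le_two

theorem mod_two_main {b : (ι → ℤ) → (ι → ℤ) → ℤ} (hι : Fintype.card ι = 24) (hb : BForm b)
    (L : AddSubgroup (ι → ℤ)) (u : ℤ) (hu : 0 < u)
    (hmin : ∀ x ∈ L, x ≠ 0 → 4 * u ≤ b x x)
    (n4 : {x | x ∈ L ∧ b x x = 4 * u}.ncard = 196560)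
    (n6 : {x | x ∈ L ∧ b x x = 6 * u}.ncard = 16773120)
    (n8 : {x | x ∈ L ∧ b x x = 8 * u}.ncard = 398034000)
    {Q : Type*} [Finite Q] (hQ : Nat.card Q = 2 ^ 24) (π : (ι → ℤ) → Q)
    (hπ : ∀ x ∈ L, ∀ y ∈ L, π x = π y → ∃ z ∈ L, x - y = 2 • z) :
    (∀ κ : Q, ∃ y ∈ L, b y y ≤ 8 * u ∧ π y = κ) ∧
    (∀ x ∈ L, b x x = 8 * u → {y | y ∈ L ∧ b y y = 8 * u ∧ π y = π x}.ncard = 48) := by
  classical
  haveI := Fintype.ofFinite Q
  -- the pair lemma
  have pair : ∀ x ∈ L, ∀ y ∈ L, b x x ≤ 8 * u → b y y ≤ 8 * u → π x = π y →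
      x = y ∨ x = -y ∨ (b x x = 8 * u ∧ b y y = 8 * u ∧ b x y = 0) := by
    intro x hx y hy hxn hyn hxy
    obtain ⟨z, hz, hxz⟩ := hπ x hx y hy hxy
    by_cases h1 : x = y
    · exact Or.inl h1
    by_cases h2 : x = -y
    · exact Or.inr (Or.inl h2)
    right; right
    have hz0 : z ≠ 0 := by
      rintro rfl
      apply h1
      rw [smul_zero] at hxz
      exact sub_eq_zero.1 hxz
    have hz' : x + y = 2 • (z + y) := by
      rw [smul_add, ← hxz, two_smul]; abel
    have hz0' : z + y ≠ 0 := by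
      intro h
      rw [h, smul_zero] at hz'
      exact h2 (eq_neg_of_add_eq_zero_left hz')
    have m1 := hmin z hz hz0
    have m2 := hmin _ (L.add_mem hz hy) hz0'
    have e1 := hb.q_add x y
    have e2 := hb.q_sub x y
    rw [hz', hb.q_two] at e1
    rw [hxz, hb.q_two] at e2
    refine ⟨?_, ?_, ?_⟩ <;> linarith
  have f4 : {x | x ∈ L ∧ b x x = 4 * u}.Finite := Set.finite_of_ncard_ne_zero (by rw [n4]; norm_num)
  have f6 : {x | x ∈ L ∧ b x x = 6 * u}.Finite := Set.finite_of_ncard_ne_zero (by rw [n6]; norm_num)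
  have f8 : {x | x ∈ L ∧ b x x = 8 * u}.Finite := Set.finite_of_ncard_ne_zero (by rw [n8]; norm_num)
  set A4 := f4.toFinset with hA4
  set A6 := f6.toFinset with hA6
  set A8 := f8.toFinset with hA8
  have c4 : A4.card = 196560 := by rw [← n4, Set.ncard_eq_toFinset_card _ f4]
  have c6 : A6.card = 16773120 := by rw [← n6, Set.ncard_eq_toFinset_card _ f6]
  have c8 : A8.card = 398034000 := by rw [← n8, Set.ncard_eq_toFinset_card _ f8]
  have m4 : ∀ x, x ∈ A4 ↔ x ∈ L ∧ b x x = 4 * u := fun x => by simp [hA4]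
  have m6 : ∀ x, x ∈ A6 ↔ x ∈ L ∧ b x x = 6 * u := fun x => by simp [hA6]
  have m8 : ∀ x, x ∈ A8 ↔ x ∈ L ∧ b x x = 8 * u := fun x => by simp [hA8]
  set A0 : Finset (ι → ℤ) := {0} with hA0
  have q0 : b 0 0 = 0 := hb.zero_left 0
  set t : Finset (ι → ℤ) → Q → ℕ := fun A κ => (A.filter (fun x => π x = κ)).card with ht
  have hsum : ∀ A : Finset (ι → ℤ), ∑ κ : Q, t A κ = A.card := fun A =>
    (Finset.card_eq_sum_card_fiberwise (f := π) (s := A) (t := Finset.univ) (fun x _ => Finset.mem_coe.2 (Finset.mem_univ _))).symm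
  -- exclusivity
  have excl : ∀ (A A' : Finset (ι → ℤ)) (a a' : ℤ), a ≠ a' → a ≤ 8 * u → a' ≤ 8 * u →
      (∀ x ∈ A, x ∈ L ∧ b x x = a) → (∀ x ∈ A', x ∈ L ∧ b x x = a') → ∀ κ, t A κ = 0 ∨ t A' κ = 0 := by
    intro A A' a a' haa ha ha' hA hA' κ
    by_contra hcon
    push Not at hcon
    obtain ⟨x, hx⟩ := Finset.card_pos.1 (Nat.pos_of_ne_zero hcon.1)
    obtain ⟨y, hy⟩ := Finset.card_pos.1 (Nat.pos_of_ne_zero hcon.2)
    rw [Finset.mem_filter] at hx hy
    obtain ⟨hxL, hxa⟩ := hA x hx.1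
    obtain ⟨hyL, hya⟩ := hA' y hy.1
    rcases pair x hxL y hyL (by rw [hxa]; exact ha) (by rw [hya]; exact ha') (by rw [hx.2, hy.2]) with h | h | h
    · apply haa; rw [← hxa, ← hya, h]
    · apply haa; rw [← hxa, ← hya, h, hb.q_neg]
    · apply haa; rw [← hxa, ← hya, h.1, h.2.1]
  have small : ∀ (A : Finset (ι → ℤ)) (a : ℤ), a < 8 * u → (∀ x ∈ A, x ∈ L ∧ b x x = a) → ∀ κ, t A κ ≤ 2 := by
    intro A a ha hA κ
    apply card_le_two_of_pm
    intro x hx y hy
    rw [Finset.mem_filter] at hx hy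
    obtain ⟨hxL, hxa⟩ := hA x hx.1
    obtain ⟨hyL, hya⟩ := hA y hy.1
    rcases pair x hxL y hyL (by rw [hxa]; exact ha.le) (by rw [hya]; exact ha.le) (by rw [hx.2, hy.2]) with h | h | h
    · exact Or.inl h
    · exact Or.inr h
    · exfalso; rw [hxa] at h; linarith [h.1]
  have big : ∀ κ, t A8 κ ≤ 48 := by
    intro κ
    have := hb.card_le_of_orth (A8.filter (fun x => π x = κ)) ?_ ?_
    · rw [hι] at this; exact this
    · intro y hy
      rw [Finset.mem_filter, m8] at hy
      rw [hy.1.2]; linarith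
    · intro x hx y hy
      rw [Finset.mem_filter, m8] at hx hy
      rcases pair x hx.1.1 y hy.1.1 hx.1.2.le hy.1.2.le (by rw [hx.2, hy.2]) with h | h | h
      · exact Or.inl h
      · exact Or.inr (Or.inl h)
      · exact Or.inr (Or.inr h.2.2)
  have h0 : ∀ x ∈ A0, x ∈ L ∧ b x x = 0 := by
    intro x hx
    rw [hA0, Finset.mem_singleton] at hx
    rw [hx]; exact ⟨L.zero_mem, q0⟩
  have t0le : ∀ κ, t A0 κ ≤ 1 := fun κ => le_trans (Finset.card_filter_le _ _) (by simp [hA0])
  have h4 : ∀ x ∈ A4, x ∈ L ∧ b x x = 4 * u := fun x hx => (m4 x).1 hx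
  have h6 : ∀ x ∈ A6, x ∈ L ∧ b x x = 6 * u := fun x hx => (m6 x).1 hx
  have h8 : ∀ x ∈ A8, x ∈ L ∧ b x x = 8 * u := fun x hx => (m8 x).1 hx
  have e04 := excl A0 A4 0 (4 * u) (by linarith) (by linarith) (by linarith) h0 h4
  have e06 := excl A0 A6 0 (6 * u) (by linarith) (by linarith) (by linarith) h0 h6
  have e08 := excl A0 A8 0 (8 * u) (by linarith) (by linarith) (by linarith) h0 h8
  have e46 := excl A4 A6 (4 * u) (6 * u) (by linarith) (by linarith) (by linarith) h4 h6
  have e48 := excl A4 A8 (4 * u) (8 * u) (by linarith) (by linarith) (by linarith) h4 h8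
  have e68 := excl A6 A8 (6 * u) (8 * u) (by linarith) (by linarith) (by linarith) h6 h8
  have s4 := small A4 (4 * u) (by linarith) h4
  have s6 := small A6 (6 * u) (by linarith) h6
  have hle : ∀ κ ∈ (Finset.univ : Finset Q), 48 * t A0 κ + 24 * t A4 κ + 24 * t A6 κ + t A8 κ ≤ 48 := by
    intro κ _
    have a1 := e04 κ; have a2 := e06 κ; have a3 := e08 κ; have a4 := e46 κ; have a5 := e48 κ
    have a6 := e68 κ; have a7 := s4 κ; have a8 := s6 κ; have a9 := big κ; have a10 := t0le κ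
    omega
  have htot : ∑ κ : Q, (48 * t A0 κ + 24 * t A4 κ + 24 * t A6 κ + t A8 κ) = ∑ _κ : Q, 48 := by
    rw [Finset.sum_add_distrib, Finset.sum_add_distrib, Finset.sum_add_distrib, ← Finset.mul_sum,
      ← Finset.mul_sum, ← Finset.mul_sum, hsum, hsum, hsum, hsum, c4, c6, c8, Finset.sum_const,
      Finset.card_univ, ← Nat.card_eq_fintype_card, hQ]
    simp [hA0]
  have heq := (Finset.sum_eq_sum_iff_of_le hle).1 htot
  constructor
  · intro κ
    have h := heq κ (Finset.mem_univ _)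
    have : t A0 κ ≠ 0 ∨ t A4 κ ≠ 0 ∨ t A6 κ ≠ 0 ∨ t A8 κ ≠ 0 := by omega
    have ex : ∀ (A : Finset (ι → ℤ)) (a : ℤ), a ≤ 8 * u → (∀ x ∈ A, x ∈ L ∧ b x x = a) → t A κ ≠ 0 →
        ∃ y ∈ L, b y y ≤ 8 * u ∧ π y = κ := by
      intro A a ha hA hne
      obtain ⟨x, hx⟩ := Finset.card_pos.1 (Nat.pos_of_ne_zero hne)
      rw [Finset.mem_filter] at hx
      exact ⟨x, (hA x hx.1).1, by rw [(hA x hx.1).2]; exact ha, hx.2⟩
    rcases this with h' | h' | h' | h'
    · exact ex A0 0 (by linarith) h0 h'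
    · exact ex A4 _ (by linarith) h4 h'
    · exact ex A6 _ (by linarith) h6 h'
    · exact ex A8 _ (by linarith) h8 h'
  · intro x hx hxn
    have h := heq (π x) (Finset.mem_univ _)
    have hne : t A8 (π x) ≠ 0 := by
      apply Nat.ne_of_gt
      apply Finset.card_pos.2
      exact ⟨x, Finset.mem_filter.2 ⟨(m8 x).2 ⟨hx, hxn⟩, rfl⟩⟩
    have a3 := e08 (π x); have a5 := e48 (π x); have a6 := e68 (π x)
    have h48 : t A8 (π x) = 48 := by omega
    rw [← h48]
    show _ = (A8.filter (fun y => π y = π x)).card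
    rw [← Set.ncard_coe_finset]
    congr 1
    ext y
    simp only [Set.mem_ofPred_eq, Finset.coe_filter, m8, and_assoc]

end

end Cfsg.Agent.Lib.Helper10
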