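/-
The Leech lattice modulo twice itself: 2^24 classes, each contains a vector of norm at most 64
(in the scale of the definitions), and the vectors of norm 64 fall into classes of 48.
-/
import Cfsg.Agent.Lib.Helper10.ModTwo
import Cfsg.Agent.Lib.Helper10.LeechNorm
import Cfsg.Agent.S0393
import Cfsg.Prelude.Def_SporadicCombinatorics
set_option autoImplicit false
open Cfsg Cfsg.Agent.Lib.Helper28
namespace Cfsg.Agent.Lib.Helper10

theorem dotInt_self (x : GolayPt → ℤ) : dotInt x x = sqNorm x := by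
  unfold dotInt sqNorm
  apply Finset.sum_congr rfl
  intro i _
  ring

theorem bform_dotInt : BForm (dotInt : (GolayPt → ℤ) → (GolayPt → ℤ) → ℤ) where
  add := fun x y z => by
    unfold dotInt
    rw [← Finset.sum_add_distrib]
    apply Finset.sum_congr rfl
    intro i _
    simp only [Pi.add_apply]; ring
  symm := fun x y => by
    unfold dotInt
    apply Finset.sum_congr rfl
    intro i _
    ring

/-- doubling -/
def dbl : (GolayPt → ℤ) →+ (GolayPt → ℤ) := nsmulAddMonoidHom 2

theorem dbl_apply (x : GolayPt → ℤ) : dbl x = 2 • x := rfl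

theorem dbl_inj : Function.Injective dbl := by
  intro x y h
  funext i
  have := congrFun h i
  simp only [dbl_apply, Pi.smul_apply, nsmul_eq_mul] at this
  push_cast at this
  linarith

/-- twice the lattice -/
def twoLeech : AddSubgroup (GolayPt → ℤ) := leechLattice.map dbl

theorem mem_twoLeech (x : GolayPt → ℤ) : x ∈ twoLeech ↔ ∃ z ∈ leechLattice, x = 2 • z := by
  unfold twoLeech
  rw [AddSubgroup.mem_map]
  constructor
  · rintro ⟨z, hz, rfl⟩; exact ⟨z, hz, rfl⟩
  · rintro ⟨z, hz, rfl⟩; exact ⟨z, hz, rfl⟩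

theorem twoLeech_le : twoLeech ≤ leechLattice := by
  intro x hx
  obtain ⟨z, hz, rfl⟩ := (mem_twoLeech x).1 hx
  exact leechLattice.nsmul_mem hz 2

/-- reduction modulo 2 -/
def red2 : (GolayPt → ℤ) →+ (GolayPt → ZMod 2) :=
  AddMonoidHom.compLeft (Int.castAddHom (ZMod 2)) GolayPt

theorem red2_apply (x : GolayPt → ℤ) (i : GolayPt) : red2 x i = ((x i : ℤ) : ZMod 2) := rfl

theorem red2_surj : Function.Surjective red2 := by
  intro y
  refine ⟨fun i => ((y i).val : ℤ), ?_⟩
  funext i
  rw [red2_apply]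
  simp

theorem range_dbl : dbl.range = red2.ker := by
  ext x
  rw [AddMonoidHom.mem_range, AddMonoidHom.mem_ker]
  constructor
  · rintro ⟨z, rfl⟩
    funext i
    rw [red2_apply, dbl_apply, Pi.zero_apply, ZMod.intCast_zmod_eq_zero_iff_dvd]
    simp only [Pi.smul_apply, nsmul_eq_mul]
    exact Dvd.intro _ rfl
  · intro h
    have h2 : ∀ i, (2 : ℤ) ∣ x i := by
      intro i
      have := congrFun h i
      rw [red2_apply, Pi.zero_apply] at this
      exact (ZMod.intCast_zmod_eq_zero_iff_dvd (x i) 2).1 this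
    choose z hz using h2
    refine ⟨z, ?_⟩
    funext i
    rw [dbl_apply, hz i]
    simp

theorem index_range_dbl : dbl.range.index = 2 ^ 24 := by
  rw [range_dbl, AddSubgroup.index_ker, AddMonoidHom.range_eq_top.2 red2_surj]
  rw [Nat.card_congr (AddSubgroup.topEquiv (G := GolayPt → ZMod 2)).toEquiv, Nat.card_eq_fintype_card,
    Fintype.card_fun, ZMod.card]
  rfl

theorem relIndex_twoLeech : twoLeech.relIndex leechLattice = 2 ^ 24 := by
  have h1 := AddSubgroup.relIndex_mul_index twoLeech_le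
  have h2 : twoLeech.index = 2 ^ 36 * 2 ^ 24 := by
    unfold twoLeech
    rw [AddSubgroup.index_map, (AddMonoidHom.ker_eq_bot_iff dbl).2 dbl_inj, sup_bot_eq,
      Cfsg.Agent.S0393.result, index_range_dbl]
  rw [h2, Cfsg.Agent.S0393.result, mul_comm] at h1
  exact Nat.eq_of_mul_eq_mul_left (by norm_num) h1

/-- the classes of the lattice modulo twice the lattice -/
abbrev LeechQ : Type := ↥leechLattice ⧸ twoLeech.addSubgroupOf leechLattice

theorem card_LeechQ : Nat.card LeechQ = 2 ^ 24 := relIndex_twoLeech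

instance : Finite LeechQ := Nat.finite_of_card_ne_zero (by rw [card_LeechQ]; norm_num)

open Classical in
/-- the class of a vector -/
noncomputable def leechPi (x : GolayPt → ℤ) : LeechQ :=
  if h : x ∈ leechLattice then QuotientAddGroup.mk ⟨x, h⟩ else 0

theorem leechPi_eq_iff {x y : GolayPt → ℤ} (hx : x ∈ leechLattice) (hy : y ∈ leechLattice) :
    leechPi x = leechPi y ↔ ∃ z ∈ leechLattice, x - y = 2 • z := by
  unfold leechPi
  rw [dif_pos hx, dif_pos hy, eq_comm, QuotientAddGroup.eq, AddSubgroup.mem_addSubgroupOf, mem_twoLeech]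
  have : ((-(⟨y, hy⟩ : ↥leechLattice) + ⟨x, hx⟩ : ↥leechLattice) : GolayPt → ℤ) = x - y := by
    show -y + x = x - y
    abel
  rw [this]

theorem leech_mod_two :
    (∀ κ : LeechQ, ∃ y ∈ leechLattice, sqNorm y ≤ 64 ∧ leechPi y = κ) ∧
    (∀ x ∈ leechLattice, sqNorm x = 64 →
      {y | y ∈ leechLattice ∧ sqNorm y = 64 ∧ leechPi y = leechPi x}.ncard = 48) := by
  have main := mod_two_main (ι := GolayPt) (b := dotInt) rfl bform_dotInt leechLattice 8 (by norm_num)
    (by intro x hx h0; rw [dotInt_self]; exact min_norm hx h0)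
    (by simp only [dotInt_self]; exact ncard_norm32)
    (by simp only [dotInt_self]; exact ncard_norm48)
    (by simp only [dotInt_self]; exact ncard_norm64)
    card_LeechQ leechPi (fun x hx y hy h => (leechPi_eq_iff hx hy).1 h)
  simp only [dotInt_self] at main
  exact main

theorem exists_short_rep {x : GolayPt → ℤ} (hx : x ∈ leechLattice) :
    ∃ y ∈ leechLattice, sqNorm y ≤ 64 ∧ ∃ z ∈ leechLattice, x - y = 2 • z := by
  obtain ⟨y, hy, hn, hp⟩ := leech_mod_two.1 (leechPi x)
  exact ⟨y, hy, hn, (leechPi_eq_iff hx hy).1 hp.symm⟩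

theorem ncard_cross {x : GolayPt → ℤ} (hx : x ∈ leechLattice) (hxn : sqNorm x = 64) : (cross x).ncard = 48 := by
  rw [← leech_mod_two.2 x hx hxn]
  congr 1
  ext y
  simp only [cross, Set.mem_ofPred_eq, hxn]
  constructor
  · rintro ⟨h1, h2, h3⟩
    exact ⟨h1, h2, ((leechPi_eq_iff hx h1).2 h3).symm⟩
  · rintro ⟨h1, h2, h3⟩
    exact ⟨h1, h2, (leechPi_eq_iff hx h1).1 h3.symm⟩

end Cfsg.Agent.Lib.Helper10
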