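/-
Conway's extra automorphism of the Leech lattice for the standard sextet.
-/
import Cfsg.Agent.Lib.Helper10.LeechGen
import Cfsg.Agent.Lib.Helper10.LeechModTwo
import Cfsg.Agent.Lib.Helper28.LeechAut
set_option autoImplicit false
open Cfsg Cfsg.Agent.Lib.Helper28
namespace Cfsg.Agent.Lib.Helper10

/-- index of the tetrad of the standard sextet containing the point with index `k` -/
def tixTab : List ℕ := [0, 0, 0, 1, 5, 1, 4, 4, 2, 3, 3, 2, 2, 5, 1, 3, 5, 1, 2, 4, 3, 4, 5, 0]

/-- the members of the tetrad containing the point with index `k` -/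
def tetTab : List (List ℕ) := [[0, 1, 2, 23], [0, 1, 2, 23], [0, 1, 2, 23], [3, 5, 14, 17], [4, 13, 16, 22], [3, 5, 14, 17], [6, 7, 19, 21], [6, 7, 19, 21], [8, 11, 12, 18], [9, 10, 15, 20], [9, 10, 15, 20], [8, 11, 12, 18], [8, 11, 12, 18], [4, 13, 16, 22], [3, 5, 14, 17], [9, 10, 15, 20], [4, 13, 16, 22], [3, 5, 14, 17], [8, 11, 12, 18], [6, 7, 19, 21], [9, 10, 15, 20], [6, 7, 19, 21], [4, 13, 16, 22], [0, 1, 2, 23]]

def tauX (i : GolayPt) : ℕ := tixTab.getD (idx i) 0

/-- tetrad sums -/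
def tetSum (x : GolayPt → ℤ) (k : ℕ) : ℤ := ∑ j with tauX j = k, x j

def sigX (k : ℕ) : ℤ := if k = 0 then -1 else 1

theorem sigX_sq (k : ℕ) : sigX k * sigX k = 1 := by unfold sigX; split_ifs <;> norm_num

/-- twice Conway's map -/
def XiF (x : GolayPt → ℤ) : GolayPt → ℤ := fun i => sigX (tauX i) * (2 * x i - tetSum x (tauX i))

theorem tetSum_add (x y : GolayPt → ℤ) (k : ℕ) : tetSum (x + y) k = tetSum x k + tetSum y k := by
  unfold tetSum
  rw [← Finset.sum_add_distrib]; rfl

theorem XiF_add (x y : GolayPt → ℤ) : XiF (x + y) = XiF x + XiF y := by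
  funext i
  simp only [XiF, Pi.add_apply, tetSum_add]; ring

def XiHom : (GolayPt → ℤ) →+ (GolayPt → ℤ) := AddMonoidHom.mk' XiF XiF_add

theorem XiHom_apply (x : GolayPt → ℤ) : XiHom x = XiF x := rfl

theorem card_tet (i : GolayPt) : (Finset.univ.filter (fun j => tauX j = tauX i)).card = 4 := by
  revert i; decide +kernel

theorem tetSum_XiF (x : GolayPt → ℤ) (i : GolayPt) :
    tetSum (XiF x) (tauX i) = -2 * sigX (tauX i) * tetSum x (tauX i) := by
  have h : tetSum (XiF x) (tauX i) =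
      ∑ j with tauX j = tauX i, (2 * sigX (tauX i) * x j - sigX (tauX i) * tetSum x (tauX i)) := by
    unfold tetSum
    apply Finset.sum_congr rfl
    intro j hj
    rw [Finset.mem_filter] at hj
    simp only [XiF, hj.2]
    unfold tetSum
    ring
  rw [h, Finset.sum_sub_distrib, ← Finset.mul_sum, Finset.sum_const, card_tet]
  unfold tetSum
  simp only [nsmul_eq_mul]
  push_cast
  ring

theorem XiF_XiF (x : GolayPt → ℤ) (i : GolayPt) : XiF (XiF x) i = 4 * x i := by
  have h : XiF (XiF x) i = sigX (tauX i) * (2 * XiF x i - tetSum (XiF x) (tauX i)) := rfl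
  rw [h, tetSum_XiF]
  simp only [XiF]
  have := sigX_sq (tauX i)
  linear_combination (4 * x i) * this

theorem sqNorm_XiF (x : GolayPt → ℤ) : sqNorm (XiF x) = 4 * sqNorm x := by
  unfold sqNorm
  have h1 : ∀ i, XiF x i ^ 2 = 4 * x i ^ 2 - 4 * (x i * tetSum x (tauX i)) + tetSum x (tauX i) ^ 2 := by
    intro i
    simp only [XiF]
    have := sigX_sq (tauX i)
    linear_combination (2 * x i - tetSum x (tauX i)) ^ 2 * this
  simp_rw [h1]
  rw [Finset.sum_add_distrib, Finset.sum_sub_distrib, ← Finset.mul_sum, ← Finset.mul_sum]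
  have hmaps : ∀ i ∈ (Finset.univ : Finset GolayPt), tauX i ∈ Finset.range 6 := by decide +kernel
  have h2 : ∑ i, x i * tetSum x (tauX i) = ∑ k ∈ Finset.range 6, tetSum x k ^ 2 := by
    rw [← Finset.sum_fiberwise_of_maps_to hmaps]
    apply Finset.sum_congr rfl
    intro k _
    rw [sq]
    conv_rhs => lhs; unfold tetSum
    rw [Finset.sum_mul]
    apply Finset.sum_congr rfl
    intro j hj
    rw [(Finset.mem_filter.1 hj).2]
  have hcard : ∀ k ∈ Finset.range 6, (Finset.univ.filter (fun j => tauX j = k)).card = 4 := by decide +kernel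
  have h3 : ∑ i, tetSum x (tauX i) ^ 2 = 4 * ∑ k ∈ Finset.range 6, tetSum x k ^ 2 := by
    rw [← Finset.sum_fiberwise_of_maps_to hmaps, Finset.mul_sum]
    apply Finset.sum_congr rfl
    intro k hk
    rw [Finset.sum_congr rfl (g := fun _ => tetSum x k ^ 2), Finset.sum_const, hcard k hk]
    · simp
    · intro j hj
      rw [(Finset.mem_filter.1 hj).2]
  rw [h2, h3]; ring

/-- computable version on index functions -/
def XiN (y : ℕ → ℤ) (k : ℕ) : ℤ :=
  sigX (tixTab.getD k 0) * (2 * y k - ((tetTab.getD k []).map y).sum)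

theorem tet_filter (i : GolayPt) : Finset.univ.filter (fun j => tauX j = tauX i) =
    ((tetTab.getD (idx i) []).map pt).toFinset ∧ ((tetTab.getD (idx i) []).map pt).Nodup := by
  revert i; decide +kernel

theorem tet_lt : ∀ k, k < 24 → ∀ a ∈ tetTab.getD k [], a < 24 := by decide +kernel

theorem XiF_eq_XiN {x : GolayPt → ℤ} {y : ℕ → ℤ} (hxy : ∀ k, k < 24 → x (pt k) = y k) (i : GolayPt) :
    XiF x i = XiN y (idx i) := by
  unfold XiF XiN tetSum
  rw [(tet_filter i).1, List.sum_toFinset _ (tet_filter i).2, List.map_map]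
  have h1 : x i = y (idx i) := by rw [← hxy _ (idx_lt i), pt_idx]
  have h2 : (tetTab.getD (idx i) []).map (x ∘ pt) = (tetTab.getD (idx i) []).map y := by
    apply List.map_congr_left
    intro a ha
    exact hxy a (tet_lt _ (idx_lt i) a ha)
  rw [h1, h2]; rfl

/-- certificate that `XiF x` is twice a lattice vector -/
def xiChk (y : ℕ → ℤ) : Bool :=
  allBelow (fun k => decide (XiN y k % 2 = 0)) 24 && leechChk (fun k => XiN y k / 2)

theorem xiChk_spec {x : GolayPt → ℤ} {y : ℕ → ℤ} (hxy : ∀ k, k < 24 → x (pt k) = y k) (h : xiChk y = true) :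
    XiF x ∈ twoLeech := by
  unfold xiChk at h
  rw [Bool.and_eq_true] at h
  have h1 := allBelow_spec h.1
  rw [mem_twoLeech]
  refine ⟨_, leechChk_spec h.2, ?_⟩
  funext i
  have h2 := h1 (idx i) (idx_lt i)
  rw [decide_eq_true_eq] at h2
  rw [XiF_eq_XiN hxy i]
  simp only [Pi.smul_apply, nsmul_eq_mul]
  push_cast
  omega

theorem XiF_vOdd : XiF vOdd ∈ twoLeech :=
  xiChk_spec (y := fun k => vOdd (pt k)) (fun _ _ => rfl) (by decide +kernel)

theorem XiF_vEight : XiF vEight ∈ twoLeech :=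
  xiChk_spec (y := fun k => if k = 23 then 8 else 0) (by decide +kernel) (by decide +kernel)

theorem XiF_vFour (i : GolayPt) : XiF (vFour i) ∈ twoLeech := by
  have h := allBelow_spec (f := fun a => xiChk (fun k => (if k = a then 4 else 0) - (if k = 23 then 4 else 0)))
    (n := 24) (by decide +kernel) (idx i) (idx_lt i)
  refine xiChk_spec ?_ h
  intro k hk
  have e1 : (pt k = i) ↔ k = idx i := by
    constructor
    · rintro rfl; rw [idx_pt k hk]
    · rintro rfl; rw [pt_idx]
  have e2 : (pt k = none) ↔ k = 23 := by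
    constructor
    · intro h'
      have := congrArg idx h'
      rw [idx_pt k hk] at this
      exact this
    · rintro rfl; rfl
  simp only [vFour, Pi.sub_apply, Pi.single_apply, e1, e2]

set_option maxRecDepth 100000 in
theorem xiChk_code : ∀ j, j < 4096 → xiChk (fun k => cond (Nat.testBit (encF j) k) 2 0) = true :=
  allBelow_spec (f := fun j => xiChk (fun k => cond (Nat.testBit (encF j) k) 2 0)) (n := 4096) (by decide +kernel)

theorem XiF_vCode (c : Finset GolayPt) (hc : IsC c) : XiF (vCode c) ∈ twoLeech := by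
  rw [isC_iff] at hc
  obtain ⟨j, hj, hjc⟩ := exists_enc_of_isCode (mask_lt c) hc
  have h : xiChk (fun k => cond (Nat.testBit (encF j) k) 2 0) = true := xiChk_code j hj
  refine xiChk_spec (y := fun k => cond (Nat.testBit (encF j) k) 2 0) ?_ h
  intro k hk
  show vCode c (pt k) = cond (Nat.testBit (encF j) k) 2 0
  rw [encF_eq j hj, hjc, testBit_mask]
  simp only [vCode, chi, hk, decide_true, Bool.true_and]
  by_cases hp : pt k ∈ c <;> simp [hp]

theorem XiF_mem {x : GolayPt → ℤ} (hx : x ∈ leechLattice) : XiF x ∈ twoLeech := by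
  have := leech_le (twoLeech.comap XiHom) XiF_vOdd XiF_vCode XiF_vFour XiF_vEight hx
  exact this

/-- Conway's map -/
def xiFun (x : GolayPt → ℤ) : GolayPt → ℤ := fun i => XiF x i / 2

theorem xiFun_spec {x : GolayPt → ℤ} (hx : x ∈ leechLattice) : xiFun x ∈ leechLattice ∧ XiF x = 2 • xiFun x := by
  obtain ⟨z, hz, hxz⟩ := (mem_twoLeech _).1 (XiF_mem hx)
  have : xiFun x = z := by
    funext i
    unfold xiFun
    rw [hxz]
    simp
  rw [this]
  exact ⟨hz, hxz⟩

theorem eq_of_two_smul_eq {a b : GolayPt → ℤ} (h : 2 • a = 2 • b) : a = b := dbl_inj h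

theorem xiFun_add {x y : GolayPt → ℤ} (hx : x ∈ leechLattice) (hy : y ∈ leechLattice) :
    xiFun (x + y) = xiFun x + xiFun y := by
  apply eq_of_two_smul_eq
  rw [smul_add, ← (xiFun_spec hx).2, ← (xiFun_spec hy).2, ← (xiFun_spec (leechLattice.add_mem hx hy)).2, XiF_add]

theorem xiFun_xiFun {x : GolayPt → ℤ} (hx : x ∈ leechLattice) : xiFun (xiFun x) = x := by
  apply eq_of_two_smul_eq
  apply eq_of_two_smul_eq
  rw [← (xiFun_spec (xiFun_spec hx).1).2]
  have h1 : 2 • XiF (xiFun x) = XiF (2 • xiFun x) := by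
    rw [two_smul, two_smul, XiF_add]
  rw [h1, ← (xiFun_spec hx).2]
  funext i
  rw [XiF_XiF]
  show 4 * x i = 2 • (2 • x i)
  simp only [nsmul_eq_mul]
  push_cast
  ring

theorem sqNorm_xiFun {x : GolayPt → ℤ} (hx : x ∈ leechLattice) : sqNorm (xiFun x) = sqNorm x := by
  have h1 := sqNorm_XiF x
  rw [(xiFun_spec hx).2, sqNorm_two_nsmul] at h1
  linarith

/-- Conway's automorphism -/
def xiCo0 : Co0 :=
  ⟨{ toFun := fun v => ⟨xiFun v.1, (xiFun_spec v.2).1⟩
     invFun := fun v => ⟨xiFun v.1, (xiFun_spec v.2).1⟩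
     left_inv := fun v => Subtype.ext (xiFun_xiFun v.2)
     right_inv := fun v => Subtype.ext (xiFun_xiFun v.2) },
   ⟨fun v w => Subtype.ext (xiFun_add v.2 w.2), fun v => sqNorm_xiFun v.2⟩⟩

theorem xiCo0_smul (v : leechLattice) : ((xiCo0 • v : leechLattice) : GolayPt → ℤ) = xiFun v.1 := rfl

end Cfsg.Agent.Lib.Helper10
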