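/-
Every nonzero vector of the Leech lattice of norm at most 64 can be moved by an automorphism to a vector
with odd coordinates.
-/
import Cfsg.Agent.Lib.Helper10.LeechXi
import Cfsg.Agent.Lib.Helper28.GolayStab
set_option autoImplicit false
open Cfsg Cfsg.Agent.Lib.Helper28
namespace Cfsg.Agent.Lib.Helper10

theorem Co0_sqNorm (g : Co0) (v : leechLattice) : sqNorm (g • v : leechLattice).1 = sqNorm v.1 := g.2.2 v

theorem permCo0_smul (σ : Equiv.Perm GolayPt) (hσ : σ ∈ M24) (v : leechLattice) (i : GolayPt) :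
    (monoCo0 σ hσ ∅ isC_empty • v : leechLattice).1 i = v.1 (σ i) := by
  rw [monoCo0_smul]
  simp [monoFun, sgn]

theorem inj_T0 : Function.Injective ![pt 0, pt 1, pt 2, pt 23] := by decide

theorem exists_xi_move (v : leechLattice) {a b1 b2 b3 : GolayPt} (hinj : Function.Injective ![a, b1, b2, b3]) :
    ∃ g : Co0, 2 * (g • v : leechLattice).1 (pt 0) = v.1 b1 + v.1 b2 + v.1 b3 - v.1 a := by
  obtain ⟨σ, hσ, h⟩ := M24_trans_tuple (k := 4) (by norm_num) ![pt 0, pt 1, pt 2, pt 23] ![a, b1, b2, b3]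
    inj_T0 hinj
  refine ⟨xiCo0 * monoCo0 σ hσ ∅ isC_empty, ?_⟩
  rw [mul_smul]
  set w := monoCo0 σ hσ ∅ isC_empty • v with hw
  rw [xiCo0_smul]
  have h1 := congrFun (xiFun_spec w.2).2 (pt 0)
  rw [XiF_eq_XiN (y := fun k => w.1 (pt k)) (fun _ _ => rfl)] at h1
  have h2 : XiN (fun k => w.1 (pt k)) (idx (pt 0)) =
      -1 * (2 * w.1 (pt 0) - (w.1 (pt 0) + (w.1 (pt 1) + (w.1 (pt 2) + (w.1 (pt 23) + 0))))) := rfl
  rw [h2] at h1
  have e0 : w.1 (pt 0) = v.1 a := by rw [hw, permCo0_smul]; exact congrArg v.1 (h 0)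
  have e1 : w.1 (pt 1) = v.1 b1 := by rw [hw, permCo0_smul]; exact congrArg v.1 (h 1)
  have e2 : w.1 (pt 2) = v.1 b2 := by rw [hw, permCo0_smul]; exact congrArg v.1 (h 2)
  have e3 : w.1 (pt 23) = v.1 b3 := by rw [hw, permCo0_smul]; exact congrArg v.1 (h 3)
  rw [e0, e1, e2, e3] at h1
  simp only [Pi.smul_apply, nsmul_eq_mul] at h1
  push_cast at h1
  linarith

theorem card_mul_le_sqNorm (x : GolayPt → ℤ) (P : GolayPt → Prop) [DecidablePred P] (t : ℤ)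
    (h : ∀ i, P i → t ≤ x i ^ 2) : ((Finset.univ.filter P).card : ℤ) * t ≤ sqNorm x := by
  unfold sqNorm
  calc ((Finset.univ.filter P).card : ℤ) * t = ∑ _i ∈ Finset.univ.filter P, t := by
        rw [Finset.sum_const, nsmul_eq_mul]
    _ ≤ ∑ i ∈ Finset.univ.filter P, x i ^ 2 :=
        Finset.sum_le_sum (fun i hi => h i (Finset.mem_filter.1 hi).2)
    _ ≤ ∑ i, x i ^ 2 :=
        Finset.sum_le_sum_of_subset_of_nonneg (Finset.filter_subset _ _) (fun i _ _ => sq_nonneg _)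

theorem exists_three (P : GolayPt → Prop) [DecidablePred P] (h : (Finset.univ.filter P).card ≤ 16) :
    ∃ b1 b2 b3 : GolayPt, ¬ P b1 ∧ ¬ P b2 ∧ ¬ P b3 ∧ b1 ≠ b2 ∧ b1 ≠ b3 ∧ b2 ≠ b3 := by
  have h1 := Finset.card_filter_add_card_filter_not (s := (Finset.univ : Finset GolayPt)) P
  have h2 : (Finset.univ : Finset GolayPt).card = 24 := rfl
  have h3 : 2 < (Finset.univ.filter (fun i => ¬ P i)).card := by omega
  obtain ⟨b1, hb1, b2, hb2, b3, hb3, h12, h13, h23⟩ := Finset.two_lt_card.1 h3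
  exact ⟨b1, b2, b3, (Finset.mem_filter.1 hb1).2, (Finset.mem_filter.1 hb2).2, (Finset.mem_filter.1 hb3).2,
    h12, h13, h23⟩

theorem inj_four {a b1 b2 b3 : GolayPt} (h1 : a ≠ b1) (h2 : a ≠ b2) (h3 : a ≠ b3) (h12 : b1 ≠ b2) (h13 : b1 ≠ b3)
    (h23 : b2 ≠ b3) : Function.Injective ![a, b1, b2, b3] := by
  intro i j hij
  fin_cases i <;> fin_cases j <;> simp_all

/-- all coordinates have the same parity -/
theorem parity_eq {x : GolayPt → ℤ} (hx : x ∈ leechLattice) (i j : GolayPt) : x i % 2 = x j % 2 := by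
  obtain ⟨m, hm, c, hc, hr, -⟩ := (mem_leech_iff_normal x).1 hx
  have h1 := hr i
  have h2 := hr j
  rcases chi_cases c i with ⟨-, h⟩ | ⟨-, h⟩ <;> rcases chi_cases c j with ⟨-, h'⟩ | ⟨-, h'⟩ <;>
    rw [h] at h1 <;> rw [h'] at h2 <;> omega

theorem step1 (v : leechLattice) (hn : sqNorm v.1 ≤ 64) {a : GolayPt} (ha : v.1 a % 4 = 2) :
    ∃ g : Co0, (g • v : leechLattice).1 (pt 0) % 2 = 1 := by
  have hc := card_mul_le_sqNorm v.1 (fun i => v.1 i % 4 = 2) 4 (by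
    intro i hi
    have : v.1 i ≤ -2 ∨ 2 ≤ v.1 i := by omega
    rcases this with h | h <;> nlinarith)
  have hc' : (Finset.univ.filter (fun i => v.1 i % 4 = 2)).card ≤ 16 := by
    have : ((Finset.univ.filter (fun i => v.1 i % 4 = 2)).card : ℤ) ≤ 16 := by linarith
    exact_mod_cast this
  obtain ⟨b1, b2, b3, h1, h2, h3, h12, h13, h23⟩ := exists_three _ hc'
  have hne : ∀ b, ¬ v.1 b % 4 = 2 → a ≠ b := fun b hb hab => hb (hab ▸ ha)
  obtain ⟨g, hg⟩ := exists_xi_move v (inj_four (hne _ h1) (hne _ h2) (hne _ h3) h12 h13 h23)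
  refine ⟨g, ?_⟩
  have p1 := parity_eq v.2 a b1
  have p2 := parity_eq v.2 a b2
  have p3 := parity_eq v.2 a b3
  omega

theorem zeros_of_four_dvd (v : leechLattice) (hn : sqNorm v.1 ≤ 64) (h4 : ∀ i, v.1 i % 4 = 0) :
    ∃ b1 b2 b3 : GolayPt, v.1 b1 = 0 ∧ v.1 b2 = 0 ∧ v.1 b3 = 0 ∧ b1 ≠ b2 ∧ b1 ≠ b3 ∧ b2 ≠ b3 := by
  have hc := card_mul_le_sqNorm v.1 (fun i => v.1 i ≠ 0) 16 (by
    intro i hi
    have h := h4 i
    have : v.1 i ≤ -4 ∨ 4 ≤ v.1 i := by omega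
    rcases this with h | h <;> nlinarith)
  have hc' : (Finset.univ.filter (fun i => v.1 i ≠ 0)).card ≤ 16 := by
    have : ((Finset.univ.filter (fun i => v.1 i ≠ 0)).card : ℤ) ≤ 16 := by linarith
    exact_mod_cast this
  obtain ⟨b1, b2, b3, h1, h2, h3, h⟩ := exists_three _ hc'
  exact ⟨b1, b2, b3, not_not.1 h1, not_not.1 h2, not_not.1 h3, h⟩

theorem step2 (v : leechLattice) (hn : sqNorm v.1 ≤ 64) (h4 : ∀ i, v.1 i % 4 = 0) {a : GolayPt}
    (ha : v.1 a ≠ 0) : ∃ g : Co0, 2 * (g • v : leechLattice).1 (pt 0) = - v.1 a := by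
  obtain ⟨b1, b2, b3, h1, h2, h3, h12, h13, h23⟩ := zeros_of_four_dvd v hn h4
  have hne : ∀ b, v.1 b = 0 → a ≠ b := fun b hb hab => ha (hab ▸ hb)
  obtain ⟨g, hg⟩ := exists_xi_move v (inj_four (hne _ h1) (hne _ h2) (hne _ h3) h12 h13 h23)
  exact ⟨g, by rw [hg, h1, h2, h3]; ring⟩

/-- every nonzero vector of norm at most 64 can be moved to a vector with odd coordinates -/
theorem exists_odd (v : leechLattice) (hn : sqNorm v.1 ≤ 64) (h0 : v.1 ≠ 0) :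
    ∃ g : Co0, (g • v : leechLattice).1 (pt 0) % 2 = 1 := by
  -- level 1
  have L1 : ∀ w : leechLattice, sqNorm w.1 ≤ 64 → (∃ a, w.1 a % 4 = 2) →
      ∃ g : Co0, (g • w : leechLattice).1 (pt 0) % 2 = 1 := fun w hw ⟨a, ha⟩ => step1 w hw ha
  -- level 2
  have L2 : ∀ w : leechLattice, sqNorm w.1 ≤ 64 → (∃ a, w.1 a % 8 = 4) →
      ∃ g : Co0, (g • w : leechLattice).1 (pt 0) % 2 = 1 := by
    rintro w hw ⟨a, ha⟩
    by_cases h1 : ∃ b, w.1 b % 4 = 2
    · exact L1 w hw h1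
    · push Not at h1
      have h4 : ∀ i, w.1 i % 4 = 0 := by
        intro i
        have := parity_eq w.2 a i
        have := h1 i
        omega
      obtain ⟨g, hg⟩ := step2 w hw h4 (a := a) (by omega)
      obtain ⟨g', hg'⟩ := L1 (g • w) (by rw [Co0_sqNorm]; exact hw) ⟨pt 0, by omega⟩
      exact ⟨g' * g, by rw [mul_smul]; exact hg'⟩
  by_cases hodd : v.1 (pt 0) % 2 = 1
  · exact ⟨1, by rw [one_smul]; exact hodd⟩
  by_cases h1 : ∃ b, v.1 b % 4 = 2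
  · exact L1 v hn h1
  by_cases h2 : ∃ b, v.1 b % 8 = 4
  · exact L2 v hn h2
  push Not at h1 h2
  have h8 : ∀ i, v.1 i % 8 = 0 := by
    intro i
    have := parity_eq v.2 (pt 0) i
    have := h1 i
    have := h2 i
    omega
  obtain ⟨a, ha⟩ : ∃ a, v.1 a ≠ 0 := by
    by_contra hcon
    push Not at hcon
    exact h0 (funext hcon)
  obtain ⟨g, hg⟩ := step2 v hn (fun i => by have := h8 i; omega) ha
  have hb := (mem_V8 _).1 (mem_V8_of_sqNorm_le hn a)
  have h8a := h8 a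
  obtain ⟨g', hg'⟩ := L2 (g • v) (by rw [Co0_sqNorm]; exact hn) ⟨pt 0, by omega⟩
  exact ⟨g' * g, by rw [mul_smul]; exact hg'⟩

end Cfsg.Agent.Lib.Helper10
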