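/-
The automorphism group of the Leech lattice is transitive on the vectors of norm 32, 48 and 64.
-/
import Cfsg.Agent.Lib.Helper10.LeechOdd
set_option autoImplicit false
open Cfsg Cfsg.Agent.Lib.Helper28
namespace Cfsg.Agent.Lib.Helper10

/-- all coordinates are 1 modulo 4 -/
def IsNormalV (x : GolayPt → ℤ) : Prop := ∀ i, x i % 4 = 1

theorem exists_normal (v : leechLattice) (h : v.1 (pt 0) % 2 = 1) :
    ∃ g : Co0, IsNormalV (g • v : leechLattice).1 := by
  obtain ⟨m, hm, c, hc, hr, -⟩ := (mem_leech_iff_normal v.1).1 v.2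
  have hm1 : m = 1 := by
    have := hr (pt 0)
    rcases chi_cases c (pt 0) with ⟨-, h'⟩ | ⟨-, h'⟩ <;> rw [h'] at this <;> omega
  subst hm1
  refine ⟨monoCo0 1 M24.one_mem c hc, fun i => ?_⟩
  rw [monoCo0_smul]
  simp only [monoFun, sgn, Equiv.Perm.one_apply]
  have := hr i
  rcases chi_cases c i with ⟨hi, h'⟩ | ⟨hi, h'⟩ <;> rw [h'] at this <;> simp only [hi, if_true, if_false] <;> omega

/-- `x` equals `a j` at the point `e j` and 1 elsewhere -/
def Descr {k : ℕ} (x : GolayPt → ℤ) (e : Fin k → GolayPt) (a : Fin k → ℤ) : Prop :=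
  Function.Injective e ∧ (∀ j, x (e j) = a j) ∧ ∀ i, (∀ j, e j ≠ i) → x i = 1

theorem trans_of_descr {k : ℕ} (hk : k ≤ 5) {v w : leechLattice} {e e' : Fin k → GolayPt} {a : Fin k → ℤ}
    (hv : Descr v.1 e a) (hw : Descr w.1 e' a) : ∃ g : Co0, g • v = w := by
  obtain ⟨σ, hσ, h⟩ := M24_trans_tuple hk e' e hw.1 hv.1
  refine ⟨monoCo0 σ hσ ∅ isC_empty, ?_⟩
  apply Subtype.ext
  funext i
  rw [permCo0_smul]
  by_cases hi : ∃ j, e' j = i
  · obtain ⟨j, rfl⟩ := hi
    rw [h j, hv.2.1, hw.2.1]
  · push Not at hi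
    rw [hw.2.2 i hi, hv.2.2]
    intro j hj
    apply hi j
    apply σ.injective
    rw [h j, hj]

theorem normal_values {x : GolayPt → ℤ} (hx : IsNormalV x) (hn : sqNorm x ≤ 64) (i : GolayPt) :
    x i = 1 ∨ x i = -3 ∨ x i = 5 ∨ x i = -7 := by
  have h1 := (mem_V8 _).1 (mem_V8_of_sqNorm_le hn i)
  have h2 := hx i
  omega

theorem normal_norm {x : GolayPt → ℤ} (hx : IsNormalV x) (hn : sqNorm x ≤ 64) :
    sqNorm x = 24 + 8 * ((Finset.univ.filter (fun i => x i = -3)).card : ℤ) +
      24 * ((Finset.univ.filter (fun i => x i = 5)).card : ℤ) +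
      48 * ((Finset.univ.filter (fun i => x i = -7)).card : ℤ) := by
  have h1 : ∀ i, x i ^ 2 = 1 + 8 * (if x i = -3 then 1 else 0) + 24 * (if x i = 5 then 1 else 0) +
      48 * (if x i = -7 then 1 else 0) := by
    intro i
    rcases normal_values hx hn i with h | h | h | h <;> rw [h] <;> norm_num
  unfold sqNorm
  simp_rw [h1]
  rw [Finset.sum_add_distrib, Finset.sum_add_distrib, Finset.sum_add_distrib, ← Finset.mul_sum, ← Finset.mul_sum,
    ← Finset.mul_sum, Finset.sum_boole, Finset.sum_boole, Finset.sum_boole]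
  simp

theorem descr_uniform {x : GolayPt → ℤ} {a0 : ℤ} {k : ℕ} (h1 : ∀ i, x i = 1 ∨ x i = a0)
    (hk : (Finset.univ.filter (fun i => x i = a0)).card = k) :
    ∃ e : Fin k → GolayPt, Descr x e (fun _ => a0) := by
  set s := Finset.univ.filter (fun i => x i = a0) with hs
  set E := s.equivFinOfCardEq hk with hE
  refine ⟨fun j => (E.symm j : GolayPt), ?_, ?_, ?_⟩
  · intro j j' hjj
    exact E.symm.injective (Subtype.ext hjj)
  · intro j
    have := (E.symm j).2
    exact (Finset.mem_filter.1 this).2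
  · intro i hi
    rcases h1 i with h | h
    · exact h
    · exfalso
      have hmem : i ∈ s := by rw [hs, Finset.mem_filter]; exact ⟨Finset.mem_univ _, h⟩
      apply hi (E ⟨i, hmem⟩)
      simp

theorem ne_of_card_zero {x : GolayPt → ℤ} {a : ℤ} (h : (Finset.univ.filter (fun i => x i = a)).card = 0)
    (i : GolayPt) : x i ≠ a := by
  rw [Finset.card_eq_zero, Finset.filter_eq_empty_iff] at h
  exact h (Finset.mem_univ i)

/-! explicit vectors -/

def y32 (k : ℕ) : ℤ := if k = 0 then -3 else 1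
def y48a (k : ℕ) : ℤ := if k = 1 ∨ k = 2 ∨ k = 23 then -3 else 1
def y48b (k : ℕ) : ℤ := if k = 0 then 5 else 1
def y64a (k : ℕ) : ℤ := if k = 1 ∨ k = 2 ∨ k = 23 ∨ k = 14 ∨ k = 17 then -3 else 1
def y64b (k : ℕ) : ℤ := if k = 0 then 5 else if k = 3 ∨ k = 5 then -3 else 1

def u32 : leechLattice := ⟨fun i => y32 (idx i), leechChk_spec (by decide +kernel)⟩
def u48a : leechLattice := ⟨fun i => y48a (idx i), leechChk_spec (by decide +kernel)⟩
def u48b : leechLattice := ⟨fun i => y48b (idx i), leechChk_spec (by decide +kernel)⟩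
def u64a : leechLattice := ⟨fun i => y64a (idx i), leechChk_spec (by decide +kernel)⟩
def u64b : leechLattice := ⟨fun i => y64b (idx i), leechChk_spec (by decide +kernel)⟩

theorem descr_u32 : Descr u32.1 ![pt 0] (fun _ => -3) := by
  refine ⟨by decide, by decide, by decide⟩
theorem descr_u48a : Descr u48a.1 ![pt 1, pt 2, pt 23] (fun _ => -3) := by
  refine ⟨by decide, by decide, by decide⟩
theorem descr_u48b : Descr u48b.1 ![pt 0] (fun _ => 5) := by
  refine ⟨by decide, by decide, by decide⟩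
theorem descr_u64a : Descr u64a.1 ![pt 1, pt 2, pt 23, pt 14, pt 17] (fun _ => -3) := by
  refine ⟨by decide, by decide, by decide⟩
theorem descr_u64b : Descr u64b.1 ![pt 0, pt 3, pt 5] ![5, -3, -3] := by
  refine ⟨by decide, by decide, by decide⟩

theorem link48 : (negCo0 * xiCo0) • u48b = u48a := by
  apply Subtype.ext
  rw [mul_smul, negCo0_smul, xiCo0_smul]
  funext i
  show -(xiFun u48b.1 i) = u48a.1 i
  revert i
  decide +kernel

theorem link64 : (negCo0 * xiCo0) • u64b = u64a := by
  apply Subtype.ext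
  rw [mul_smul, negCo0_smul, xiCo0_smul]
  funext i
  show -(xiFun u64b.1 i) = u64a.1 i
  revert i
  decide +kernel

theorem to_u32 (v : leechLattice) (hx : IsNormalV v.1) (hn : sqNorm v.1 = 32) : ∃ g : Co0, g • v = u32 := by
  have h := normal_norm hx (by rw [hn]; norm_num)
  rw [hn] at h
  have h3 : (Finset.univ.filter (fun i => v.1 i = -3)).card = 1 := by omega
  have h5 : (Finset.univ.filter (fun i => v.1 i = 5)).card = 0 := by omega
  have h7 : (Finset.univ.filter (fun i => v.1 i = -7)).card = 0 := by omega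
  obtain ⟨e, he⟩ := descr_uniform (x := v.1) (a0 := -3) (fun i => by
    have a1 := normal_values hx (by rw [hn]; norm_num) i
    have a2 := ne_of_card_zero h5 i
    have a3 := ne_of_card_zero h7 i
    omega) h3
  exact trans_of_descr (by norm_num) he descr_u32

theorem to_u48 (v : leechLattice) (hx : IsNormalV v.1) (hn : sqNorm v.1 = 48) : ∃ g : Co0, g • v = u48a := by
  have h := normal_norm hx (by rw [hn]; norm_num)
  rw [hn] at h
  have h7 : (Finset.univ.filter (fun i => v.1 i = -7)).card = 0 := by omega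
  have hcases : ((Finset.univ.filter (fun i => v.1 i = -3)).card = 3 ∧
      (Finset.univ.filter (fun i => v.1 i = 5)).card = 0) ∨
      ((Finset.univ.filter (fun i => v.1 i = -3)).card = 0 ∧
      (Finset.univ.filter (fun i => v.1 i = 5)).card = 1) := by omega
  rcases hcases with ⟨h3, h5⟩ | ⟨h3, h5⟩
  · obtain ⟨e, he⟩ := descr_uniform (x := v.1) (a0 := -3) (fun i => by
      have a1 := normal_values hx (by rw [hn]; norm_num) i
      have a2 := ne_of_card_zero h5 i
      have a3 := ne_of_card_zero h7 i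
      omega) h3
    exact trans_of_descr (by norm_num) he descr_u48a
  · obtain ⟨e, he⟩ := descr_uniform (x := v.1) (a0 := 5) (fun i => by
      have a1 := normal_values hx (by rw [hn]; norm_num) i
      have a2 := ne_of_card_zero h3 i
      have a3 := ne_of_card_zero h7 i
      omega) h5
    obtain ⟨g, hg⟩ := trans_of_descr (by norm_num) he descr_u48b
    exact ⟨(negCo0 * xiCo0) * g, by rw [mul_smul, hg, link48]⟩

theorem to_u64 (v : leechLattice) (hx : IsNormalV v.1) (hn : sqNorm v.1 = 64) : ∃ g : Co0, g • v = u64a := by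
  have h := normal_norm hx (by rw [hn])
  rw [hn] at h
  have h7 : (Finset.univ.filter (fun i => v.1 i = -7)).card = 0 := by omega
  have hcases : ((Finset.univ.filter (fun i => v.1 i = -3)).card = 5 ∧
      (Finset.univ.filter (fun i => v.1 i = 5)).card = 0) ∨
      ((Finset.univ.filter (fun i => v.1 i = -3)).card = 2 ∧
      (Finset.univ.filter (fun i => v.1 i = 5)).card = 1) := by omega
  rcases hcases with ⟨h3, h5⟩ | ⟨h3, h5⟩
  · obtain ⟨e, he⟩ := descr_uniform (x := v.1) (a0 := -3) (fun i => by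
      have a1 := normal_values hx (by rw [hn]) i
      have a2 := ne_of_card_zero h5 i
      have a3 := ne_of_card_zero h7 i
      omega) h3
    exact trans_of_descr (by norm_num) he descr_u64a
  · obtain ⟨p, hp⟩ := Finset.card_eq_one.1 h5
    obtain ⟨q, r, hqr, hqr'⟩ := Finset.card_eq_two.1 h3
    have mp : ∀ i, v.1 i = 5 ↔ i = p := by
      intro i
      have : i ∈ Finset.univ.filter (fun i => v.1 i = 5) ↔ i ∈ ({p} : Finset GolayPt) := by rw [hp]
      simpa using this
    have mq : ∀ i, v.1 i = -3 ↔ i = q ∨ i = r := by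
      intro i
      have : i ∈ Finset.univ.filter (fun i => v.1 i = -3) ↔ i ∈ ({q, r} : Finset GolayPt) := by rw [hqr']
      simpa using this
    have vp : v.1 p = 5 := (mp p).2 rfl
    have vq : v.1 q = -3 := (mq q).2 (Or.inl rfl)
    have vr : v.1 r = -3 := (mq r).2 (Or.inr rfl)
    have hpq : p ≠ q := by rintro rfl; omega
    have hpr : p ≠ r := by rintro rfl; omega
    have he : Descr v.1 ![p, q, r] ![5, -3, -3] := by
      refine ⟨injective_vec3 hpq hpr hqr, ?_, ?_⟩
      · intro j; fin_cases j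
        · exact vp
        · exact vq
        · exact vr
      · intro i hi
        have a1 := normal_values hx (by rw [hn]) i
        have a3 := ne_of_card_zero h7 i
        have b0 : p ≠ i := hi 0
        have b1 : q ≠ i := hi 1
        have b2 : r ≠ i := hi 2
        have c1 : v.1 i ≠ 5 := fun hh => b0 ((mp i).1 hh).symm
        have c2 : v.1 i ≠ -3 := fun hh => by
          rcases (mq i).1 hh with h' | h'
          · exact b1 h'.symm
          · exact b2 h'.symm
        omega
    obtain ⟨g, hg⟩ := trans_of_descr (by norm_num) he descr_u64b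
    exact ⟨(negCo0 * xiCo0) * g, by rw [mul_smul, hg, link64]⟩

theorem exists_to_normal (v : leechLattice) (hn : sqNorm v.1 ≤ 64) (h0 : 0 < sqNorm v.1) :
    ∃ g : Co0, IsNormalV (g • v : leechLattice).1 := by
  have hv0 : v.1 ≠ 0 := by
    intro h
    rw [h] at h0
    simp [sqNorm] at h0
  obtain ⟨g, hg⟩ := exists_odd v hn hv0
  obtain ⟨g', hg'⟩ := exists_normal (g • v) hg
  exact ⟨g' * g, by rw [mul_smul]; exact hg'⟩

theorem trans_of_base {u : leechLattice} {N : ℤ} (hN : N ≤ 64) (hN0 : 0 < N)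
    (hb : ∀ v : leechLattice, IsNormalV v.1 → sqNorm v.1 = N → ∃ g : Co0, g • v = u)
    (v w : leechLattice) (hv : sqNorm v.1 = N) (hw : sqNorm w.1 = N) : ∃ g : Co0, g • v = w := by
  obtain ⟨g1, h1⟩ := exists_to_normal v (by rw [hv]; exact hN) (by rw [hv]; exact hN0)
  obtain ⟨g2, h2⟩ := exists_to_normal w (by rw [hw]; exact hN) (by rw [hw]; exact hN0)
  obtain ⟨a1, e1⟩ := hb _ h1 (by rw [Co0_sqNorm]; exact hv)
  obtain ⟨a2, e2⟩ := hb _ h2 (by rw [Co0_sqNorm]; exact hw)
  refine ⟨(a2 * g2)⁻¹ * (a1 * g1), ?_⟩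
  rw [mul_smul, mul_smul, e1, ← e2, ← mul_smul a2 g2, inv_smul_smul]

theorem Co0_trans32 (v w : leechLattice) (hv : sqNorm v.1 = 32) (hw : sqNorm w.1 = 32) : ∃ g : Co0, g • v = w :=
  trans_of_base (by norm_num) (by norm_num) to_u32 v w hv hw

theorem Co0_trans48 (v w : leechLattice) (hv : sqNorm v.1 = 48) (hw : sqNorm w.1 = 48) : ∃ g : Co0, g • v = w :=
  trans_of_base (by norm_num) (by norm_num) to_u48 v w hv hw

theorem Co0_trans64 (v w : leechLattice) (hv : sqNorm v.1 = 64) (hw : sqNorm w.1 = 64) : ∃ g : Co0, g • v = w :=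
  trans_of_base (by norm_num) (by norm_num) to_u64 v w hv hw

end Cfsg.Agent.Lib.Helper10
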