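/-
The stabiliser of the standard cross in the automorphism group of the Leech lattice is the monomial
group 2^12 : M24.
-/
import Cfsg.Agent.Lib.Helper10.LeechTrans
set_option autoImplicit false
open Cfsg Cfsg.Agent.Lib.Helper28
open scoped Pointwise
namespace Cfsg.Agent.Lib.Helper10

theorem Co0_dot (g : Co0) (v w : leechLattice) :
    dotInt (g • v : leechLattice).1 (g • w : leechLattice).1 = dotInt v.1 w.1 := by
  have h1 := sqNorm_add v.1 w.1
  have h2 := sqNorm_add (g • v : leechLattice).1 (g • w : leechLattice).1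
  have h3 : sqNorm ((g • v : leechLattice).1 + (g • w : leechLattice).1) = sqNorm (v.1 + w.1) := by
    have := Co0_sqNorm g (v + w)
    rw [Co0_smul_add] at this
    exact this
  rw [Co0_sqNorm, Co0_sqNorm] at h2
  linarith

theorem single_mem (i : GolayPt) {s : ℤ} (hs : s = 8 ∨ s = -8) : (Pi.single i s : GolayPt → ℤ) ∈ leechLattice := by
  rw [mem_leech_iff_normal]
  refine ⟨0, Or.inl rfl, ∅, isC_empty, fun j => ?_, ?_⟩
  · simp only [chi, Finset.notMem_empty, if_false, Pi.single_apply]
    split_ifs <;> rcases hs with rfl | rfl <;> norm_num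
  · rw [Finset.sum_pi_single']
    simp only [Finset.mem_univ, if_true]
    rcases hs with rfl | rfl <;> norm_num

/-- the vector 8 e_i -/
def e8 (i : GolayPt) : leechLattice := ⟨Pi.single i 8, single_mem i (Or.inl rfl)⟩

theorem dot_single (x : GolayPt → ℤ) (i : GolayPt) (s : ℤ) : dotInt x (Pi.single i s) = x i * s := by
  unfold dotInt
  rw [Finset.sum_eq_single i]
  · simp
  · intro j _ hj; simp [hj]
  · intro h; exact absurd (Finset.mem_univ i) h

/-- `g` preserves the standard cross -/
def PresCross (g : Co0) : Prop :=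
  ∀ v : leechLattice, (v : GolayPt → ℤ) ∈ stdCross → ((g • v : leechLattice) : GolayPt → ℤ) ∈ stdCross

theorem mem_M24_of_isC_all (σ : Equiv.Perm GolayPt) (h : ∀ s, IsC s → IsC (σ • s)) : σ ∈ M24 := by
  rw [M24, setSystemAut, MulAction.mem_stabilizer_set_iff_smul_set_subset supports_finite]
  rintro _ ⟨s, hs, rfl⟩
  exact h s hs

theorem vCode_mem {c : Finset GolayPt} (hc : IsC c) : vCode c ∈ leechLattice := by
  obtain ⟨a, ha⟩ := isC_card_four hc
  rw [mem_leech_iff_normal]
  refine ⟨0, Or.inl rfl, c, hc, fun i => ?_, ?_⟩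
  · unfold vCode
    rcases chi_cases c i with ⟨-, h⟩ | ⟨-, h⟩ <;> rw [h] <;> norm_num
  · unfold vCode
    rw [← Finset.mul_sum, sum_chi, ha]
    push_cast
    omega

theorem vOdd_mem : vOdd ∈ leechLattice := by
  have : vOdd = fun i => (fun k => if k = 23 then (-3 : ℤ) else 1) (idx i) := by
    funext i; revert i; decide
  rw [this]
  exact leechChk_spec (y := fun k => if k = 23 then (-3 : ℤ) else 1) (by decide +kernel)

theorem perm_apply_inv {α : Type*} (σ : Equiv.Perm α) (k : α) : σ (σ⁻¹ k) = k := σ.apply_symm_apply k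

theorem perm_inv_apply {α : Type*} (σ : Equiv.Perm α) (k : α) : σ⁻¹ (σ k) = k := σ.symm_apply_apply k

/-- the set of positions congruent to 2 modulo 4 of an even lattice vector is a codeword; the set of positions
congruent to 3 modulo 4 of an odd lattice vector is a codeword -/
theorem isC_of_mem {x : GolayPt → ℤ} (hx : x ∈ leechLattice) : IsC (Finset.univ.filter (fun i => 2 ≤ x i % 4)) := by
  obtain ⟨m, hm, c, hc, hr, -⟩ := (mem_leech_iff_normal x).1 hx
  have : Finset.univ.filter (fun i => 2 ≤ x i % 4) = c := by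
    ext i
    simp only [Finset.mem_filter, Finset.mem_univ, true_and]
    have := hr i
    rcases chi_cases c i with ⟨hi, h⟩ | ⟨hi, h⟩ <;> rw [h] at this
    · simp only [hi, iff_true]; omega
    · simp only [hi, iff_false]; omega
  rw [this]; exact hc

/-- monomial elements, indexed by `M24 × code` -/
def monoEl (p : ↥M24 × ↥codeFin) : Co0 :=
  monoCo0 (p.1.1)⁻¹ (M24.inv_mem p.1.2) p.2.1 ((mem_codeFin _).1 p.2.2)

theorem monoEl_smul (p : ↥M24 × ↥codeFin) (v : leechLattice) (i : GolayPt) :
    (monoEl p • v : leechLattice).1 i = sgn p.2.1 i * v.1 ((p.1.1)⁻¹ i) := rfl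

theorem monoEl_eq_signedPerm (p : ↥M24 × ↥codeFin) (v : leechLattice) :
    (monoEl p • v : leechLattice).1 = signedPerm p.1.1 p.2.1 v.1 := by
  funext i
  rw [monoEl_smul]
  unfold signedPerm sgn
  split_ifs <;> simp

theorem monoEl_e8 (p : ↥M24 × ↥codeFin) (i : GolayPt) (s : ℤ) (h : (Pi.single i s : GolayPt → ℤ) ∈ leechLattice) :
    (monoEl p • (⟨Pi.single i s, h⟩ : leechLattice) : leechLattice).1 =
      Pi.single (p.1.1 i) (sgn p.2.1 (p.1.1 i) * s) := by
  funext j
  rw [monoEl_smul]
  simp only [Pi.single_apply]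
  by_cases hj : j = p.1.1 i
  · subst hj
    rw [perm_inv_apply, if_pos rfl, if_pos rfl]
  · have : (p.1.1)⁻¹ j ≠ i := by
      intro h'
      apply hj
      rw [← h', perm_apply_inv]
    rw [if_neg this, if_neg hj, mul_zero]

theorem sgn_cases (c : Finset GolayPt) (i : GolayPt) : sgn c i = 1 ∨ sgn c i = -1 := by
  unfold sgn; split_ifs <;> simp

theorem monoEl_pres (p : ↥M24 × ↥codeFin) : PresCross (monoEl p) := by
  rintro ⟨v, hv⟩ ⟨i, s, hs, rfl⟩
  rw [monoEl_e8]
  refine ⟨_, _, ?_, rfl⟩
  rcases sgn_cases p.2.1 (p.1.1 i) with h | h <;> rcases hs with rfl | rfl <;> rw [h] <;> norm_num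

theorem monoEl_inj : Function.Injective monoEl := by
  intro p q hpq
  have key : ∀ i, (Pi.single (p.1.1 i) (sgn p.2.1 (p.1.1 i) * 8) : GolayPt → ℤ) =
      Pi.single (q.1.1 i) (sgn q.2.1 (q.1.1 i) * 8) := by
    intro i
    rw [← monoEl_e8 p i 8 (single_mem i (Or.inl rfl)), ← monoEl_e8 q i 8 (single_mem i (Or.inl rfl)), hpq]
  have h1 : ∀ i, p.1.1 i = q.1.1 i := by
    intro i
    by_contra hne
    have := congrFun (key i) (p.1.1 i)
    rw [Pi.single_eq_same, Pi.single_eq_of_ne hne] at this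
    rcases sgn_cases p.2.1 (p.1.1 i) with h | h <;> rw [h] at this <;> norm_num at this
  have h1' : p.1 = q.1 := Subtype.ext (Equiv.ext h1)
  have h2 : ∀ j, sgn p.2.1 j = sgn q.2.1 j := by
    intro j
    have := congrFun (key ((p.1.1)⁻¹ j)) j
    rw [← h1, perm_apply_inv, Pi.single_eq_same, Pi.single_eq_same] at this
    linarith
  have h2' : p.2 = q.2 := by
    apply Subtype.ext
    ext j
    have := h2 j
    unfold sgn at this
    by_cases a : j ∈ p.2.1 <;> by_cases b : j ∈ q.2.1 <;> simp [a, b] at this ⊢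
  exact Prod.ext h1' h2'

theorem exists_monoEl (g : Co0) (hg : PresCross g) : ∃ p, g = monoEl p := by
  classical
  have h1 : ∀ i, ∃ (j : GolayPt) (s : ℤ), (s = 8 ∨ s = -8) ∧ (g • e8 i : leechLattice).1 = Pi.single j s :=
    fun i => hg (e8 i) ⟨i, 8, Or.inl rfl, rfl⟩
  choose ρ s hs hρ using h1
  have h2 : ∀ (v : leechLattice) (i : GolayPt), (g • v : leechLattice).1 (ρ i) * s i = v.1 i * 8 := by
    intro v i
    have := Co0_dot g v (e8 i)
    rw [hρ, dot_single] at this
    rw [this]
    exact dot_single _ _ _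
  have hinj : Function.Injective ρ := by
    intro i j hij
    by_contra hne
    have a1 := h2 (e8 i) i
    have a2 := h2 (e8 i) j
    rw [← hij] at a2
    have b1 : (e8 i).1 i = 8 := by simp [e8]
    have b2 : (e8 i).1 j = 0 := by simp [e8, Ne.symm hne]
    rw [b1] at a1
    rw [b2] at a2
    rcases hs i with h | h <;> rcases hs j with h' | h' <;> rw [h] at a1 <;> rw [h'] at a2 <;> omega
  have hbij : Function.Bijective ρ := (Finite.injective_iff_bijective).1 hinj
  set σ : Equiv.Perm GolayPt := Equiv.ofBijective ρ hbij with hσdef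
  have hσ : ∀ i, σ i = ρ i := fun i => rfl
  set c : Finset GolayPt := Finset.univ.filter (fun k => s (σ⁻¹ k) = -8) with hc
  have h3 : ∀ (v : leechLattice) (k : GolayPt), (g • v : leechLattice).1 k = sgn c k * v.1 (σ⁻¹ k) := by
    intro v k
    have := h2 v (σ⁻¹ k)
    rw [← hσ, perm_apply_inv] at this
    unfold sgn
    rw [hc]
    simp only [Finset.mem_filter, Finset.mem_univ, true_and]
    rcases hs (σ⁻¹ k) with h | h <;> rw [h] at this
    · have hne : ¬ (s (σ⁻¹ k) = -8) := by rw [h]; norm_num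
      rw [if_neg hne]; linarith
    · rw [if_pos h]; linarith
  have hσM : σ ∈ M24 := by
    apply mem_M24_of_isC_all
    intro d hd
    have := isC_of_mem (g • (⟨vCode d, vCode_mem hd⟩ : leechLattice) : leechLattice).2
    convert this using 1
    ext k
    simp only [Finset.mem_filter, Finset.mem_univ, true_and]
    rw [h3]
    have hk : k ∈ σ • d ↔ σ⁻¹ k ∈ d := by rw [← Finset.inv_smul_mem_iff]; rfl
    rw [hk]
    show _ ↔ 2 ≤ (sgn c k * vCode d (σ⁻¹ k)) % 4
    unfold vCode
    rcases chi_cases d (σ⁻¹ k) with ⟨hi, h⟩ | ⟨hi, h⟩ <;> rcases sgn_cases c k with h' | h' <;> rw [h, h'] <;>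
      simp only [hi] <;> norm_num
  have hcC : IsC c := by
    have := isC_of_mem (g • (⟨vOdd, vOdd_mem⟩ : leechLattice) : leechLattice).2
    convert this using 1
    ext k
    simp only [Finset.mem_filter, Finset.mem_univ, true_and]
    rw [h3]
    show _ ↔ 2 ≤ (sgn c k * vOdd (σ⁻¹ k)) % 4
    have hv : vOdd (σ⁻¹ k) = -3 ∨ vOdd (σ⁻¹ k) = 1 := by unfold vOdd; split_ifs <;> simp
    unfold sgn
    by_cases hk : k ∈ c <;> rcases hv with h | h <;> rw [h] <;> simp [hk]
  refine ⟨(⟨σ, hσM⟩, ⟨c, (mem_codeFin c).2 hcC⟩), ?_⟩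
  apply Co0_ext
  intro v
  funext k
  rw [h3, monoEl_smul]

/-- the monomial group is in bijection with `M24 × code` -/
noncomputable def monoEquiv : (↥M24 × ↥codeFin) ≃ {g : Co0 // PresCross g} :=
  Equiv.ofBijective (fun p => ⟨monoEl p, monoEl_pres p⟩)
    ⟨fun p q h => monoEl_inj (congrArg Subtype.val h), fun g => by
      obtain ⟨p, hp⟩ := exists_monoEl g.1 g.2
      exact ⟨p, Subtype.ext hp.symm⟩⟩

theorem card_codeFin : codeFin.card = 4096 := by
  rw [Finset.card_eq_sum_ones]
  exact sum_codeFin_card (fun _ => 1)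

theorem card_presCross : Nat.card {g : Co0 // PresCross g} = 4096 * 244823040 := by
  rw [← Nat.card_congr monoEquiv, Nat.card_prod, card_M24, Nat.card_eq_fintype_card, Fintype.card_coe,
    card_codeFin]

end Cfsg.Agent.Lib.Helper10
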