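/-
The order of the automorphism group of the Leech lattice, and its centre.
-/
import Cfsg.Agent.Lib.Helper10.LeechMono
set_option autoImplicit false
open Cfsg Cfsg.Agent.Lib.Helper28
open scoped Pointwise
namespace Cfsg.Agent.Lib.Helper10

theorem mem_of_four_dvd {x : GolayPt → ℤ} (h4 : ∀ i, x i % 4 = 0) (h8 : (∑ i, x i) % 8 = 0) :
    x ∈ leechLattice := by
  rw [mem_leech_iff_normal]
  refine ⟨0, Or.inl rfl, ∅, isC_empty, fun j => ?_, by rw [h8]; rfl⟩
  simp only [chi, Finset.notMem_empty, if_false]
  rw [h4 j]; rfl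

theorem ncard_stdCross : stdCross.ncard = 48 := by
  have : stdCross = (fun p : GolayPt × Bool => (Pi.single p.1 (if p.2 then 8 else -8) : GolayPt → ℤ)) ''
      Set.univ := by
    ext y
    simp only [stdCross, Set.mem_ofPred_eq, Set.image_univ, Set.mem_range, Prod.exists, Bool.exists_bool]
    constructor
    · rintro ⟨i, s, hs | hs, rfl⟩
      · exact ⟨i, Or.inr (by simp [hs])⟩
      · exact ⟨i, Or.inl (by simp [hs])⟩
    · rintro ⟨i, h | h⟩
      · exact ⟨i, -8, Or.inr rfl, by simpa using h.symm⟩
      · exact ⟨i, 8, Or.inl rfl, by simpa using h.symm⟩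
  rw [this, Set.ncard_image_of_injective, Set.ncard_univ, Nat.card_eq_fintype_card]
  · rfl
  · rintro ⟨i, a⟩ ⟨j, b⟩ h
    simp only at h
    have hij : i = j := by
      by_contra hne
      have := congrFun h i
      rw [Pi.single_eq_same, Pi.single_eq_of_ne hne] at this
      cases a <;> simp at this
    subst hij
    have := congrFun h i
    rw [Pi.single_eq_same, Pi.single_eq_same] at this
    cases a <;> cases b <;> simp_all

theorem stdCross_subset_cross : stdCross ⊆ cross (e8 none).1 := by
  rintro y ⟨i, s, hs, rfl⟩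
  have hn : ∀ (j : GolayPt) (t : ℤ), sqNorm (Pi.single j t : GolayPt → ℤ) = t ^ 2 := by
    intro j t
    unfold sqNorm
    rw [Finset.sum_eq_single j]
    · simp
    · intro k _ hk; simp [hk]
    · intro h; exact absurd (Finset.mem_univ j) h
  refine ⟨single_mem i hs, ?_, (Pi.single none 4 - Pi.single i (s / 2) : GolayPt → ℤ), ?_, ?_⟩
  · show sqNorm _ = sqNorm (Pi.single none 8 : GolayPt → ℤ)
    rw [hn, hn]
    rcases hs with rfl | rfl <;> norm_num
  · apply mem_of_four_dvd
    · intro j
      simp only [Pi.sub_apply, Pi.single_apply]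
      rcases hs with rfl | rfl <;> split_ifs <;> norm_num
    · simp only [Pi.sub_apply]
      rw [Finset.sum_sub_distrib, Finset.sum_pi_single', Finset.sum_pi_single']
      simp only [Finset.mem_univ, if_true]
      rcases hs with rfl | rfl <;> norm_num
  · funext j
    show (Pi.single none 8 : GolayPt → ℤ) j - (Pi.single i s : GolayPt → ℤ) j = _
    simp only [Pi.smul_apply, Pi.sub_apply, Pi.single_apply, nsmul_eq_mul]
    rcases hs with rfl | rfl <;> split_ifs <;> norm_num

theorem sqNorm_e8 (i : GolayPt) : sqNorm (e8 i).1 = 64 := by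
  unfold sqNorm
  rw [Finset.sum_eq_single i]
  · simp [e8]
  · intro k _ hk; simp [e8, hk]
  · intro h; exact absurd (Finset.mem_univ i) h

theorem cross_e8 : cross (e8 none).1 = stdCross := by
  have h48 := ncard_cross (e8 none).2 (sqNorm_e8 none)
  symm
  exact Set.eq_of_subset_of_ncard_le stdCross_subset_cross (by rw [h48, ncard_stdCross])
    (Set.finite_of_ncard_ne_zero (by rw [h48]; norm_num))

theorem Co0_smul_sub (a : Co0) (v w : leechLattice) : a • (v - w) = a • v - a • w := by
  rw [sub_eq_add_neg, Co0_smul_add, Co0_smul_neg, ← sub_eq_add_neg]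

theorem presCross_of_fix {g : Co0} (hg : g • e8 none = e8 none) : PresCross g := by
  intro v hv
  obtain ⟨h1, h2, z, hz, h3⟩ := stdCross_subset_cross hv
  rw [← cross_e8]
  refine ⟨(g • v : leechLattice).2, by rw [Co0_sqNorm]; exact h2, (g • (⟨z, hz⟩ : leechLattice) : leechLattice).1,
    (g • (⟨z, hz⟩ : leechLattice) : leechLattice).2, ?_⟩
  have e1 : e8 none - v = (⟨z, hz⟩ : leechLattice) + ⟨z, hz⟩ := by
    apply Subtype.ext
    show (e8 none).1 - v.1 = z + z
    rw [h3, two_smul]
  have e2 := congrArg (fun u => g • u) e1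
  simp only [Co0_smul_sub, Co0_smul_add, hg] at e2
  have e3 := congrArg Subtype.val e2
  rw [two_smul]
  exact e3

/-- the condition describing the stabiliser of `8 e_∞` in the monomial group -/
def FixCond (p : ↥M24 × ↥codeFin) : Prop := p.1.1 none = none ∧ none ∉ p.2.1

theorem monoEl_fix_iff (p : ↥M24 × ↥codeFin) : monoEl p • e8 none = e8 none ↔ FixCond p := by
  have h := monoEl_e8 p none 8 (single_mem none (Or.inl rfl))
  constructor
  · intro hp
    have hp' : (monoEl p • e8 none : leechLattice).1 = (Pi.single none 8 : GolayPt → ℤ) := by rw [hp]; rfl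
    have h' : (Pi.single (p.1.1 none) (sgn p.2.1 (p.1.1 none) * 8) : GolayPt → ℤ) = Pi.single none 8 := by
      rw [← h]; exact hp'
    have h1 : p.1.1 none = none := by
      by_contra hne
      have := congrFun h' (p.1.1 none)
      rw [Pi.single_eq_same, Pi.single_eq_of_ne hne] at this
      rcases sgn_cases p.2.1 (p.1.1 none) with h'' | h'' <;> rw [h''] at this <;> norm_num at this
    refine ⟨h1, ?_⟩
    have := congrFun h' none
    rw [h1, Pi.single_eq_same, Pi.single_eq_same] at this
    intro hc
    simp [sgn, hc] at this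
  · rintro ⟨h1, h2⟩
    apply Subtype.ext
    have : (monoEl p • e8 none : leechLattice).1 = Pi.single (p.1.1 none) (sgn p.2.1 (p.1.1 none) * 8) := h
    rw [this, h1]
    simp [sgn, h2, e8]

noncomputable def stabEquiv : {p : ↥M24 × ↥codeFin // FixCond p} ≃ ↥(MulAction.stabilizer Co0 (e8 none)) :=
  Equiv.ofBijective (fun p => ⟨monoEl p.1, (monoEl_fix_iff p.1).2 p.2⟩)
    ⟨fun p q h => Subtype.ext (monoEl_inj (congrArg Subtype.val h)), fun g => by
      obtain ⟨p, hp⟩ := exists_monoEl g.1 (presCross_of_fix g.2)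
      refine ⟨⟨p, (monoEl_fix_iff p).1 (by rw [← hp]; exact g.2)⟩, Subtype.ext hp.symm⟩⟩

theorem card_code_avoid : Nat.card {c : ↥codeFin // none ∉ c.1} = 2048 := by
  have h1 : Nat.card {c : ↥codeFin // none ∉ c.1} = (codeFin.filter (fun c => none ∉ c)).card := by
    rw [← Nat.card_eq_finsetCard]
    apply Nat.card_congr
    exact
      { toFun := fun c => ⟨c.1.1, Finset.mem_filter.2 ⟨c.1.2, c.2⟩⟩
        invFun := fun c => ⟨⟨c.1, (Finset.mem_filter.1 c.2).1⟩, (Finset.mem_filter.1 c.2).2⟩
        left_inv := fun c => rfl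
        right_inv := fun c => rfl }
  rw [h1, ← Set.ncard_coe_finset]
  have h2 := ncard_supports_filter (P := fun s => none ∉ s) (f := fun m => !(Nat.testBit m 23)) (by
    intro s _
    have := testBit_mask s 23
    rw [this]
    simp only [Nat.reduceLT, decide_true, Bool.true_and, Bool.not_eq_true', decide_eq_false_iff_not]
    rfl)
  rw [show countBelow (fun j => !(Nat.testBit (encF j) 23)) 4096 = 2048 by decide +kernel] at h2
  rw [← h2]
  congr 1
  ext c
  simp [mem_codeFin]

theorem card_stab_e8 : Nat.card ↥(MulAction.stabilizer Co0 (e8 none)) = 10200960 * 2048 := by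
  rw [← Nat.card_congr stabEquiv]
  have e : {p : ↥M24 × ↥codeFin // FixCond p} ≃
      {σ : ↥M24 // σ.1 none = none} × {c : ↥codeFin // none ∉ c.1} :=
    Equiv.subtypeProdEquivProd (p := fun σ : ↥M24 => σ.1 none = none) (q := fun c : ↥codeFin => none ∉ c.1)
  rw [Nat.card_congr e, Nat.card_prod, card_code_avoid]
  congr 1
  rw [← card_stab_pt none]
  rfl

theorem orbit_e8 : MulAction.orbit Co0 (e8 none) = {v : leechLattice | sqNorm v.1 = 64} := by
  ext v
  constructor
  · rintro ⟨g, rfl⟩
    show sqNorm (g • e8 none : leechLattice).1 = 64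
    rw [Co0_sqNorm, sqNorm_e8]
  · intro hv
    exact Co0_trans64 _ _ (sqNorm_e8 none) hv

theorem card_Co0 : Nat.card Co0 = 8315553613086720000 := by
  have h := card_stabilizer_mul (G := Co0) (e8 none)
  rw [card_stab_e8, orbit_e8] at h
  have h2 : {v : leechLattice | sqNorm v.1 = 64}.ncard = 398034000 := by
    rw [← ncard_norm64, ← Set.ncard_image_of_injective _ Subtype.val_injective]
    congr 1
    ext x
    simp only [Set.mem_image, Set.mem_ofPred_eq, Subtype.exists, exists_and_left, exists_prop, exists_eq_right_right]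
    tauto
  rw [h2] at h
  rw [← h]

end Cfsg.Agent.Lib.Helper10
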