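/-
Orthogonal pairs of minimal vectors of the Leech lattice: the automorphism group is transitive on them.
-/
import Cfsg.Agent.Lib.Helper10.LeechOrder
set_option autoImplicit false
open Cfsg Cfsg.Agent.Lib.Helper28
open scoped Pointwise
namespace Cfsg.Agent.Lib.Helper10

theorem exists_code_sep {i j : GolayPt} (h : i ≠ j) : ∃ c, IsC c ∧ j ∈ c ∧ i ∉ c := by
  have hc0 : IsC (unmask 8536111) := by
    rw [isC_iff, mask_unmask _ (by norm_num)]; decide +kernel
  have h1 : pt 0 ∈ unmask 8536111 := by rw [mem_unmask]; decide +kernel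
  have h2 : pt 4 ∉ unmask 8536111 := by rw [mem_unmask]; decide +kernel
  obtain ⟨σ, hσ, e1, e2⟩ := M24_trans_pt2 (p := pt 0) (q := pt 4) (p' := j) (q' := i) (by decide) (Ne.symm h)
  refine ⟨σ • unmask 8536111, isC_smul hσ hc0, ?_, ?_⟩
  · rw [← e1]; exact Finset.smul_mem_smul_finset h1
  · rw [← e2]
    intro hh
    exact h2 ((Finset.smul_mem_smul_finset_iff σ).1 hh)

theorem sq_add_le (x : GolayPt → ℤ) (s : Finset GolayPt) : ∑ i ∈ s, x i ^ 2 ≤ sqNorm x :=
  Finset.sum_le_sum_of_subset_of_nonneg (Finset.subset_univ s) (fun i _ _ => sq_nonneg _)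

/-- a minimal vector with a coordinate 4 -/
theorem shape_four {a : GolayPt → ℤ} (ha : a ∈ leechLattice) (hn : sqNorm a = 32) {p : GolayPt} (hp : a p = 4) :
    ∃ j, j ≠ p ∧ ∃ s : ℤ, (s = 4 ∨ s = -4) ∧ a = Pi.single p 4 + Pi.single j s := by
  classical
  have h4 : ∀ i, a i % 4 = 0 := by
    by_contra hcon
    push Not at hcon
    obtain ⟨i, hi⟩ := hcon
    have hpar := parity_eq ha p i
    rw [hp] at hpar
    set c := Finset.univ.filter (fun k => 2 ≤ a k % 4) with hc
    have hcC : IsC c := isC_of_mem ha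
    have hic : i ∈ c := by rw [hc, Finset.mem_filter]; exact ⟨Finset.mem_univ _, by omega⟩
    have hpc : p ∉ c := by rw [hc, Finset.mem_filter, hp]; norm_num
    have hcard : 8 ≤ c.card := by
      have h0 : c.card ≠ 0 := Finset.card_ne_zero_of_mem hic
      rcases isC_card hcC with h | h | h | h | h <;> omega
    have h1 := sq_add_le a (insert p c)
    rw [Finset.sum_insert hpc, hp, hn] at h1
    have h2 : (c.card : ℤ) * 4 ≤ ∑ k ∈ c, a k ^ 2 := by
      rw [← nsmul_eq_mul]
      apply Finset.card_nsmul_le_sum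
      intro k hk
      rw [hc, Finset.mem_filter] at hk
      have hk2 := hk.2
      have hpk := parity_eq ha p k
      rw [hp] at hpk
      have : a k ≤ -2 ∨ 2 ≤ a k := by omega
      rcases this with h | h <;> nlinarith
    have h3 : (8 : ℤ) ≤ c.card := by exact_mod_cast hcard
    linarith
  have hex : ∃ j, j ≠ p ∧ a j ≠ 0 := by
    by_contra hcon
    push Not at hcon
    have : sqNorm a = a p ^ 2 := by
      unfold sqNorm
      rw [Finset.sum_eq_single p]
      · intro k _ hk; rw [hcon k hk]; norm_num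
      · intro h; exact absurd (Finset.mem_univ p) h
    rw [hn, hp] at this
    norm_num at this
  obtain ⟨j, hjp, hj0⟩ := hex
  have hj4 := h4 j
  have hj16 : 16 ≤ a j ^ 2 := by
    have : a j ≤ -4 ∨ 4 ≤ a j := by omega
    rcases this with h | h <;> nlinarith
  have h2 := sq_add_le a {p, j}
  rw [Finset.sum_pair (Ne.symm hjp), hp, hn] at h2
  have hj : a j = 4 ∨ a j = -4 := by
    have h5 : a j ^ 2 = 16 := by linarith
    have : (a j - 4) * (a j + 4) = 0 := by ring_nf; linarith
    rcases mul_eq_zero.1 this with h | h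
    · left; linarith
    · right; linarith
  refine ⟨j, hjp, a j, hj, ?_⟩
  funext k
  simp only [Pi.add_apply, Pi.single_apply]
  by_cases hkp : k = p
  · subst hkp; simp [hp, Ne.symm hjp]
  · by_cases hkj : k = j
    · subst hkj; simp [hkp]
    · have h3 := sq_add_le a {p, j, k}
      rw [Finset.sum_insert (by simp [Ne.symm hjp, Ne.symm hkp]), Finset.sum_pair (Ne.symm hkj), hp, hn] at h3
      have : a k ^ 2 ≤ 0 := by linarith
      have hk0 : a k = 0 := by nlinarith [sq_nonneg (a k)]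
      simp [hkp, hkj, hk0]

/-- moving one vector `(4, ±4, 0, ...)` to another by a monomial element fixing `8 e_p` -/
theorem exists_mono_pair {j j' : GolayPt} (hj : j ≠ none) (hj' : j' ≠ none) {s s' : ℤ} (hs : s = 4 ∨ s = -4)
    (hs' : s' = 4 ∨ s' = -4) (a a' : leechLattice) (ha : a.1 = Pi.single none 4 + Pi.single j s)
    (ha' : a'.1 = Pi.single none 4 + Pi.single j' s') :
    ∃ n : Co0, n • e8 none = e8 none ∧ n • a = a' := by
  obtain ⟨σ, hσ, e1, e2⟩ := M24_trans_pt2 (p := none) (q := j) (p' := none) (q' := j') (Ne.symm hj) (Ne.symm hj')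
  obtain ⟨c, hc, hc1, hc2⟩ : ∃ c, IsC c ∧ none ∉ c ∧ sgn c j' * s = s' := by
    by_cases hss : s = s'
    · exact ⟨∅, isC_empty, by simp, by simp [sgn, hss]⟩
    · obtain ⟨c, hc, h1, h2⟩ := exists_code_sep (Ne.symm hj')
      refine ⟨c, hc, h2, ?_⟩
      simp only [sgn, h1, if_true]
      rcases hs with rfl | rfl <;> rcases hs' with rfl | rfl <;> simp_all
  set p : ↥M24 × ↥codeFin := (⟨σ, hσ⟩, ⟨c, (mem_codeFin c).2 hc⟩) with hp
  refine ⟨monoEl p, (monoEl_fix_iff p).2 ⟨e1, hc1⟩, ?_⟩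
  apply Subtype.ext
  funext k
  rw [monoEl_smul, ha, ha']
  show sgn c k * (Pi.single none 4 + Pi.single j s : GolayPt → ℤ) (σ⁻¹ k) = _
  have i1 : σ⁻¹ k = none ↔ k = none := by
    constructor
    · intro h; rw [← perm_apply_inv σ k, h, e1]
    · intro h; rw [h, ← e1, perm_inv_apply, e1]
  have i2 : σ⁻¹ k = j ↔ k = j' := by
    constructor
    · intro h; rw [← perm_apply_inv σ k, h, e2]
    · intro h; rw [h, ← e2, perm_inv_apply]
  simp only [Pi.add_apply, Pi.single_apply, i1, i2]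
  by_cases hk1 : k = none
  · subst hk1
    simp [sgn, hc1, Ne.symm hj']
  · by_cases hk2 : k = j'
    · subst hk2
      simp [hk1, hc2]
    · simp [hk1, hk2]

theorem Co0_trans_orth (v w w' : leechLattice) (hv : sqNorm v.1 = 32) (hw : sqNorm w.1 = 32)
    (hw' : sqNorm w'.1 = 32) (hd : dotInt v.1 w.1 = 0) (hd' : dotInt v.1 w'.1 = 0) :
    ∃ g : Co0, g • v = v ∧ g • w = w' := by
  have norm : ∀ u : leechLattice, sqNorm u.1 = 32 → dotInt v.1 u.1 = 0 →
      ∃ g : Co0, g • (v + u) = e8 none ∧ ∃ j, j ≠ none ∧ ∃ s : ℤ, (s = 4 ∨ s = -4) ∧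
        (g • v : leechLattice).1 = Pi.single none 4 + Pi.single j s := by
    intro u hu hdu
    have hx : sqNorm (v + u : leechLattice).1 = 64 := by
      show sqNorm (v.1 + u.1) = 64
      rw [sqNorm_add, hv, hu, hdu]; norm_num
    obtain ⟨g, hg⟩ := Co0_trans64 (v + u) (e8 none) hx (sqNorm_e8 none)
    refine ⟨g, hg, ?_⟩
    have h1 := Co0_dot g v (v + u)
    rw [hg] at h1
    have h2 : dotInt v.1 (v + u : leechLattice).1 = 32 := by
      show dotInt v.1 (v.1 + u.1) = 32
      have := bform_dotInt.add v.1 u.1 v.1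
      rw [bform_dotInt.symm, this, dotInt_self, hv, bform_dotInt.symm u.1, hdu]; norm_num
    rw [h2] at h1
    have h3 : dotInt (g • v : leechLattice).1 (e8 none).1 = (g • v : leechLattice).1 none * 8 := dot_single _ _ _
    rw [h3] at h1
    exact shape_four (g • v : leechLattice).2 (by rw [Co0_sqNorm]; exact hv) (by linarith)
  obtain ⟨g1, e1, j1, hj1, s1, hs1, a1⟩ := norm w hw hd
  obtain ⟨g2, e2, j2, hj2, s2, hs2, a2⟩ := norm w' hw' hd'
  obtain ⟨n, hn1, hn2⟩ := exists_mono_pair hj1 hj2 hs1 hs2 (g1 • v) (g2 • v) a1 a2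
  have hgv : (g2⁻¹ * n * g1) • v = v := by
    rw [mul_smul, mul_smul, hn2, inv_smul_smul]
  refine ⟨g2⁻¹ * n * g1, hgv, ?_⟩
  have h : (g2⁻¹ * n * g1) • (v + w) = v + w' := by
    rw [mul_smul, mul_smul, e1, hn1, ← e2, inv_smul_smul]
  rw [Co0_smul_add, hgv] at h
  exact add_left_cancel h

end Cfsg.Agent.Lib.Helper10
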