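/-
Lattice vectors packed into one number (24 fields of 5 bits, offset 16) and the action on them of words in monomial
automorphisms and Conway's automorphism, computable in the kernel.
-/
import Cfsg.Agent.Lib.Helper10.LeechPair
import Cfsg.Agent.Lib.Helper10.Packed
import Cfsg.Agent.Lib.Helper10.Orbit
set_option autoImplicit false
open Cfsg Cfsg.Agent.Lib.Helper28
namespace Cfsg.Agent.Lib.Helper10

/-- the vector with code `X` -/
def unpV (X : ℕ) : GolayPt → ℤ := fun i => (gP X (idx i) : ℤ) - 16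

theorem unpV_pt (X : ℕ) {k : ℕ} (hk : k < 24) : unpV X (pt k) = (gP X k : ℤ) - 16 := by
  unfold unpV; rw [idx_pt k hk]

theorem gP_bounds {x : GolayPt → ℤ} {X : ℕ} (hX : x = unpV X) (hn : sqNorm x ≤ 64) {k : ℕ} (hk : k < 24) :
    8 ≤ gP X k ∧ gP X k ≤ 24 := by
  have h := (mem_V8 _).1 (mem_V8_of_sqNorm_le hn (pt k))
  rw [hX, unpV_pt X hk] at h
  omega

theorem packF_gP (A : ℕ) (n i : ℕ) (h : A / 32 ^ i < 32 ^ n) : packF (gP A) n i = A / 32 ^ i := by
  induction n generalizing i with
  | zero =>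
    rw [packF_zero]
    rw [pow_zero] at h
    exact (Nat.lt_one_iff.1 h).symm
  | succ n ih =>
    rw [packF_succ, ih (i + 1)]
    · show A / 32 ^ i % 32 + 32 * (A / 32 ^ (i + 1)) = A / 32 ^ i
      rw [pow_succ, ← Nat.div_div_eq_div_mul]
      exact Nat.mod_add_div _ _
    · rw [pow_succ, ← Nat.div_div_eq_div_mul]
      apply Nat.div_lt_of_lt_mul
      rw [pow_succ, mul_comm] at h
      exact h

theorem unpV_inj {X Y : ℕ} (hX : X < 32 ^ 24) (hY : Y < 32 ^ 24) (h : unpV X = unpV Y) : X = Y := by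
  have h1 := packF_gP X 24 0 (by simpa using hX)
  have h2 := packF_gP Y 24 0 (by simpa using hY)
  simp only [pow_zero, Nat.div_one] at h1 h2
  rw [← h1, ← h2]
  apply packF_congr
  intro k hk
  have := congrFun h (pt k)
  rw [unpV_pt X hk, unpV_pt Y hk] at this
  rw [zero_add]
  omega

/-! ### monomial letters -/

def monoFld (T M X i : ℕ) : ℕ :=
  Nat.mod (cond (Nat.testBit M i) (Nat.sub 32 (gP X (gP T i))) (gP X (gP T i))) 32

noncomputable def monoA (T M X : ℕ) : ℕ := packF (monoFld T M X) 24 0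

noncomputable def okMono (T M : ℕ) : Bool := and (inM24P T) (and (Nat.blt M 16777216) (isCodeF M))

theorem okMono_spec {T M : ℕ} (h : okMono T M = true) : inM24P T = true ∧ IsC (unmask M) := by
  unfold okMono at h
  simp only [Bool.and_eq_true] at h
  obtain ⟨h1, h2, h3⟩ := h
  have h2' : M < 2 ^ 24 := by have := Nat.blt_eq.mp h2; omega
  refine ⟨h1, ?_⟩
  rw [isC_iff, mask_unmask _ h2', ← isCodeF_eq h2']
  exact h3

open Classical in
/-- the monomial automorphism with table `T` and sign mask `M` -/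
noncomputable def monoP (T M : ℕ) : Co0 :=
  if h : okMono T M = true then monoCo0 (permP T) (permP_mem (okMono_spec h).1) (unmask M) (okMono_spec h).2 else 1

theorem monoA_spec {T M : ℕ} (h : okMono T M = true) (x : leechLattice) (hn : sqNorm x.1 ≤ 64) {X : ℕ}
    (hX : x.1 = unpV X) : (monoP T M • x : leechLattice).1 = unpV (monoA T M X) := by
  unfold monoP
  rw [dif_pos h, monoCo0_smul]
  have hV := inM24P_VP (okMono_spec h).1
  funext i
  revert i
  apply forall_pt
  intro k hk
  have hT := gP_lt_of_VP hV hk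
  have hb := gP_bounds hX hn hT
  rw [unpV_pt _ hk, monoA, gP_packF (f := monoFld T M X) (fun i => Nat.mod_lt _ (by norm_num)) 24 0 k hk, zero_add]
  simp only [monoFun, sgn, mem_unmask, idx_pt k hk, permP_apply hV hk, hX, unpV_pt X hT]
  unfold monoFld
  cases hbit : Nat.testBit M k with
  | true =>
    simp only [if_true, cond_true]
    have e : Nat.mod (Nat.sub 32 (gP X (gP T k))) 32 = 32 - gP X (gP T k) := Nat.mod_eq_of_lt (by
      show 32 - gP X (gP T k) < 32
      omega)
    rw [e]
    push_cast [Nat.cast_sub (show gP X (gP T k) ≤ 32 by omega)]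
    ring
  | false =>
    simp only [Bool.false_eq_true, if_false, cond_false]
    have e : Nat.mod (gP X (gP T k)) 32 = gP X (gP T k) := Nat.mod_eq_of_lt (by omega)
    rw [e]; ring

/-! ### Conway's automorphism -/

def xiFld (X i : ℕ) : ℕ := Nat.mod (XiN (fun k => (gP X k : ℤ) - 16) i / 2 + 16).toNat 32

noncomputable def xiA (X : ℕ) : ℕ := packF (xiFld X) 24 0

theorem xiA_spec (x : leechLattice) (hn : sqNorm x.1 ≤ 64) {X : ℕ} (hX : x.1 = unpV X) :
    (xiCo0 • x : leechLattice).1 = unpV (xiA X) := by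
  have hn' : sqNorm (xiCo0 • x : leechLattice).1 ≤ 64 := by rw [Co0_sqNorm]; exact hn
  funext i
  revert i
  apply forall_pt
  intro k hk
  have hb := (mem_V8 _).1 (mem_V8_of_sqNorm_le hn' (pt k))
  rw [unpV_pt _ hk, xiA, gP_packF (f := xiFld X) (fun i => Nat.mod_lt _ (by norm_num)) 24 0 k hk, zero_add]
  rw [xiCo0_smul] at hb ⊢
  have e : xiFun x.1 (pt k) = XiN (fun k => (gP X k : ℤ) - 16) k / 2 := by
    unfold xiFun
    rw [XiF_eq_XiN (y := fun k => (gP X k : ℤ) - 16) (fun j hj => by rw [hX, unpV_pt X hj]), idx_pt k hk]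
  rw [e] at hb ⊢
  unfold xiFld
  set o := XiN (fun k => (gP X k : ℤ) - 16) k / 2 with ho
  have e2 : Nat.mod (o + 16).toNat 32 = (o + 16).toNat := Nat.mod_eq_of_lt (by omega)
  rw [e2]
  omega

/-! ### words -/

noncomputable def letA (l : ℕ × ℕ) (X : ℕ) : ℕ := cond (Nat.beq l.1 0) (xiA X) (monoA l.1 l.2 X)

noncomputable def letCo0 (l : ℕ × ℕ) : Co0 := if l.1 = 0 then xiCo0 else monoP l.1 l.2

noncomputable def okLet (l : ℕ × ℕ) : Bool := cond (Nat.beq l.1 0) true (okMono l.1 l.2)

theorem letA_spec {l : ℕ × ℕ} (h : okLet l = true) (x : leechLattice) (hn : sqNorm x.1 ≤ 64) {X : ℕ}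
    (hX : x.1 = unpV X) : (letCo0 l • x : leechLattice).1 = unpV (letA l X) := by
  unfold letCo0 letA
  unfold okLet at h
  by_cases h0 : l.1 = 0
  · have hb : Nat.beq l.1 0 = true := by rw [h0]; rfl
    rw [if_pos h0, hb, cond_true]
    exact xiA_spec x hn hX
  · have hb : Nat.beq l.1 0 = false := by
      cases hh : Nat.beq l.1 0 with
      | true => exact absurd (Nat.eq_of_beq_eq_true hh) h0
      | false => rfl
    rw [hb] at h ⊢
    rw [if_neg h0, cond_false]
    rw [cond_false] at h
    exact monoA_spec h x hn hX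

/-- the image of the code `X` under the word `w` (first letter applied first) -/
noncomputable def wordA (w : List (ℕ × ℕ)) : ℕ → ℕ :=
  List.rec (fun X => X) (fun l _ ih X => strict (letA l X) ih) w

theorem wordA_nil (X : ℕ) : wordA [] X = X := rfl

theorem wordA_cons (l : ℕ × ℕ) (w : List (ℕ × ℕ)) (X : ℕ) : wordA (l :: w) X = wordA w (letA l X) := by
  show strict (letA l X) (wordA w) = _
  rw [strict_eq]

noncomputable def wordCo0 : List (ℕ × ℕ) → Co0
  | [] => 1
  | l :: w => wordCo0 w * letCo0 l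

noncomputable def okWord (w : List (ℕ × ℕ)) : Bool := w.all okLet

theorem wordA_spec {w : List (ℕ × ℕ)} (h : okWord w = true) (x : leechLattice) (hn : sqNorm x.1 ≤ 64) {X : ℕ}
    (hX : x.1 = unpV X) : (wordCo0 w • x : leechLattice).1 = unpV (wordA w X) := by
  induction w generalizing x X with
  | nil => rw [wordA_nil, wordCo0, one_smul]; exact hX
  | cons l w ih =>
    unfold okWord at h ih
    rw [List.all_cons, Bool.and_eq_true] at h
    rw [wordA_cons, wordCo0, mul_smul]
    exact ih h.2 (letCo0 l • x) (by rw [Co0_sqNorm]; exact hn) (letA_spec h.1 x hn hX)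

/-! ### lattice vectors from codes -/

open Classical in
noncomputable def vecOf (X : ℕ) : leechLattice := if h : unpV X ∈ leechLattice then ⟨unpV X, h⟩ else 0

theorem vecOf_val {X : ℕ} (h : unpV X ∈ leechLattice) : (vecOf X).1 = unpV X := by
  unfold vecOf; rw [dif_pos h]

/-- membership test -/
def memChk (X : ℕ) : Bool := leechChk (fun k => (gP X k : ℤ) - 16)

theorem memChk_spec {X : ℕ} (h : memChk X = true) : unpV X ∈ leechLattice := leechChk_spec h

theorem vecOf_eq_of_val {X : ℕ} {x : leechLattice} (h : x.1 = unpV X) : vecOf X = x := by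
  apply Subtype.ext
  rw [vecOf_val (h ▸ x.2), h]

theorem sqNorm_unpV (X : ℕ) : sqNorm (unpV X) = sumN (fun k => ((gP X k : ℤ) - 16) ^ 2) 24 := by
  unfold sqNorm
  rw [sum_pt, sumN_eq]
  apply Finset.sum_congr rfl
  intro k hk
  rw [unpV_pt X (Finset.mem_range.1 hk)]

theorem dotInt_unpV (X Y : ℕ) :
    dotInt (unpV X) (unpV Y) = sumN (fun k => ((gP X k : ℤ) - 16) * ((gP Y k : ℤ) - 16)) 24 := by
  unfold dotInt
  rw [sum_pt, sumN_eq]
  apply Finset.sum_congr rfl
  intro k hk
  rw [unpV_pt X (Finset.mem_range.1 hk), unpV_pt Y (Finset.mem_range.1 hk)]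

/-- a word fixes a vector -/
theorem word_fix {w : List (ℕ × ℕ)} (h : okWord w = true) {P : ℕ} (hP : unpV P ∈ leechLattice)
    (hn : sqNorm (unpV P) ≤ 64) (hw : wordA w P = P) : wordCo0 w • vecOf P = vecOf P := by
  apply Subtype.ext
  rw [wordA_spec h (vecOf P) (by rw [vecOf_val hP]; exact hn) (vecOf_val hP), hw, vecOf_val hP]

end Cfsg.Agent.Lib.Helper10
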