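/-
Counting lattice vectors with a weight function that takes one form on a set `A` of coordinates and another form
outside `A`.
-/
import Cfsg.Agent.Lib.Helper10.LeechNorm
set_option autoImplicit false
open Cfsg Cfsg.Agent.Lib.Helper28
namespace Cfsg.Agent.Lib.Helper10

theorem prod_chi_on (s c : Finset GolayPt) (g : ℤ → ℤ) :
    ∏ i ∈ s, g (chi c i) = g 1 ^ (s ∩ c).card * g 0 ^ (s.card - (s ∩ c).card) := by
  classical
  have h : ∀ i, g (chi c i) = if i ∈ c then g 1 else g 0 := by
    intro i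
    unfold chi
    split_ifs <;> rfl
  simp only [h]
  rw [Finset.prod_ite, Finset.prod_const, Finset.prod_const]
  have h1 : s.filter (fun i => i ∈ c) = s ∩ c := by ext i; simp
  have h2 := Finset.card_filter_add_card_filter_not (s := s) (fun i => i ∈ c)
  rw [h1] at h2 ⊢
  congr 2
  omega

/-- the digit for a two-zone weight, computable -/
def digZ (B : ℕ) (V : List ℤ) (w' w : ℤ → ℕ) (n : ℕ) (sA : ℕ) (m : ℤ) (α k : ℕ) : ℕ :=
  ((genP B V w' (m + 2) ^ α * genP B V w' m ^ (sA - α) *
      (genP B V w (m + 2) ^ (k - α) * genP B V w m ^ (24 - sA - (k - α))) +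
    (1 - 2 * m) * (genD B V w' (m + 2) ^ α * genD B V w' m ^ (sA - α) *
      (genD B V w (m + 2) ^ (k - α) * genD B V w m ^ (24 - sA - (k - α))))) / 2).toNat / B ^ n % B

theorem prod_zone (A c : Finset GolayPt) (g' g : ℤ → ℤ) :
    ∏ i, (if i ∈ A then g' (chi c i) else g (chi c i)) =
      g' 1 ^ (A ∩ c).card * g' 0 ^ (A.card - (A ∩ c).card) *
        (g 1 ^ (c.card - (A ∩ c).card) * g 0 ^ (24 - A.card - (c.card - (A ∩ c).card))) := by
  classical
  rw [Finset.prod_ite]
  have h1 : Finset.univ.filter (fun i => i ∈ A) = A := by ext i; simp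
  have h2 : Finset.univ.filter (fun i => i ∉ A) = Aᶜ := by ext i; simp
  rw [h1, h2, prod_chi_on, prod_chi_on]
  have h3 : (Aᶜ ∩ c).card = c.card - (A ∩ c).card := by
    have := Finset.card_inter_add_card_sdiff c A
    have e : Aᶜ ∩ c = c \ A := by ext i; simp [and_comm]
    rw [e, Finset.inter_comm A c]
    omega
  have h4 : Aᶜ.card = 24 - A.card := by rw [Finset.card_compl]; rfl
  rw [h3, h4]

theorem digMC_zone (B : ℕ) (V : List ℤ) (hV : V.Nodup) (A : Finset GolayPt) (w' w : ℤ → ℕ) (n : ℕ) (m : ℤ)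
    (c : Finset GolayPt) :
    digMC B V (fun i => if i ∈ A then w' else w) n m c = digZ B V w' w n A.card m (A ∩ c).card c.card := by
  unfold digMC digZ
  have h1 : ∀ i, ∑ v ∈ valS V m c i, (B : ℤ) ^ (if i ∈ A then w' else w) v =
      if i ∈ A then genP B V w' (m + 2 * chi c i) else genP B V w (m + 2 * chi c i) := by
    intro i
    unfold valS genP
    rw [List.sum_toFinset _ (hV.filter _)]
    split_ifs <;> rfl
  have h2 : ∀ i, ∑ v ∈ valS V m c i, tau (v / 4) * (B : ℤ) ^ (if i ∈ A then w' else w) v =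
      if i ∈ A then genD B V w' (m + 2 * chi c i) else genD B V w (m + 2 * chi c i) := by
    intro i
    unfold valS genD
    rw [List.sum_toFinset _ (hV.filter _)]
    split_ifs <;> rfl
  simp only [h1, h2]
  rw [prod_zone A c (fun t => genP B V w' (m + 2 * t)) (fun t => genP B V w (m + 2 * t)),
    prod_zone A c (fun t => genD B V w' (m + 2 * t)) (fun t => genD B V w (m + 2 * t))]
  simp only [mul_one, mul_zero, add_zero]

/-- sums over the code grouped by a key computed from the mask -/
theorem sum_codeFin_key (kf : ℕ → ℕ) (keys : List ℕ) (hnd : keys.Nodup)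
    (hall : ∀ j, j < 4096 → kf (encF j) ∈ keys) (f : ℕ → ℕ) :
    ∑ c ∈ codeFin, f (kf (mask c)) =
      (keys.map (fun κ => countBelow (fun j => Nat.beq (kf (encF j)) κ) 4096 * f κ)).sum := by
  classical
  rw [← List.sum_toFinset _ hnd, ← Finset.sum_fiberwise_of_maps_to (s := codeFin) (t := keys.toFinset)
    (g := fun c => kf (mask c))]
  · apply Finset.sum_congr rfl
    intro κ _
    have hcount : (codeFin.filter (fun c => kf (mask c) = κ)).card =
        countBelow (fun j => Nat.beq (kf (encF j)) κ) 4096 := by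
      rw [← ncard_supports_filter (P := fun s => kf (mask s) = κ) (f := fun m => Nat.beq (kf m) κ)]
      · rw [← Set.ncard_coe_finset]
        congr 1
        ext c
        simp [mem_codeFin]
      · intro s _
        rw [Nat.beq_eq]
    rw [← hcount, Finset.sum_congr rfl (g := fun _ => f κ), Finset.sum_const, smul_eq_mul]
    intro c hc
    rw [(Finset.mem_filter.1 hc).2]
  · intro c hc
    rw [mem_codeFin, isC_iff] at hc
    obtain ⟨j, hj, hjc⟩ := exists_enc_of_isCode (mask_lt c) hc
    rw [List.mem_toFinset, ← hjc, ← encF_eq j hj]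
    exact hall j hj

/-- key of a codeword relative to the zone with mask `mA` -/
def zoneKey (mA : ℕ) (M : ℕ) : ℕ := Nat.add (Nat.mul 32 (pcF (Nat.land mA M))) (pcF M)

/-- total count for a two-zone weight, computable -/
def leechCntZ (B : ℕ) (V : List ℤ) (w' w : ℤ → ℕ) (n : ℕ) (mA : ℕ) (keys : List ℕ) : ℕ :=
  (keys.map (fun κ => countBelow (fun j => Nat.beq (zoneKey mA (encF j)) κ) 4096 *
    (digZ B V w' w n (pcF mA) 0 (κ / 32) (κ % 32) + digZ B V w' w n (pcF mA) 1 (κ / 32) (κ % 32)))).sum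

theorem ncard_leech_zone (B : ℕ) (V : List ℤ) (hV : V.Nodup) (hB : V.length ^ 24 < B) (w' w : ℤ → ℕ) (n : ℕ)
    (mA : ℕ) (hmA : mA < 2 ^ 24) (keys : List ℕ) (hnd : keys.Nodup)
    (hall : ∀ j, j < 4096 → zoneKey mA (encF j) ∈ keys) :
    {x : GolayPt → ℤ | x ∈ leechLattice ∧ (∀ i, x i ∈ V) ∧
      ∑ i, (if i ∈ unmask mA then w' else w) (x i) = n}.ncard = leechCntZ B V w' w n mA keys := by
  rw [ncard_leech B V hB (fun i => if i ∈ unmask mA then w' else w) n]
  simp only [digMC_zone B V hV]
  unfold leechCntZ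
  rw [← sum_codeFin_key (zoneKey mA) keys hnd hall
    (fun κ => digZ B V w' w n (pcF mA) 0 (κ / 32) (κ % 32) + digZ B V w' w n (pcF mA) 1 (κ / 32) (κ % 32))]
  apply Finset.sum_congr rfl
  intro c _
  have h1 : (unmask mA).card = pcF mA := by rw [card_eq_pcF, mask_unmask _ hmA]
  have h2 : (unmask mA ∩ c).card = pcF (Nat.land mA (mask c)) := by
    rw [card_eq_pcF, mask_inter, mask_unmask _ hmA]; rfl
  have h3 : c.card = pcF (mask c) := card_eq_pcF c
  have h4 : c.card ≤ 24 := Finset.card_le_univ c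
  have hk : zoneKey mA (mask c) = 32 * (unmask mA ∩ c).card + c.card := by
    rw [h2, h3]; rfl
  have e1 : zoneKey mA (mask c) / 32 = (unmask mA ∩ c).card := by rw [hk]; omega
  have e2 : zoneKey mA (mask c) % 32 = c.card := by rw [hk]; omega
  simp only [e1, e2, h1]

end Cfsg.Agent.Lib.Helper10
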