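/-
Counting lattice vectors with a weight function depending on the coordinate through four zones:
the points with index 0, 1, 2 and the remaining 21 points.
-/
import Cfsg.Agent.Lib.Helper10.LeechZone
set_option autoImplicit false
open Cfsg Cfsg.Agent.Lib.Helper28
namespace Cfsg.Agent.Lib.Helper10

/-- zone of an index -/
def zf (k : ℕ) : ℕ := cond (Nat.blt k 3) k 3

/-- the fourth zone -/
def Rz : Finset GolayPt := Finset.univ.filter (fun i => 3 ≤ idx i)

theorem univ_eq_z4 : (Finset.univ : Finset GolayPt) = insert (pt 0) (insert (pt 1) (insert (pt 2) Rz)) := by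
  decide +kernel

theorem zf_Rz : ∀ i ∈ Rz, zf (idx i) = 3 := by decide +kernel

theorem card_Rz : Rz.card = 21 := by decide +kernel

theorem prod_z4 (c : Finset GolayPt) (G : ℕ → ℤ → ℤ) :
    ∏ i, G (zf (idx i)) (chi c i) = G 0 (chi c (pt 0)) * (G 1 (chi c (pt 1)) * (G 2 (chi c (pt 2)) *
      (G 3 1 ^ (Rz ∩ c).card * G 3 0 ^ (21 - (Rz ∩ c).card)))) := by
  rw [univ_eq_z4, Finset.prod_insert (by decide +kernel), Finset.prod_insert (by decide +kernel),
    Finset.prod_insert (by decide +kernel)]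
  have h : ∏ i ∈ Rz, G (zf (idx i)) (chi c i) = ∏ i ∈ Rz, G 3 (chi c i) := by
    apply Finset.prod_congr rfl
    intro i hi
    rw [zf_Rz i hi]
  rw [h, prod_chi_on, card_Rz]
  rfl

theorem card_z4 (c : Finset GolayPt) :
    (c.card : ℤ) = chi c (pt 0) + (chi c (pt 1) + (chi c (pt 2) + ((Rz ∩ c).card : ℤ))) := by
  rw [← sum_chi, univ_eq_z4, Finset.sum_insert (by decide +kernel), Finset.sum_insert (by decide +kernel),
    Finset.sum_insert (by decide +kernel)]
  congr 3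
  unfold chi
  rw [Finset.sum_boole, Finset.filter_mem_eq_inter]

/-- product over the four zones; `κ` is the key of the codeword -/
def z4prod (g : ℕ → ℤ → ℤ) (m : ℤ) (κ : ℕ) : ℤ :=
  g 0 (m + 2 * ((κ % 2 : ℕ) : ℤ)) * (g 1 (m + 2 * ((κ / 2 % 2 : ℕ) : ℤ)) * (g 2 (m + 2 * ((κ / 4 % 2 : ℕ) : ℤ)) *
    (g 3 (m + 2) ^ (κ / 8 - (κ % 2 + κ / 2 % 2 + κ / 4 % 2)) *
      g 3 m ^ (21 - (κ / 8 - (κ % 2 + κ / 2 % 2 + κ / 4 % 2))))))

/-- the digit for a four-zone weight, computable -/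
def digZ4 (B : ℕ) (V : List ℤ) (W : ℕ → ℤ → ℕ) (n : ℕ) (m : ℤ) (κ : ℕ) : ℕ :=
  ((z4prod (fun z => genP B V (W z)) m κ + (1 - 2 * m) * z4prod (fun z => genD B V (W z)) m κ) / 2).toNat /
    B ^ n % B

/-- key of a codeword -/
def z4Key (M : ℕ) : ℕ := Nat.add (Nat.land M 7) (Nat.mul 8 (pcF M))

theorem chi_pt (c : Finset GolayPt) (k : ℕ) (hk : k < 24) : chi c (pt k) = ((mask c / 2 ^ k % 2 : ℕ) : ℤ) := by
  have h := testBit_mask c k
  rw [Nat.testBit_eq_decide_div_mod_eq] at h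
  simp only [hk, decide_true, Bool.true_and, decide_eq_decide] at h
  unfold chi
  by_cases hp : pt k ∈ c
  · rw [if_pos hp, h.2 hp]; rfl
  · rw [if_neg hp]
    have : mask c / 2 ^ k % 2 ≠ 1 := fun h' => hp (h.1 h')
    have : mask c / 2 ^ k % 2 = 0 := by omega
    rw [this]; rfl

theorem digMC_z4 (B : ℕ) (V : List ℤ) (hV : V.Nodup) (W : ℕ → ℤ → ℕ) (n : ℕ) (m : ℤ) (c : Finset GolayPt) :
    digMC B V (fun i => W (zf (idx i))) n m c = digZ4 B V W n m (z4Key (mask c)) := by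
  have hk : z4Key (mask c) = mask c % 8 + 8 * c.card := by
    rw [card_eq_pcF]
    show Nat.land (mask c) 7 + 8 * pcF (mask c) = _
    congr 1
    exact Nat.and_two_pow_sub_one_eq_mod (mask c) 3
  have e0 : z4Key (mask c) % 2 = mask c / 2 ^ 0 % 2 := by rw [hk]; omega
  have e1 : z4Key (mask c) / 2 % 2 = mask c / 2 ^ 1 % 2 := by rw [hk]; omega
  have e2 : z4Key (mask c) / 4 % 2 = mask c / 2 ^ 2 % 2 := by rw [hk]; omega
  have e3 : z4Key (mask c) / 8 = c.card := by rw [hk]; omega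
  have hc := card_z4 c
  rw [chi_pt c 0 (by norm_num), chi_pt c 1 (by norm_num), chi_pt c 2 (by norm_num)] at hc
  have e4 : z4Key (mask c) / 8 - (z4Key (mask c) % 2 + z4Key (mask c) / 2 % 2 + z4Key (mask c) / 4 % 2) =
      (Rz ∩ c).card := by
    rw [e0, e1, e2, e3]
    omega
  unfold digMC digZ4 z4prod
  have h1 : ∀ i, ∑ v ∈ valS V m c i, (B : ℤ) ^ W (zf (idx i)) v = genP B V (W (zf (idx i))) (m + 2 * chi c i) := by
    intro i
    unfold valS genP
    rw [List.sum_toFinset _ (hV.filter _)]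
  have h2 : ∀ i, ∑ v ∈ valS V m c i, tau (v / 4) * (B : ℤ) ^ W (zf (idx i)) v =
      genD B V (W (zf (idx i))) (m + 2 * chi c i) := by
    intro i
    unfold valS genD
    rw [List.sum_toFinset _ (hV.filter _)]
  simp only [h1, h2]
  rw [prod_z4 c (fun z t => genP B V (W z) (m + 2 * t)), prod_z4 c (fun z t => genD B V (W z) (m + 2 * t))]
  rw [e4, e0, e1, e2, chi_pt c 0 (by norm_num), chi_pt c 1 (by norm_num), chi_pt c 2 (by norm_num)]
  simp only [mul_one, mul_zero, add_zero]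

/-- total count for a four-zone weight, computable -/
def leechCntZ4 (B : ℕ) (V : List ℤ) (W : ℕ → ℤ → ℕ) (n : ℕ) (keys : List ℕ) : ℕ :=
  (keys.map (fun κ => countBelow (fun j => Nat.beq (z4Key (encF j)) κ) 4096 *
    (digZ4 B V W n 0 κ + digZ4 B V W n 1 κ))).sum

theorem ncard_leech_z4 (B : ℕ) (V : List ℤ) (hV : V.Nodup) (hB : V.length ^ 24 < B) (W : ℕ → ℤ → ℕ) (n : ℕ)
    (keys : List ℕ) (hnd : keys.Nodup) (hall : ∀ j, j < 4096 → z4Key (encF j) ∈ keys) :
    {x : GolayPt → ℤ | x ∈ leechLattice ∧ (∀ i, x i ∈ V) ∧ ∑ i, W (zf (idx i)) (x i) = n}.ncard =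
      leechCntZ4 B V W n keys := by
  rw [ncard_leech B V hB (fun i => W (zf (idx i))) n]
  simp only [digMC_z4 B V hV]
  unfold leechCntZ4
  rw [← sum_codeFin_key z4Key keys hnd hall (fun κ => digZ4 B V W n 0 κ + digZ4 B V W n 1 κ)]

/-- the keys that occur -/
def keysZ4 : List ℕ := [0, 64, 65, 66, 67, 68, 69, 70, 71, 96, 97, 98, 99, 100, 101, 102, 103,
  128, 129, 130, 131, 132, 133, 134, 135, 199]

theorem keysZ4_nodup : keysZ4.Nodup := by decide +kernel

theorem keysZ4_all : ∀ j, j < 4096 → z4Key (encF j) ∈ keysZ4 := by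
  intro j hj
  have := allBelow_spec (f := fun j => keysZ4.elem (z4Key (encF j))) (n := 4096) (by decide +kernel) j hj
  exact List.elem_iff.1 this

end Cfsg.Agent.Lib.Helper10
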