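/-
Orbit certificates for sets of minimal vectors of the Leech lattice under the stabiliser of up to three vectors.
-/
import Cfsg.Agent.Lib.Helper10.LeechVec
import Cfsg.Agent.Lib.Helper10.LeechZ4
import Cfsg.Agent.Lib.Helper10.LeechMark
set_option autoImplicit false
open Cfsg Cfsg.Agent.Lib.Helper28
namespace Cfsg.Agent.Lib.Helper10

/-- entry `k` of an array of codes -/
def entL (L k : ℕ) : ℕ := fld L 120 1329227995784915872903807060280344575 k

theorem entL_lt (L k : ℕ) : entL L k < 32 ^ 24 := by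
  unfold entL fld
  have h : Nat.land (Nat.shiftRight L (Nat.mul 120 k)) 1329227995784915872903807060280344575 ≤
      1329227995784915872903807060280344575 := Nat.and_le_right
  have e : (32 : ℕ) ^ 24 = 1329227995784915872903807060280344576 := by norm_num
  omega

def pgE (PG k : ℕ) : ℕ := fld PG 40 1099511627775 k
def parE (e : ℕ) : ℕ := Nat.land e 16383
def genE (e : ℕ) : ℕ := Nat.land (Nat.shiftRight e 14) 63
def depE (e : ℕ) : ℕ := Nat.land (Nat.shiftRight e 20) 1023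
def clE (e : ℕ) : ℕ := Nat.shiftRight e 30

/-- the check for entry `k` of a forest certificate -/
noncomputable def fStep (gens : List (List (ℕ × ℕ))) (rootOK : ℕ → Bool) (rts : List ℕ) (L PG n k : ℕ) : Bool :=
  strict (pgE PG k) fun e =>
  strict (parE e) fun p =>
    cond (Nat.beq p k)
      (and (Nat.beq (rts.getD (clE e) n) k) (rootOK (entL L k)))
      (strict (pgE PG p) fun e' =>
        and (Nat.blt p n) (and (Nat.blt (depE e') (depE e)) (and (Nat.beq (clE e') (clE e))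
          (Nat.beq (wordA (gens.getD (genE e) []) (entL L p)) (entL L k)))))

noncomputable def forestChk (gens : List (List (ℕ × ℕ))) (rootOK : ℕ → Bool) (rts : List ℕ) (L PG n : ℕ) : Bool :=
  strict L fun L' => strict PG fun PG' => allBelow (fStep gens rootOK rts L' PG' n) n

theorem forest_main {K : Subgroup Co0} {gens : List (List (ℕ × ℕ))}
    (hg : ∀ w ∈ gens, okWord w = true ∧ wordCo0 w ∈ K) {rootOK : ℕ → Bool}
    (hroot : ∀ X, rootOK X = true → unpV X ∈ leechLattice ∧ sqNorm (unpV X) = 32)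
    {rts : List ℕ} {L PG n : ℕ} (h : forestChk gens rootOK rts L PG n = true) :
    ∀ k, k < n → unpV (entL L k) ∈ leechLattice ∧ sqNorm (unpV (entL L k)) = 32 ∧
      rts.getD (clE (pgE PG k)) n < n ∧ rootOK (entL L (rts.getD (clE (pgE PG k)) n)) = true ∧
      ∃ g ∈ K, g • vecOf (entL L (rts.getD (clE (pgE PG k)) n)) = vecOf (entL L k) := by
  have h' : allBelow (fStep gens rootOK rts L PG n) n = true := by
    simpa only [forestChk, strict_eq] using h
  have hs := allBelow_spec h'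
  have hg' : ∀ s, okWord (gens.getD s []) = true ∧ wordCo0 (gens.getD s []) ∈ K := by
    intro s
    by_cases hs : s < gens.length
    · rw [List.getD_eq_getElem _ _ hs]
      exact hg _ (List.getElem_mem hs)
    · rw [List.getD_eq_default _ _ (by omega)]
      exact ⟨rfl, K.one_mem⟩
  have key : ∀ d k, depE (pgE PG k) = d → k < n → unpV (entL L k) ∈ leechLattice ∧
      sqNorm (unpV (entL L k)) = 32 ∧
      rts.getD (clE (pgE PG k)) n < n ∧ rootOK (entL L (rts.getD (clE (pgE PG k)) n)) = true ∧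
      ∃ g ∈ K, g • vecOf (entL L (rts.getD (clE (pgE PG k)) n)) = vecOf (entL L k) := by
    intro d
    induction d using Nat.strong_induction_on with
    | _ d ih =>
      intro k hd hk
      have h1 := hs k hk
      simp only [fStep, strict_eq] at h1
      cases hpk : Nat.beq (parE (pgE PG k)) k with
      | true =>
        rw [hpk, cond_true, Bool.and_eq_true] at h1
        have h2 := Nat.eq_of_beq_eq_true h1.1
        rw [h2]
        exact ⟨(hroot _ h1.2).1, (hroot _ h1.2).2, hk, h1.2, 1, K.one_mem, one_smul _ _⟩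
      | false =>
        rw [hpk, cond_false] at h1
        simp only [Bool.and_eq_true] at h1
        obtain ⟨h2, h3, h4, h5⟩ := h1
        have h2' := Nat.blt_eq.mp h2
        have h3' := Nat.blt_eq.mp h3
        have h4' := Nat.eq_of_beq_eq_true h4
        have h5' := Nat.eq_of_beq_eq_true h5
        obtain ⟨a1, a2, a3, a4, g, hgK, hgD⟩ := ih _ (hd ▸ h3') (parE (pgE PG k)) rfl h2'
        rw [h4'] at a3 a4 hgD
        obtain ⟨b1, b2⟩ := hg' (genE (pgE PG k))
        have hv := vecOf_val a1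
        have hw := wordA_spec b1 (vecOf (entL L (parE (pgE PG k)))) (by rw [hv, a2]; norm_num) hv
        rw [h5'] at hw
        have hmem : unpV (entL L k) ∈ leechLattice := hw ▸ Subtype.property _
        refine ⟨hmem, ?_, a3, a4, wordCo0 (gens.getD (genE (pgE PG k)) []) * g, K.mul_mem b2 hgK, ?_⟩
        · rw [← hw, Co0_sqNorm, hv, a2]
        · rw [mul_smul, hgD]
          exact (vecOf_eq_of_val hw).symm
  intro k hk
  exact key _ k rfl hk

/-! ### weights -/

def tauP (P z : ℕ) : ℤ := (gP P z : ℤ) - 16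

def zoneOK (P : ℕ) : Bool := allBelow (fun k => Nat.beq (gP P k) (gP P (zf k))) 24

theorem tauP_zf {P : ℕ} (h : zoneOK P = true) (i : GolayPt) : tauP P (zf (idx i)) = unpV P i := by
  have := Nat.eq_of_beq_eq_true (allBelow_spec h (idx i) (idx_lt i))
  unfold tauP unpV
  rw [this]

def W4 (l0 l1 l2 l3 P1 P2 P3 : ℕ) (z : ℕ) (a : ℤ) : ℕ :=
  ((l0 : ℤ) * a ^ 2 + (l1 : ℤ) * (a - tauP P1 z) ^ 2 + (l2 : ℤ) * (a - tauP P2 z) ^ 2 +
    (l3 : ℤ) * (a - tauP P3 z) ^ 2).toNat

def wsum (l0 l1 l2 l3 : ℕ) (t1 t2 t3 x : GolayPt → ℤ) : ℤ :=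
  (l0 : ℤ) * sqNorm x + (l1 : ℤ) * sqNorm (x - t1) + (l2 : ℤ) * sqNorm (x - t2) + (l3 : ℤ) * sqNorm (x - t3)

theorem sum_W4 (l0 l1 l2 l3 : ℕ) {P1 P2 P3 : ℕ} (h1 : zoneOK P1 = true) (h2 : zoneOK P2 = true)
    (h3 : zoneOK P3 = true) (x : GolayPt → ℤ) :
    ((∑ i, W4 l0 l1 l2 l3 P1 P2 P3 (zf (idx i)) (x i) : ℕ) : ℤ) =
      wsum l0 l1 l2 l3 (unpV P1) (unpV P2) (unpV P3) x := by
  unfold wsum sqNorm
  rw [Nat.cast_sum, Finset.mul_sum, Finset.mul_sum, Finset.mul_sum, Finset.mul_sum, ← Finset.sum_add_distrib,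
    ← Finset.sum_add_distrib, ← Finset.sum_add_distrib]
  apply Finset.sum_congr rfl
  intro i _
  unfold W4
  rw [Int.toNat_of_nonneg (by positivity), tauP_zf h1, tauP_zf h2, tauP_zf h3]
  rfl

theorem wsum_smul (l0 l1 l2 l3 : ℕ) (t1 t2 t3 x : leechLattice) (g : Co0) (h1 : g • t1 = t1) (h2 : g • t2 = t2)
    (h3 : g • t3 = t3) :
    wsum l0 l1 l2 l3 t1.1 t2.1 t3.1 (g • x : leechLattice).1 = wsum l0 l1 l2 l3 t1.1 t2.1 t3.1 x.1 := by
  have key : ∀ t : leechLattice, g • t = t → sqNorm ((g • x : leechLattice).1 - t.1) = sqNorm (x.1 - t.1) := by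
    intro t ht
    have : (g • x : leechLattice).1 - t.1 = (g • (x - t) : leechLattice).1 := by
      rw [Co0_smul_sub, ht]; rfl
    rw [this, Co0_sqNorm]; rfl
  unfold wsum
  rw [Co0_sqNorm, key t1 h1, key t2 h2, key t3 h3]

def nrmD (X P : ℕ) : ℤ := sumN (fun k => ((gP X k : ℤ) - (gP P k : ℤ)) ^ 2) 24

theorem sqNorm_sub_unpV (X P : ℕ) : sqNorm (unpV X - unpV P) = nrmD X P := by
  unfold sqNorm nrmD
  rw [sum_pt, sumN_eq]
  apply Finset.sum_congr rfl
  intro k hk
  rw [Pi.sub_apply, unpV_pt X (Finset.mem_range.1 hk), unpV_pt P (Finset.mem_range.1 hk)]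
  ring

def nrmP (X : ℕ) : ℤ := sumN (fun k => ((gP X k : ℤ) - 16) ^ 2) 24

/-- the check for a root -/
def rootChk (l0 l1 l2 l3 P1 P2 P3 n0 : ℕ) (X : ℕ) : Bool :=
  memChk X && decide (nrmP X = 32) &&
    decide ((l0 : ℤ) * nrmP X + (l1 : ℤ) * nrmD X P1 + (l2 : ℤ) * nrmD X P2 + (l3 : ℤ) * nrmD X P3 = (n0 : ℤ))

theorem rootChk_spec {l0 l1 l2 l3 P1 P2 P3 n0 X : ℕ} (h : rootChk l0 l1 l2 l3 P1 P2 P3 n0 X = true) :
    unpV X ∈ leechLattice ∧ sqNorm (unpV X) = 32 ∧
      wsum l0 l1 l2 l3 (unpV P1) (unpV P2) (unpV P3) (unpV X) = n0 := by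
  unfold rootChk at h
  rw [Bool.and_eq_true, Bool.and_eq_true, decide_eq_true_eq, decide_eq_true_eq] at h
  refine ⟨memChk_spec h.1.1, by rw [sqNorm_unpV]; exact h.1.2, ?_⟩
  unfold wsum
  rw [sqNorm_unpV, sqNorm_sub_unpV, sqNorm_sub_unpV, sqNorm_sub_unpV]
  exact h.2

/-- the check for a base vector -/
def baseChk (P : ℕ) : Bool := memChk P && decide (nrmP P ≤ 64) && zoneOK P

theorem baseChk_spec {P : ℕ} (h : baseChk P = true) :
    unpV P ∈ leechLattice ∧ sqNorm (unpV P) ≤ 64 ∧ zoneOK P = true := by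
  unfold baseChk at h
  rw [Bool.and_eq_true, Bool.and_eq_true, decide_eq_true_eq] at h
  exact ⟨memChk_spec h.1.1, by rw [sqNorm_unpV]; exact h.1.2, h.2⟩

/-- the check for the generators -/
noncomputable def gensChk (gens : List (List (ℕ × ℕ))) (P1 P2 P3 : ℕ) : Bool :=
  gens.all fun w => and (okWord w) (and (Nat.beq (wordA w P1) P1) (and (Nat.beq (wordA w P2) P2)
    (Nat.beq (wordA w P3) P3)))

/-- the stabiliser of three vectors -/
def fix3 (t1 t2 t3 : leechLattice) : Subgroup Co0 :=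
  MulAction.stabilizer Co0 t1 ⊓ MulAction.stabilizer Co0 t2 ⊓ MulAction.stabilizer Co0 t3

theorem mem_fix3 {t1 t2 t3 : leechLattice} {g : Co0} : g ∈ fix3 t1 t2 t3 ↔ g • t1 = t1 ∧ g • t2 = t2 ∧ g • t3 = t3 := by
  unfold fix3
  rw [Subgroup.mem_inf, Subgroup.mem_inf, MulAction.mem_stabilizer_iff, MulAction.mem_stabilizer_iff,
    MulAction.mem_stabilizer_iff, and_assoc]

theorem gensChk_spec {gens : List (List (ℕ × ℕ))} {P1 P2 P3 : ℕ} (h : gensChk gens P1 P2 P3 = true)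
    (h1 : baseChk P1 = true) (h2 : baseChk P2 = true) (h3 : baseChk P3 = true) :
    ∀ w ∈ gens, okWord w = true ∧ wordCo0 w ∈ fix3 (vecOf P1) (vecOf P2) (vecOf P3) := by
  intro w hw
  unfold gensChk at h
  rw [List.all_eq_true] at h
  have := h w hw
  simp only [Bool.and_eq_true] at this
  obtain ⟨a, b1, b2, b3⟩ := this
  refine ⟨a, mem_fix3.2 ⟨?_, ?_, ?_⟩⟩
  · exact word_fix a (baseChk_spec h1).1 (baseChk_spec h1).2.1 (Nat.eq_of_beq_eq_true b1)
  · exact word_fix a (baseChk_spec h2).1 (baseChk_spec h2).2.1 (Nat.eq_of_beq_eq_true b2)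
  · exact word_fix a (baseChk_spec h3).1 (baseChk_spec h3).2.1 (Nat.eq_of_beq_eq_true b3)

/-- the array is strictly increasing -/
noncomputable def sortChk (L n : ℕ) : Bool :=
  strict L fun L' => allBelow (fun k => Nat.blt (entL L' k) (entL L' (Nat.succ k))) (n - 1)

theorem sortChk_spec {L n : ℕ} (h : sortChk L n = true) : ∀ k l, k < l → l < n → entL L k < entL L l := by
  have h' : allBelow (fun k => Nat.blt (entL L k) (entL L (Nat.succ k))) (n - 1) = true := by
    simpa only [sortChk, strict_eq] using h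
  have hs := allBelow_spec h'
  intro k l hkl
  induction l with
  | zero => omega
  | succ l ih =>
    intro hl
    have h1 : entL L l < entL L (l + 1) := Nat.blt_eq.mp (hs l (by omega))
    by_cases hk : k = l
    · rw [hk]; exact h1
    · exact lt_trans (ih (by omega) (by omega)) h1

/-- join chunks of `w` bits -/
noncomputable def joinC (cs : List ℕ) (w : ℕ) : ℕ := List.rec 0 (fun c _ ih => Nat.lor c (Nat.shiftLeft ih w)) cs

/-- a certificate -/
structure Cert where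
  P1 : ℕ
  P2 : ℕ
  P3 : ℕ
  l0 : ℕ
  l1 : ℕ
  l2 : ℕ
  l3 : ℕ
  n0 : ℕ
  gens : List (List (ℕ × ℕ))
  rts : List ℕ
  L : ℕ
  PG : ℕ
  n : ℕ

namespace Cert

variable (C : Cert)

noncomputable def t1 : leechLattice := vecOf C.P1
noncomputable def t2 : leechLattice := vecOf C.P2
noncomputable def t3 : leechLattice := vecOf C.P3
noncomputable def K : Subgroup Co0 := fix3 C.t1 C.t2 C.t3
noncomputable def D (k : ℕ) : leechLattice := vecOf (entL C.L k)
def cl (k : ℕ) : ℕ := clE (pgE C.PG k)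
def rt (c : ℕ) : ℕ := C.rts.getD c C.n
noncomputable def ws (x : leechLattice) : ℤ := wsum C.l0 C.l1 C.l2 C.l3 C.t1.1 C.t2.1 C.t3.1 x.1

/-- all the checks -/
structure Valid : Prop where
  b1 : baseChk C.P1 = true
  b2 : baseChk C.P2 = true
  b3 : baseChk C.P3 = true
  g : gensChk C.gens C.P1 C.P2 C.P3 = true
  f : forestChk C.gens (rootChk C.l0 C.l1 C.l2 C.l3 C.P1 C.P2 C.P3 C.n0) C.rts C.L C.PG C.n = true
  s : sortChk C.L C.n = true
  c : leechCntZ4 (2 ^ 100) V8 (W4 C.l0 C.l1 C.l2 C.l3 C.P1 C.P2 C.P3) C.n0 keysZ4 = C.n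

variable {C}

theorem t1_val (h : C.Valid) : C.t1.1 = unpV C.P1 := vecOf_val (baseChk_spec h.b1).1
theorem t2_val (h : C.Valid) : C.t2.1 = unpV C.P2 := vecOf_val (baseChk_spec h.b2).1
theorem t3_val (h : C.Valid) : C.t3.1 = unpV C.P3 := vecOf_val (baseChk_spec h.b3).1

theorem main (h : C.Valid) : ∀ k, k < C.n → (C.D k).1 = unpV (entL C.L k) ∧ sqNorm (C.D k).1 = 32 ∧
    C.ws (C.D k) = C.n0 ∧ C.rt (C.cl k) < C.n ∧ ∃ g ∈ C.K, g • C.D (C.rt (C.cl k)) = C.D k := by
  intro k hk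
  obtain ⟨a1, a2, a3, a4, g, hg, hgD⟩ := forest_main (K := C.K) (gensChk_spec h.g h.b1 h.b2 h.b3)
    (fun X hX => ⟨(rootChk_spec hX).1, (rootChk_spec hX).2.1⟩) h.f k hk
  have hv : (C.D k).1 = unpV (entL C.L k) := vecOf_val a1
  refine ⟨hv, by rw [hv]; exact a2, ?_, a3, g, hg, hgD⟩
  obtain ⟨g1, g2, g3⟩ := mem_fix3.1 hg
  have hr := rootChk_spec a4
  have e : C.D k = g • C.D (C.rt (C.cl k)) := hgD.symm
  rw [e]
  unfold ws
  rw [wsum_smul _ _ _ _ _ _ _ _ g g1 g2 g3, t1_val h, t2_val h, t3_val h]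
  have : (C.D (C.rt (C.cl k))).1 = unpV (entL C.L (C.rts.getD (clE (pgE C.PG k)) C.n)) := vecOf_val hr.1
  rw [this]
  exact hr.2.2

theorem inj (h : C.Valid) : ∀ k, k < C.n → ∀ l, l < C.n → C.D k = C.D l → k = l := by
  intro k hk l hl hkl
  have h1 := (main h k hk).1
  have h2 := (main h l hl).1
  rw [hkl, h2] at h1
  have h3 := unpV_inj (entL_lt _ _) (entL_lt _ _) h1
  by_contra hne
  rcases Nat.lt_or_gt_of_ne hne with h4 | h4
  · have := sortChk_spec h.s k l h4 hl; omega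
  · have := sortChk_spec h.s l k h4 hk; omega

theorem cover (h : C.Valid) (x : leechLattice) (hx : sqNorm x.1 ≤ 64) (hw : C.ws x = C.n0) :
    ∃ k, k < C.n ∧ C.D k = x := by
  classical
  set S : Set (GolayPt → ℤ) := {x : GolayPt → ℤ | x ∈ leechLattice ∧ (∀ i, x i ∈ V8) ∧
    ∑ i, W4 C.l0 C.l1 C.l2 C.l3 C.P1 C.P2 C.P3 (zf (idx i)) (x i) = C.n0} with hS
  have hcard : S.ncard = C.n := by
    rw [hS, ncard_leech_z4 (2 ^ 100) V8 V8_nodup V8_bound _ _ keysZ4 keysZ4_nodup keysZ4_all]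
    exact h.c
  have hfin : S.Finite := (finite_box V8).subset (fun x hx => hx.2.1)
  have hmem : ∀ y : leechLattice, sqNorm y.1 ≤ 64 → C.ws y = C.n0 → y.1 ∈ S := by
    intro y hy hwy
    refine ⟨y.2, mem_V8_of_sqNorm_le hy, ?_⟩
    have := sum_W4 C.l0 C.l1 C.l2 C.l3 (baseChk_spec h.b1).2.2 (baseChk_spec h.b2).2.2 (baseChk_spec h.b3).2.2 y.1
    unfold ws at hwy
    rw [t1_val h, t2_val h, t3_val h] at hwy
    rw [hwy] at this
    exact_mod_cast this
  set I : Set (GolayPt → ℤ) := (fun k => (C.D k).1) '' (Finset.range C.n : Set ℕ) with hI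
  have hIS : I ⊆ S := by
    rintro _ ⟨k, hk, rfl⟩
    have hk' : k < C.n := Finset.mem_range.1 hk
    obtain ⟨-, b1, b2, -⟩ := main h k hk'
    exact hmem _ (by rw [b1]; norm_num) b2
  have hIc : I.ncard = C.n := by
    rw [hI, Set.InjOn.ncard_image, Set.ncard_coe_finset, Finset.card_range]
    intro a ha b hb hab
    exact inj h a (Finset.mem_range.1 ha) b (Finset.mem_range.1 hb) (Subtype.ext hab)
  have hEq : I = S := Set.eq_of_subset_of_ncard_le hIS (by rw [hcard, hIc]) hfin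
  have hxS : x.1 ∈ I := by rw [hEq]; exact hmem x hx hw
  obtain ⟨k, hk, hkx⟩ := hxS
  exact ⟨k, Finset.mem_range.1 hk, Subtype.ext hkx⟩

end Cert

end Cfsg.Agent.Lib.Helper10
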