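/-
Consequences of an orbit certificate: description of the set of minimal vectors with given inner products with the
base vectors, its cardinality, and the orbits of the stabiliser of the base vectors on it.
-/
import Cfsg.Agent.Lib.Helper10.LeechForest
set_option autoImplicit false
open Cfsg Cfsg.Agent.Lib.Helper28
namespace Cfsg.Agent.Lib.Helper10

def dotP (P X : ℕ) : ℤ := sumN (fun k => ((gP P k : ℤ) - 16) * ((gP X k : ℤ) - 16)) 24

theorem dotInt_unpV' (P X : ℕ) : dotInt (unpV P) (unpV X) = dotP P X := dotInt_unpV P X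

theorem sqNorm_unpV' (X : ℕ) : sqNorm (unpV X) = nrmP X := sqNorm_unpV X

namespace Cert

/-- the minimal vectors with given inner products with the first two base vectors -/
def Om (C : Cert) (a1 a2 : ℤ) : Set leechLattice :=
  {x | sqNorm x.1 = 32 ∧ dotInt C.t1.1 x.1 = a1 ∧ dotInt C.t2.1 x.1 = a2}

/-- number of entries of class `c` -/
noncomputable def cntCl (C : Cert) (c : ℕ) : ℕ :=
  strict C.PG fun PG => countBelow (fun k => Nat.beq (clE (pgE PG k)) c) C.n

structure Good (C : Cert) (a1 a2 : ℤ) : Prop where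
  v : C.Valid
  l3 : C.l3 = 0
  n0 : (C.l0 : ℤ) * 32 + (C.l1 : ℤ) * (32 + nrmP C.P1 - 2 * a1) + (C.l2 : ℤ) * (32 + nrmP C.P2 - 2 * a2) = C.n0
  r : (C.rts.all fun r => decide (dotP C.P1 (entL C.L r) = a1) && decide (dotP C.P2 (entL C.L r) = a2)) = true
  sep : (C.rts.map fun r => dotP C.P3 (entL C.L r)).Nodup

variable {C : Cert} {a1 a2 : ℤ}

theorem cl_lt (h : C.Valid) {k : ℕ} (hk : k < C.n) : C.cl k < C.rts.length := by
  have h1 := (main h k hk).2.2.2.1
  by_contra hc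
  unfold rt at h1
  rw [List.getD_eq_default _ _ (by omega)] at h1
  omega

theorem rt_mem {c : ℕ} (hc : c < C.rts.length) : C.rt c ∈ C.rts := by
  unfold rt
  rw [List.getD_eq_getElem _ _ hc]
  exact List.getElem_mem hc

theorem Om_smul {g : Co0} (hg : g ∈ C.K) {x : leechLattice} (hx : x ∈ C.Om a1 a2) : g • x ∈ C.Om a1 a2 := by
  obtain ⟨g1, g2, -⟩ := mem_fix3.1 hg
  obtain ⟨h0, h1, h2⟩ := hx
  refine ⟨by rw [Co0_sqNorm]; exact h0, ?_, ?_⟩
  · have := Co0_dot g C.t1 x
    rw [g1] at this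
    rw [this]; exact h1
  · have := Co0_dot g C.t2 x
    rw [g2] at this
    rw [this]; exact h2

theorem inv_smul {g : Co0} (hg : g ∈ C.K) (x : leechLattice) :
    dotInt C.t3.1 (g • x : leechLattice).1 = dotInt C.t3.1 x.1 := by
  obtain ⟨-, -, g3⟩ := mem_fix3.1 hg
  have := Co0_dot g C.t3 x
  rw [g3] at this
  exact this

theorem D_mem (h : C.Good a1 a2) {k : ℕ} (hk : k < C.n) : C.D k ∈ C.Om a1 a2 := by
  obtain ⟨-, -, -, b4, g, hg, hgD⟩ := main h.v k hk
  rw [← hgD]
  apply Om_smul hg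
  obtain ⟨c1, c2, -⟩ := main h.v _ b4
  have hr := List.all_eq_true.1 h.r _ (rt_mem (cl_lt h.v hk))
  rw [Bool.and_eq_true, decide_eq_true_eq, decide_eq_true_eq] at hr
  refine ⟨c2, ?_, ?_⟩
  · rw [t1_val h.v, c1, dotInt_unpV']; exact hr.1
  · rw [t2_val h.v, c1, dotInt_unpV']; exact hr.2

theorem ws_of_mem (h : C.Good a1 a2) {x : leechLattice} (hx : x ∈ C.Om a1 a2) : C.ws x = C.n0 := by
  obtain ⟨h0, h1, h2⟩ := hx
  unfold ws wsum
  rw [sqNorm_sub, sqNorm_sub, h.l3, h0, bform_dotInt.symm x.1 C.t1.1, bform_dotInt.symm x.1 C.t2.1, h1, h2,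
    t1_val h.v, t2_val h.v, sqNorm_unpV', sqNorm_unpV', ← h.n0]
  push_cast
  ring

theorem exists_of_mem (h : C.Good a1 a2) {x : leechLattice} (hx : x ∈ C.Om a1 a2) : ∃ k, k < C.n ∧ C.D k = x :=
  cover h.v x (by rw [hx.1]; norm_num) (ws_of_mem h hx)

theorem Om_eq (h : C.Good a1 a2) : C.Om a1 a2 = C.D '' (Finset.range C.n : Set ℕ) := by
  ext x
  constructor
  · intro hx
    obtain ⟨k, hk, rfl⟩ := exists_of_mem h hx
    exact ⟨k, Finset.mem_range.2 hk, rfl⟩
  · rintro ⟨k, hk, rfl⟩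
    exact D_mem h (Finset.mem_range.1 hk)

theorem ncard_Om (h : C.Good a1 a2) : (C.Om a1 a2).ncard = C.n := by
  rw [Om_eq h, Set.InjOn.ncard_image, Set.ncard_coe_finset, Finset.card_range]
  intro a ha b hb hab
  exact inj h.v a (Finset.mem_range.1 ha) b (Finset.mem_range.1 hb) hab

theorem conj_of_cl (h : C.Valid) {k l : ℕ} (hk : k < C.n) (hl : l < C.n) (hc : C.cl k = C.cl l) :
    ∃ g ∈ C.K, g • C.D k = C.D l := by
  obtain ⟨-, -, -, -, a, ha, haD⟩ := main h k hk
  obtain ⟨-, -, -, -, b, hb, hbD⟩ := main h l hl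
  refine ⟨b * a⁻¹, C.K.mul_mem hb (C.K.inv_mem ha), ?_⟩
  rw [← haD, mul_smul, inv_smul_smul, hc, hbD]

/-- invariant of a class -/
noncomputable def rinv (C : Cert) (c : ℕ) : ℤ := dotP C.P3 (entL C.L (C.rt c))

theorem inv_D (h : C.Valid) {k : ℕ} (hk : k < C.n) : dotInt C.t3.1 (C.D k).1 = C.rinv (C.cl k) := by
  obtain ⟨-, -, -, b4, g, hg, hgD⟩ := main h k hk
  rw [← hgD, inv_smul hg, t3_val h, (main h _ b4).1, dotInt_unpV']
  rfl

theorem rinv_inj (h : C.Good a1 a2) {c c' : ℕ} (hc : c < C.rts.length) (hc' : c' < C.rts.length)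
    (he : C.rinv c = C.rinv c') : c = c' := by
  have h1 : c < (C.rts.map fun r => dotP C.P3 (entL C.L r)).length := by rw [List.length_map]; exact hc
  have h2 : c' < (C.rts.map fun r => dotP C.P3 (entL C.L r)).length := by rw [List.length_map]; exact hc'
  apply (h.sep.getElem_inj_iff (hi := h1) (hj := h2)).1
  rw [List.getElem_map, List.getElem_map]
  unfold rinv rt at he
  rw [List.getD_eq_getElem _ _ hc, List.getD_eq_getElem _ _ hc'] at he
  exact he

/-- vectors with the same inner product with the third base vector are conjugate -/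
theorem conj_of_inv (h : C.Good a1 a2) {x y : leechLattice} (hx : x ∈ C.Om a1 a2) (hy : y ∈ C.Om a1 a2)
    (he : dotInt C.t3.1 x.1 = dotInt C.t3.1 y.1) : ∃ g ∈ C.K, g • x = y := by
  obtain ⟨k, hk, rfl⟩ := exists_of_mem h hx
  obtain ⟨l, hl, rfl⟩ := exists_of_mem h hy
  rw [inv_D h.v hk, inv_D h.v hl] at he
  exact conj_of_cl h.v hk hl (rinv_inj h (cl_lt h.v hk) (cl_lt h.v hl) he)

theorem conj_of_one (h : C.Good a1 a2) (h1 : C.rts.length = 1) {x y : leechLattice} (hx : x ∈ C.Om a1 a2)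
    (hy : y ∈ C.Om a1 a2) : ∃ g ∈ C.K, g • x = y := by
  obtain ⟨k, hk, rfl⟩ := exists_of_mem h hx
  obtain ⟨l, hl, rfl⟩ := exists_of_mem h hy
  have e1 := cl_lt h.v hk
  have e2 := cl_lt h.v hl
  exact conj_of_cl h.v hk hl (by omega)

theorem inv_mem (h : C.Good a1 a2) {x : leechLattice} (hx : x ∈ C.Om a1 a2) :
    ∃ c, c < C.rts.length ∧ dotInt C.t3.1 x.1 = C.rinv c := by
  obtain ⟨k, hk, rfl⟩ := exists_of_mem h hx
  exact ⟨_, cl_lt h.v hk, inv_D h.v hk⟩

theorem ncard_inv (h : C.Good a1 a2) {c : ℕ} (hc : c < C.rts.length) :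
    {x | x ∈ C.Om a1 a2 ∧ dotInt C.t3.1 x.1 = C.rinv c}.ncard = C.cntCl c := by
  have e : C.cntCl c = ((Finset.range C.n).filter (fun k => C.cl k = c)).card := by
    unfold cntCl
    rw [strict_eq, countBelow_eq]
    congr 1
    apply Finset.filter_congr
    intro k _
    rw [Nat.beq_eq]; rfl
  have himg : {x | x ∈ C.Om a1 a2 ∧ dotInt C.t3.1 x.1 = C.rinv c} =
      C.D '' (((Finset.range C.n).filter (fun k => C.cl k = c) : Finset ℕ) : Set ℕ) := by
    ext x
    simp only [Set.mem_ofPred_eq, Set.mem_image, Finset.coe_filter, Finset.mem_range]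
    constructor
    · rintro ⟨hx, hi⟩
      obtain ⟨k, hk, rfl⟩ := exists_of_mem h hx
      rw [inv_D h.v hk] at hi
      exact ⟨k, ⟨hk, rinv_inj h (cl_lt h.v hk) hc hi⟩, rfl⟩
    · rintro ⟨k, ⟨hk, hkc⟩, rfl⟩
      exact ⟨D_mem h hk, by rw [inv_D h.v hk, hkc]⟩
  rw [himg, Set.InjOn.ncard_image, Set.ncard_coe_finset, e]
  intro a ha b hb hab
  simp only [Finset.coe_filter, Finset.mem_range, Set.mem_ofPred_eq] at ha hb
  exact inj h.v a ha.1 b hb.1 hab

end Cert

/-- transport of cardinalities by an automorphism -/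
theorem ncard_smul_preimage (g : Co0) (S : Set leechLattice) : {x | g • x ∈ S}.ncard = S.ncard := by
  have : {x | g • x ∈ S} = (fun x => g⁻¹ • x) '' S := by
    ext x
    constructor
    · intro hx
      exact ⟨g • x, hx, inv_smul_smul g x⟩
    · rintro ⟨y, hy, rfl⟩
      show g • g⁻¹ • y ∈ S
      rw [smul_inv_smul]; exact hy
  rw [this, Set.ncard_image_of_injective _ (MulAction.injective g⁻¹)]

end Cfsg.Agent.Lib.Helper10
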