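/-
Transport of the consequences of an orbit certificate to an arbitrary conjugate of the base vectors.
-/
import Cfsg.Agent.Lib.Helper10.LeechCertUse
set_option autoImplicit false
open Cfsg Cfsg.Agent.Lib.Helper28
namespace Cfsg.Agent.Lib.Helper10

/-- minimal vectors with given inner products with two vectors -/
def OmG (p q : leechLattice) (a1 a2 : ℤ) : Set leechLattice :=
  {x | sqNorm x.1 = 32 ∧ dotInt p.1 x.1 = a1 ∧ dotInt q.1 x.1 = a2}

namespace Cert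

variable {C : Cert} {a1 a2 : ℤ} {p q r : leechLattice} {g0 : Co0}

theorem dot_tr {t s : leechLattice} (h : g0 • s = t) (x : leechLattice) :
    dotInt t.1 (g0 • x : leechLattice).1 = dotInt s.1 x.1 := by
  have := Co0_dot g0 s x
  rw [h] at this
  exact this

theorem mem_tr (h1 : g0 • p = C.t1) (h2 : g0 • q = C.t2) (x : leechLattice) :
    g0 • x ∈ C.Om a1 a2 ↔ x ∈ OmG p q a1 a2 := by
  unfold Om OmG
  simp only [Set.mem_ofPred_eq, Co0_sqNorm, dot_tr h1, dot_tr h2]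

theorem ncard_tr (h : C.Good a1 a2) (h1 : g0 • p = C.t1) (h2 : g0 • q = C.t2) :
    (OmG p q a1 a2).ncard = C.n := by
  have : OmG p q a1 a2 = {x | g0 • x ∈ C.Om a1 a2} := by
    ext x; exact (mem_tr h1 h2 x).symm
  rw [this, ncard_smul_preimage, ncard_Om h]

theorem back (h1 : g0 • p = C.t1) (h2 : g0 • q = C.t2) (h3 : g0 • r = C.t3) {k : Co0} (hk : k ∈ C.K)
    {x y : leechLattice} (hxy : k • g0 • x = g0 • y) :
    ∃ g : Co0, g • p = p ∧ g • q = q ∧ g • r = r ∧ g • x = y := by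
  obtain ⟨k1, k2, k3⟩ := mem_fix3.1 hk
  refine ⟨g0⁻¹ * k * g0, ?_, ?_, ?_, ?_⟩
  · rw [mul_smul, mul_smul, h1, k1, ← h1, inv_smul_smul]
  · rw [mul_smul, mul_smul, h2, k2, ← h2, inv_smul_smul]
  · rw [mul_smul, mul_smul, h3, k3, ← h3, inv_smul_smul]
  · rw [mul_smul, mul_smul, hxy, inv_smul_smul]

theorem conj_tr (h : C.Good a1 a2) (h1 : g0 • p = C.t1) (h2 : g0 • q = C.t2) (h3 : g0 • r = C.t3)
    {x y : leechLattice} (hx : x ∈ OmG p q a1 a2) (hy : y ∈ OmG p q a1 a2)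
    (he : dotInt r.1 x.1 = dotInt r.1 y.1) : ∃ g : Co0, g • p = p ∧ g • q = q ∧ g • r = r ∧ g • x = y := by
  obtain ⟨k, hk, hxy⟩ := conj_of_inv h ((mem_tr h1 h2 x).2 hx) ((mem_tr h1 h2 y).2 hy)
    (by rw [dot_tr h3, dot_tr h3]; exact he)
  exact back h1 h2 h3 hk hxy

theorem conj_one_tr (h : C.Good a1 a2) (hl : C.rts.length = 1) (h1 : g0 • p = C.t1) (h2 : g0 • q = C.t2)
    (h3 : g0 • r = C.t3) {x y : leechLattice} (hx : x ∈ OmG p q a1 a2) (hy : y ∈ OmG p q a1 a2) :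
    ∃ g : Co0, g • p = p ∧ g • q = q ∧ g • r = r ∧ g • x = y := by
  obtain ⟨k, hk, hxy⟩ := conj_of_one h hl ((mem_tr h1 h2 x).2 hx) ((mem_tr h1 h2 y).2 hy)
  exact back h1 h2 h3 hk hxy

theorem inv_tr (h : C.Good a1 a2) (h1 : g0 • p = C.t1) (h2 : g0 • q = C.t2) (h3 : g0 • r = C.t3)
    {x : leechLattice} (hx : x ∈ OmG p q a1 a2) : ∃ c, c < C.rts.length ∧ dotInt r.1 x.1 = C.rinv c := by
  obtain ⟨c, hc, he⟩ := inv_mem h ((mem_tr h1 h2 x).2 hx)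
  rw [dot_tr h3] at he
  exact ⟨c, hc, he⟩

theorem ncard_inv_tr (h : C.Good a1 a2) (h1 : g0 • p = C.t1) (h2 : g0 • q = C.t2) (h3 : g0 • r = C.t3)
    {c : ℕ} (hc : c < C.rts.length) :
    {x | x ∈ OmG p q a1 a2 ∧ dotInt r.1 x.1 = C.rinv c}.ncard = C.cntCl c := by
  have : {x | x ∈ OmG p q a1 a2 ∧ dotInt r.1 x.1 = C.rinv c} =
      {x | g0 • x ∈ {y | y ∈ C.Om a1 a2 ∧ dotInt C.t3.1 y.1 = C.rinv c}} := by
    ext x
    simp only [Set.mem_ofPred_eq, mem_tr h1 h2, dot_tr h3]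
  rw [this, ncard_smul_preimage, ncard_inv h hc]

/-- the root of a class as a vector -/
theorem D_rt_mem (h : C.Good a1 a2) {c : ℕ} (hc : c < C.rts.length) (hn : C.rt c < C.n) :
    C.D (C.rt c) ∈ C.Om a1 a2 := D_mem h hn

end Cert

theorem vecOf_mem_Om {C : Cert} {a1 a2 : ℤ} (h : C.Valid) {X : ℕ} (hX : memChk X = true) (hn : nrmP X = 32)
    (h1 : dotP C.P1 X = a1) (h2 : dotP C.P2 X = a2) : vecOf X ∈ C.Om a1 a2 := by
  have hv := vecOf_val (memChk_spec hX)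
  refine ⟨by rw [hv, sqNorm_unpV']; exact hn, ?_, ?_⟩
  · rw [hv, Cert.t1_val h, dotInt_unpV']; exact h1
  · rw [hv, Cert.t2_val h, dotInt_unpV']; exact h2

end Cfsg.Agent.Lib.Helper10
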