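/-
Checking an orbit certificate whose arrays are given in chunks, without ever forming shifts of the whole arrays.
-/
import Cfsg.Agent.Lib.Helper10.LeechCertUse
set_option autoImplicit false
open Cfsg Cfsg.Agent.Lib.Helper28
namespace Cfsg.Agent.Lib.Helper10

/-- entry `q` of a list -/
noncomputable def nthC (cs : List ℕ) : ℕ → ℕ :=
  List.rec (fun _ => 0) (fun c _ ih i => Nat.rec c (fun j _ => ih j) i) cs

theorem nthC_nil (i : ℕ) : nthC [] i = 0 := rfl
theorem nthC_cons_zero (c : ℕ) (cs : List ℕ) : nthC (c :: cs) 0 = c := rfl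
theorem nthC_cons_succ (c : ℕ) (cs : List ℕ) (i : ℕ) : nthC (c :: cs) (i + 1) = nthC cs i := rfl

theorem joinC_nil (w : ℕ) : joinC [] w = 0 := rfl
theorem joinC_cons (c : ℕ) (cs : List ℕ) (w : ℕ) : joinC (c :: cs) w = c ||| (joinC cs w <<< w) := rfl

theorem fld_def (data w msk k : ℕ) : fld data w msk k = (data >>> (w * k)) &&& msk := rfl

theorem fld_joinC (b m : ℕ) (cs : List ℕ) (hcs : ∀ c ∈ cs, c < 2 ^ (b * m)) (q r : ℕ) (hr : r < m) :
    fld (joinC cs (b * m)) b (2 ^ b - 1) (m * q + r) = fld (nthC cs q) b (2 ^ b - 1) r := by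
  induction cs generalizing q with
  | nil =>
    rw [joinC_nil, nthC_nil, fld_def, fld_def, Nat.zero_shiftRight, Nat.zero_shiftRight]
  | cons c cs ih =>
    have hc : c < 2 ^ (b * m) := hcs c (List.mem_cons_self)
    have hcs' : ∀ c ∈ cs, c < 2 ^ (b * m) := fun d hd => hcs d (List.mem_cons_of_mem _ hd)
    cases q with
    | zero =>
      rw [nthC_cons_zero, joinC_cons, fld_def, fld_def, Nat.mul_zero, Nat.zero_add]
      apply Nat.eq_of_testBit_eq
      intro i
      simp only [Nat.testBit_and, Nat.testBit_shiftRight, Nat.testBit_or, Nat.testBit_shiftLeft,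
        Nat.testBit_two_pow_sub_one]
      by_cases hi : i < b
      · have h1 : b * r + i < b * m := by
          calc b * r + i < b * r + b := by omega
            _ = b * (r + 1) := by ring
            _ ≤ b * m := Nat.mul_le_mul_left b hr
        have h2 : ¬ (b * m ≤ b * r + i) := by omega
        simp [h2]
      · simp [hi]
    | succ q =>
      rw [nthC_cons_succ, ← ih hcs' q, joinC_cons, fld_def, fld_def]
      have e : b * (m * (q + 1) + r) = b * m + b * (m * q + r) := by ring
      rw [e, Nat.shiftRight_add]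
      congr 2
      apply Nat.eq_of_testBit_eq
      intro i
      simp only [Nat.testBit_shiftRight, Nat.testBit_or, Nat.testBit_shiftLeft]
      have h1 : c.testBit (b * m + i) = false := by
        apply Nat.testBit_lt_two_pow
        calc c < 2 ^ (b * m) := hc
          _ ≤ 2 ^ (b * m + i) := Nat.pow_le_pow_right (by norm_num) (by omega)
      simp [h1]

noncomputable def chunkOK (cs : List ℕ) (w : ℕ) : Bool := cs.all fun c => Nat.blt c (2 ^ w)

theorem chunkOK_spec {cs : List ℕ} {w : ℕ} (h : chunkOK cs w = true) : ∀ c ∈ cs, c < 2 ^ w := by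
  intro c hc
  exact Nat.blt_eq.mp (List.all_eq_true.1 h c hc)

/-- entry `k` of a chunked array of codes -/
noncomputable def entB (Ls : List ℕ) (m k : ℕ) : ℕ := entL (nthC Ls (Nat.div k m)) (Nat.mod k m)

noncomputable def pgB (PGs : List ℕ) (m k : ℕ) : ℕ := pgE (nthC PGs (Nat.div k m)) (Nat.mod k m)

theorem entL_joinC {Ls : List ℕ} {m : ℕ} (hm : 0 < m) (h : chunkOK Ls (120 * m) = true) (k : ℕ) :
    entL (joinC Ls (120 * m)) k = entB Ls m k := by
  have := fld_joinC 120 m Ls (chunkOK_spec h) (k / m) (k % m) (Nat.mod_lt _ hm)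
  rw [Nat.div_add_mod] at this
  exact this

theorem pgE_joinC {PGs : List ℕ} {m : ℕ} (hm : 0 < m) (h : chunkOK PGs (40 * m) = true) (k : ℕ) :
    pgE (joinC PGs (40 * m)) k = pgB PGs m k := by
  have := fld_joinC 40 m PGs (chunkOK_spec h) (k / m) (k % m) (Nat.mod_lt _ hm)
  rw [Nat.div_add_mod] at this
  exact this

noncomputable def fStepB (gens : List (List (ℕ × ℕ))) (rootOK : ℕ → Bool) (rts : List ℕ) (Ls PGs : List ℕ)
    (m n k : ℕ) : Bool :=
  strict (pgB PGs m k) fun e =>
  strict (parE e) fun p =>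
  strict (entB Ls m k) fun Y =>
    cond (Nat.beq p k)
      (and (Nat.beq (rts.getD (clE e) n) k) (rootOK Y))
      (strict (pgB PGs m p) fun e' =>
        and (Nat.blt p n) (and (Nat.blt (depE e') (depE e)) (and (Nat.beq (clE e') (clE e))
          (strict (entB Ls m p) fun X => Nat.beq (wordA (gens.getD (genE e) []) X) Y))))

noncomputable def forestChkB (gens : List (List (ℕ × ℕ))) (rootOK : ℕ → Bool) (rts : List ℕ) (Ls PGs : List ℕ)
    (m n : ℕ) : Bool := allBelow (fStepB gens rootOK rts Ls PGs m n) n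

theorem forestChk_of_chunks {gens : List (List (ℕ × ℕ))} {rootOK : ℕ → Bool} {rts : List ℕ} {Ls PGs : List ℕ}
    {m n : ℕ} (hm : 0 < m) (hL : chunkOK Ls (120 * m) = true) (hP : chunkOK PGs (40 * m) = true)
    (h : forestChkB gens rootOK rts Ls PGs m n = true) :
    forestChk gens rootOK rts (joinC Ls (120 * m)) (joinC PGs (40 * m)) n = true := by
  have e : fStep gens rootOK rts (joinC Ls (120 * m)) (joinC PGs (40 * m)) n = fStepB gens rootOK rts Ls PGs m n := by
    funext k
    simp only [fStep, fStepB, strict_eq, entL_joinC hm hL, pgE_joinC hm hP]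
  simp only [forestChk, strict_eq, e]
  exact h

noncomputable def sortChkB (Ls : List ℕ) (m n : ℕ) : Bool :=
  allBelow (fun k => Nat.blt (entB Ls m k) (entB Ls m (Nat.succ k))) (n - 1)

theorem sortChk_of_chunks {Ls : List ℕ} {m n : ℕ} (hm : 0 < m) (hL : chunkOK Ls (120 * m) = true)
    (h : sortChkB Ls m n = true) : sortChk (joinC Ls (120 * m)) n = true := by
  simp only [sortChk, strict_eq, entL_joinC hm hL]
  exact h

noncomputable def cntB (PGs : List ℕ) (m n c : ℕ) : ℕ := countBelow (fun k => Nat.beq (clE (pgB PGs m k)) c) n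

theorem cntCl_of_chunks {C : Cert} {PGs : List ℕ} {m : ℕ} (hm : 0 < m) (hP : chunkOK PGs (40 * m) = true)
    (hC : C.PG = joinC PGs (40 * m)) (c : ℕ) : C.cntCl c = cntB PGs m C.n c := by
  simp only [Cert.cntCl, strict_eq, hC, pgE_joinC hm hP, cntB]

end Cfsg.Agent.Lib.Helper10
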