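/-
Splitting a bounded check into pieces.
-/
import Cfsg.Agent.Lib.Helper10.LeechChunk
set_option autoImplicit false
open Cfsg Cfsg.Agent.Lib.Helper28
namespace Cfsg.Agent.Lib.Helper10

theorem allBelow_of_forall {f : ℕ → Bool} {n : ℕ} (h : ∀ j, j < n → f j = true) : allBelow f n = true := by
  induction n with
  | zero => rfl
  | succ n ih =>
    show cond (f n) (allBelow f n) false = true
    rw [h n (by omega), cond_true]
    exact ih (fun j hj => h j (by omega))

/-- the piece of the check from `a`, of length `B` -/
def allFrom (f : ℕ → Bool) (a B : ℕ) : Bool := allBelow (fun j => f (Nat.add a j)) B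

theorem allBelow_of_pieces {f : ℕ → Bool} {B t : ℕ} (hB : 0 < B)
    (h : ∀ i, i < t → allFrom f (B * i) B = true) : allBelow f (B * t) = true := by
  apply allBelow_of_forall
  intro k hk
  have hi : k / B < t := Nat.div_lt_of_lt_mul hk
  have := allBelow_spec (h (k / B) hi) (k % B) (Nat.mod_lt _ hB)
  have e : Nat.add (B * (k / B)) (k % B) = k := Nat.div_add_mod k B
  rw [e] at this
  exact this

theorem countBelow_succ (f : ℕ → Bool) (n : ℕ) : countBelow f (n + 1) = (cond (f n) 1 0) + countBelow f n := rfl

theorem countBelow_add (f : ℕ → Bool) (a b : ℕ) :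
    countBelow f (a + b) = countBelow f a + countBelow (fun j => f (Nat.add a j)) b := by
  induction b with
  | zero => rfl
  | succ b ih =>
    rw [← Nat.add_assoc, countBelow_succ, countBelow_succ, ih]
    show _ = countBelow f a + (cond (f (a + b)) 1 0 + _)
    omega

end Cfsg.Agent.Lib.Helper10
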