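import Mathlib
import Cfsg.Agent.Lib.Helper10.LeechTrans
import Cfsg.Agent.Lib.Helper10.LeechModTwo
import Cfsg.Agent.Lib.Helper10.LeechVec
import Cfsg.Agent.Lib.Helper10.LeechMono

set_option autoImplicit false
open Cfsg

namespace Cfsg.Agent.Lib.Helper10

open Cfsg.Agent.Lib.Helper28

def JT : ℕ := 798330509740955479769271404002297013
def JM : ℕ := 614069

theorem okJ : okMono JT JM = true := by decide +kernel

/-- a monomial lattice automorphism whose square is negation -/
noncomputable def Jc : Co0 :=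
  monoCo0 (permP JT) (permP_mem (okMono_spec okJ).1) (unmask JM) (okMono_spec okJ).2

theorem J_tab : ∀ k, k < 24 → gP JT k < 24 ∧ gP JT (gP JT k) = k ∧
    (JM.testBit k = !(JM.testBit (gP JT k))) := by decide +kernel

theorem Jc_sq (v : leechLattice) : Jc • Jc • v = -v := by
  apply Subtype.ext
  funext i
  show monoFun (permP JT) (unmask JM) (monoFun (permP JT) (unmask JM) v.1) i = - v.1 i
  have hV := inM24P_VP (okMono_spec okJ).1
  obtain ⟨h1, h2, h3⟩ := J_tab (idx i) (idx_lt i)
  have e1 : permP JT i = pt (gP JT (idx i)) := by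
    conv_lhs => rw [← pt_idx i]
    exact permP_apply hV (idx_lt i)
  have e2 : permP JT (pt (gP JT (idx i))) = i := by
    rw [permP_apply hV h1, h2, pt_idx]
  simp only [monoFun]
  rw [e1, e2]
  unfold sgn
  simp only [mem_unmask, idx_pt _ h1, h3]
  cases JM.testBit (gP JT (idx i)) <;> simp

/-- the map `1 + J` -/
noncomputable def Tm : leechLattice →+ leechLattice :=
  AddMonoidHom.mk' (fun x => x + Jc • x) (fun x y => by rw [Co0_smul_add]; abel)

theorem Tm_apply (x : leechLattice) : Tm x = x + Jc • x := rfl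

theorem Tm_Tm (x : leechLattice) : Tm (Tm x) = Jc • x + Jc • x := by
  rw [Tm_apply, Tm_apply, Co0_smul_add, Jc_sq]; abel

theorem Tm_Tm_neg (v : leechLattice) : Tm (Tm (-(Jc • v))) = v + v := by
  rw [Tm_Tm, Co0_smul_neg, Jc_sq, neg_neg]

theorem Tm_inj : Function.Injective Tm := by
  rw [injective_iff_map_eq_zero]
  intro x hx
  have h1 : Jc • x + Jc • x = 0 := by rw [← Tm_Tm, hx, map_zero]
  have h2 : Jc • x = 0 := by
    apply Subtype.ext
    funext i
    have := congrFun (congrArg Subtype.val h1) i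
    have h3 : (Jc • x : leechLattice).1 i + (Jc • x : leechLattice).1 i = 0 := this
    show (Jc • x : leechLattice).1 i = 0
    omega
  rw [← Co0_smul_zero Jc] at h2
  exact MulAction.injective Jc h2

theorem range_TT : Tm.range.map Tm = twoLeech.addSubgroupOf leechLattice := by
  ext x
  rw [AddSubgroup.mem_map, AddSubgroup.mem_addSubgroupOf, mem_twoLeech]
  constructor
  · rintro ⟨_, ⟨w, rfl⟩, rfl⟩
    refine ⟨(Jc • w : leechLattice).1, (Jc • w : leechLattice).2, ?_⟩
    rw [Tm_Tm, two_smul]; rfl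
  · rintro ⟨z, hz, hx⟩
    refine ⟨Tm (-(Jc • (⟨z, hz⟩ : leechLattice))), ⟨_, rfl⟩, ?_⟩
    rw [Tm_Tm_neg]
    apply Subtype.ext
    rw [hx, two_smul]; rfl

theorem index_range_Tm : Tm.range.index = 2 ^ 12 := by
  have hle : Tm.range.map Tm ≤ Tm.range := by
    rintro _ ⟨y, _, rfl⟩
    exact ⟨y, rfl⟩
  have h1 := AddSubgroup.relIndex_mul_index hle
  have h2 : (Tm.range.map Tm).relIndex Tm.range = Tm.range.index := by
    conv_lhs => rw [show (Tm.range : AddSubgroup leechLattice) = (⊤ : AddSubgroup leechLattice).map Tm from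
      AddMonoidHom.range_eq_map Tm]
    rw [AddSubgroup.relIndex_map_map_of_injective _ _ Tm_inj, AddSubgroup.relIndex_top_right,
      ← AddMonoidHom.range_eq_map]
  have h3 : (Tm.range.map Tm).index = 2 ^ 24 := by
    rw [range_TT]; exact relIndex_twoLeech
  rw [h2, h3] at h1
  have : (Tm.range.index) ^ 2 = (2 ^ 12) ^ 2 := by rw [sq, h1]; norm_num
  exact Nat.pow_left_injective (n := 2) (by norm_num) this

theorem dot_J (x : leechLattice) : dotInt x.1 (Jc • x : leechLattice).1 = 0 := by
  have h1 := Co0_dot Jc x (Jc • x)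
  rw [Jc_sq] at h1
  have h2 : dotInt (Jc • x : leechLattice).1 (-x : leechLattice).1 = - dotInt x.1 (Jc • x : leechLattice).1 := by
    show dotInt (Jc • x : leechLattice).1 (-x.1) = _
    rw [bform_dotInt.symm, bform_dotInt.neg_left]
  rw [h2] at h1
  omega

theorem norm_Tm (x : leechLattice) : (32 : ℤ) ∣ sqNorm (Tm x).1 := by
  have h1 : sqNorm (Tm x).1 = sqNorm x.1 + sqNorm (Jc • x : leechLattice).1 +
      2 * dotInt x.1 (Jc • x : leechLattice).1 := sqNorm_add _ _
  rw [h1, dot_J, Co0_sqNorm]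
  obtain ⟨k, hk⟩ := sqNorm_dvd x.2
  exact ⟨k, by rw [hk]; ring⟩

end Cfsg.Agent.Lib.Helper10
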