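/-
Decompositions of a vector of norm 48 as a sum of two minimal vectors: there are 552 summands, permuted transitively
by the stabiliser of the vector.
-/
import Cfsg.Agent.Lib.Helper10.CertB
set_option autoImplicit false
open Cfsg Cfsg.Agent.Lib.Helper28
namespace Cfsg.Agent.Lib.Helper10

/-- the standard vector `(5, 1^23)` -/
noncomputable def stdU0 : leechLattice := certB.t1

theorem sqNorm_stdU0 : sqNorm stdU0.1 = 48 := by
  unfold stdU0
  rw [Cert.t1_val certB_valid, sqNorm_unpV']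
  decide +kernel

theorem dot_of_norm_sub {u v : GolayPt → ℤ} {a b c : ℤ} (hu : sqNorm u = a) (hv : sqNorm v = b) :
    sqNorm (u - v) = c ↔ 2 * dotInt u v = a + b - c := by
  rw [sqNorm_sub, hu, hv]
  constructor <;> intro h <;> linarith

theorem mem_OmB_iff {u : leechLattice} (hu : sqNorm u.1 = 48) {g : Co0} (hg : g • u = stdU0) (v : leechLattice) :
    g • v ∈ certB.Om 24 24 ↔ sqNorm v.1 = 32 ∧ sqNorm (u.1 - v.1) = 32 := by
  have hd : dotInt certB.t1.1 (g • v : leechLattice).1 = dotInt u.1 v.1 := by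
    have := Co0_dot g u v
    rw [hg] at this
    exact this
  have ht2 : certB.t2 = certB.t1 := rfl
  unfold Cert.Om
  simp only [Set.mem_ofPred_eq, Co0_sqNorm, ht2, hd]
  constructor
  · rintro ⟨h1, h2, -⟩
    exact ⟨h1, (dot_of_norm_sub hu h1).2 (by rw [h2]; norm_num)⟩
  · rintro ⟨h1, h2⟩
    have := (dot_of_norm_sub hu h1).1 h2
    exact ⟨h1, by linarith, by linarith⟩

theorem card552 (u : leechLattice) (hu : sqNorm u.1 = 48) :
    {v : leechLattice | sqNorm v.1 = 32 ∧ sqNorm (u.1 - v.1) = 32}.ncard = 552 := by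
  obtain ⟨g, hg⟩ := Co0_trans48 u stdU0 hu sqNorm_stdU0
  have : {v : leechLattice | sqNorm v.1 = 32 ∧ sqNorm (u.1 - v.1) = 32} = {v | g • v ∈ certB.Om 24 24} := by
    ext v
    exact (mem_OmB_iff hu hg v).symm
  rw [this, ncard_smul_preimage, Cert.ncard_Om certB_good]
  rfl

theorem trans552 (u v v' : leechLattice) (hu : sqNorm u.1 = 48) (hv : sqNorm v.1 = 32 ∧ sqNorm (u.1 - v.1) = 32)
    (hv' : sqNorm v'.1 = 32 ∧ sqNorm (u.1 - v'.1) = 32) : ∃ g : Co0, g • u = u ∧ g • v = v' := by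
  obtain ⟨g, hg⟩ := Co0_trans48 u stdU0 hu sqNorm_stdU0
  obtain ⟨h, hK, hh⟩ := Cert.conj_of_one certB_good rfl ((mem_OmB_iff hu hg v).2 hv) ((mem_OmB_iff hu hg v').2 hv')
  have h1 : h • stdU0 = stdU0 := (mem_fix3.1 hK).1
  refine ⟨g⁻¹ * h * g, ?_, ?_⟩
  · rw [mul_smul, mul_smul, hg, h1, ← hg, inv_smul_smul]
  · rw [mul_smul, mul_smul, hh, inv_smul_smul]

theorem trans223 (v w w' : leechLattice) (hv : sqNorm v.1 = 32) (hw : sqNorm w.1 = 32) (hw' : sqNorm w'.1 = 32)
    (hd : dotInt v.1 w.1 = -8) (hd' : dotInt v.1 w'.1 = -8) : ∃ g : Co0, g • v = v ∧ g • w = w' := by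
  have hu : sqNorm (v + w : leechLattice).1 = 48 := by
    show sqNorm (v.1 + w.1) = 48
    rw [sqNorm_add, hv, hw, hd]; norm_num
  have hu' : sqNorm (v + w' : leechLattice).1 = 48 := by
    show sqNorm (v.1 + w'.1) = 48
    rw [sqNorm_add, hv, hw', hd']; norm_num
  obtain ⟨g1, hg1⟩ := Co0_trans48 _ _ hu hu'
  have e1 : (v + w' : leechLattice).1 - (g1 • v : leechLattice).1 = (g1 • w : leechLattice).1 := by
    rw [← hg1, Co0_smul_add]
    show (g1 • v : leechLattice).1 + (g1 • w : leechLattice).1 - (g1 • v : leechLattice).1 = _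
    abel
  have e2 : (v + w' : leechLattice).1 - v.1 = w'.1 := by
    show v.1 + w'.1 - v.1 = _
    abel
  obtain ⟨g2, h1, h2⟩ := trans552 (v + w') (g1 • v) v hu' ⟨by rw [Co0_sqNorm]; exact hv, by
    rw [e1, Co0_sqNorm]; exact hw⟩ ⟨hv, by rw [e2]; exact hw'⟩
  have hgv : (g2 * g1) • v = v := by rw [mul_smul, h2]
  refine ⟨g2 * g1, hgv, ?_⟩
  have h : (g2 * g1) • (v + w) = v + w' := by rw [mul_smul, hg1, h1]
  rw [Co0_smul_add, hgv] at h
  exact add_left_cancel h

end Cfsg.Agent.Lib.Helper10
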