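/-
Triangles of type 222, the McLaughlin configuration.
-/
import Cfsg.Agent.Lib.Helper10.LeechCertTr
import Cfsg.Agent.Lib.Helper10.LeechTri1
import Cfsg.Agent.Lib.Helper10.CertA
import Cfsg.Agent.Lib.Helper10.CertC
import Cfsg.Agent.Lib.Helper10.CertD
set_option autoImplicit false
open Cfsg Cfsg.Agent.Lib.Helper28
namespace Cfsg.Agent.Lib.Helper10

theorem smul_of_smul_neg {g : Co0} {v : leechLattice} (h : g • (-v) = -v) : g • v = v := by
  rw [Co0_smul_neg] at h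
  exact neg_injective h

theorem dot_neg_left (v w : leechLattice) : dotInt (-v : leechLattice).1 w.1 = -dotInt v.1 w.1 := by
  show dotInt (-v.1) w.1 = -dotInt v.1 w.1
  simp only [dotInt, Pi.neg_apply, neg_mul, Finset.sum_neg_distrib]

theorem sqNorm_neg' (v : leechLattice) : sqNorm (-v : leechLattice).1 = sqNorm v.1 := sqNorm_neg v.1

theorem trans222 (v w w' : leechLattice) (hv : sqNorm v.1 = 32) (hw : sqNorm w.1 = 32) (hw' : sqNorm w'.1 = 32)
    (hd : dotInt v.1 w.1 = -16) (hd' : dotInt v.1 w'.1 = -16) : ∃ g : Co0, g • v = v ∧ g • w = w' := by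
  have hn : sqNorm certA.t1.1 = 32 := by
    rw [Cert.t1_val certA_valid, sqNorm_unpV']; decide +kernel
  obtain ⟨g0, hg0⟩ := Co0_trans32 (-v) certA.t1 (by rw [sqNorm_neg']; exact hv) hn
  have hx : w ∈ OmG (-v) (-v) 16 16 := ⟨hw, by rw [dot_neg_left, hd]; norm_num, by rw [dot_neg_left, hd]; norm_num⟩
  have hy : w' ∈ OmG (-v) (-v) 16 16 :=
    ⟨hw', by rw [dot_neg_left, hd']; norm_num, by rw [dot_neg_left, hd']; norm_num⟩
  obtain ⟨g, g1, -, -, g4⟩ := Cert.conj_one_tr certA_good rfl hg0 hg0 hg0 hx hy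
  exact ⟨g, smul_of_smul_neg g1, g4⟩

/-! ### the McLaughlin configuration -/

/-- the standard vector `(4, 4, 0^22)` -/
noncomputable def stdV0 : leechLattice := certC.t2

/-- the standard vector `(4, 0, 4, 0^21)` -/
noncomputable def stdX0 : leechLattice := certD.t3

theorem stdV0_mem : stdV0 ∈ certB.Om 24 24 :=
  vecOf_mem_Om certB_valid (by decide +kernel) (by decide +kernel) (by decide +kernel) (by decide +kernel)

theorem stdX0_mem : stdX0 ∈ certC.Om 24 16 :=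
  vecOf_mem_Om certC_valid (by decide +kernel) (by decide +kernel) (by decide +kernel) (by decide +kernel)

/-- the pairs `(u, v)` -/
def IsPair (u v : leechLattice) : Prop := sqNorm u.1 = 48 ∧ sqNorm v.1 = 32 ∧ sqNorm (u.1 - v.1) = 32

theorem exists_std_pair {u v : leechLattice} (h : IsPair u v) : ∃ g : Co0, g • u = stdU0 ∧ g • v = stdV0 := by
  obtain ⟨g, hg⟩ := Co0_trans48 u stdU0 h.1 sqNorm_stdU0
  obtain ⟨k, hK, hk⟩ := Cert.conj_of_one certB_good rfl ((mem_OmB_iff h.1 hg v).2 h.2) stdV0_mem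
  have h1 : k • stdU0 = stdU0 := (mem_fix3.1 hK).1
  exact ⟨k * g, by rw [mul_smul, hg, h1], by rw [mul_smul, hk]⟩

/-- the set of 275 vectors -/
def S275 (u v : leechLattice) : Set leechLattice :=
  {x | sqNorm x.1 = 32 ∧ sqNorm (u.1 - x.1) = 32 ∧ dotInt v.1 x.1 = 16}

theorem S275_eq {u v : leechLattice} (h : IsPair u v) : S275 u v = OmG u v 24 16 := by
  ext x
  unfold S275 OmG
  simp only [Set.mem_ofPred_eq]
  constructor
  · rintro ⟨h1, h2, h3⟩
    have := (dot_of_norm_sub h.1 h1).1 h2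
    exact ⟨h1, by linarith, h3⟩
  · rintro ⟨h1, h2, h3⟩
    exact ⟨h1, (dot_of_norm_sub h.1 h1).2 (by rw [h2]; norm_num), h3⟩

theorem card275 {u v : leechLattice} (h : IsPair u v) : (S275 u v).ncard = 275 := by
  obtain ⟨g, h1, h2⟩ := exists_std_pair h
  rw [S275_eq h, Cert.ncard_tr certC_good (g0 := g) h1 h2]
  rfl

theorem trans275 {u v : leechLattice} (h : IsPair u v) {x y : leechLattice} (hx : x ∈ S275 u v)
    (hy : y ∈ S275 u v) : ∃ g : Co0, g • u = u ∧ g • v = v ∧ g • x = y := by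
  obtain ⟨g, h1, h2⟩ := exists_std_pair h
  rw [S275_eq h] at hx hy
  obtain ⟨k, k1, k2, -, k4⟩ := Cert.conj_one_tr certC_good rfl (g0 := g) (r := v) h1 h2 h2 hx hy
  exact ⟨k, k1, k2, k4⟩

theorem exists_std_triple {u v x : leechLattice} (h : IsPair u v) (hx : x ∈ S275 u v) :
    ∃ g : Co0, g • u = stdU0 ∧ g • v = stdV0 ∧ g • x = stdX0 := by
  obtain ⟨g, h1, h2⟩ := exists_std_pair h
  rw [S275_eq h] at hx
  obtain ⟨k, hK, hk⟩ := Cert.conj_of_one certC_good rfl ((Cert.mem_tr (C := certC) h1 h2 x).2 hx) stdX0_mem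
  obtain ⟨k1, k2, -⟩ := mem_fix3.1 hK
  refine ⟨k * g, ?_, ?_, ?_⟩
  · rw [mul_smul, h1]; exact k1
  · rw [mul_smul, h2]; exact k2
  · rw [mul_smul, hk]

theorem rank275 {u v x : leechLattice} (h : IsPair u v) (hx : x ∈ S275 u v) :
    {y | y ∈ S275 u v ∧ dotInt x.1 y.1 = 8}.ncard = 112 ∧ {y | y ∈ S275 u v ∧ dotInt x.1 y.1 = 16}.ncard = 162 ∧
    ∀ y ∈ S275 u v, ∀ y' ∈ S275 u v, dotInt x.1 y.1 = dotInt x.1 y'.1 →
      ∃ g : Co0, g • u = u ∧ g • v = v ∧ g • x = x ∧ g • y = y' := by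
  obtain ⟨g, h1, h2, h3⟩ := exists_std_triple h hx
  rw [S275_eq h]
  refine ⟨?_, ?_, ?_⟩
  · have := Cert.ncard_inv_tr certD_good (g0 := g) (c := 1) h1 h2 h3 (by decide)
    rw [certD_rinv1, certD_cnt1] at this
    exact this
  · have := Cert.ncard_inv_tr certD_good (g0 := g) (c := 2) h1 h2 h3 (by decide)
    rw [certD_rinv2, certD_cnt2] at this
    exact this
  · intro y hy y' hy' he
    exact Cert.conj_tr certD_good (g0 := g) h1 h2 h3 hy hy' he

end Cfsg.Agent.Lib.Helper10
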