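/-
The 11178 minimal vectors having inner product -16 with a vector of norm 48, and the Higman-Sims configuration.
-/
import Cfsg.Agent.Lib.Helper10.LeechTri2
import Cfsg.Agent.Lib.Helper10.CertE
import Cfsg.Agent.Lib.Helper10.CertF
import Cfsg.Agent.Lib.Helper10.CertG
import Cfsg.Agent.Lib.Helper10.CertJ
set_option autoImplicit false
open Cfsg Cfsg.Agent.Lib.Helper28
namespace Cfsg.Agent.Lib.Helper10

theorem vecOf_neg {P Q : ℕ} (hP : memChk P = true) (hQ : memChk Q = true)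
    (h : allBelow (fun k => Nat.beq (gP P k + gP Q k) 32) 24 = true) : vecOf P = -vecOf Q := by
  apply Subtype.ext
  show (vecOf P).1 = -(vecOf Q).1
  rw [vecOf_val (memChk_spec hP), vecOf_val (memChk_spec hQ)]
  funext i
  revert i
  apply forall_pt
  intro k hk
  have := Nat.eq_of_beq_eq_true (allBelow_spec h k hk)
  rw [Pi.neg_apply, unpV_pt P hk, unpV_pt Q hk]
  omega

theorem vecOf_add {P Q R : ℕ} (hP : memChk P = true) (hQ : memChk Q = true) (hR : memChk R = true)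
    (h : allBelow (fun k => Nat.beq (gP P k + 16) (gP Q k + gP R k)) 24 = true) : vecOf P = vecOf Q + vecOf R := by
  apply Subtype.ext
  show (vecOf P).1 = (vecOf Q).1 + (vecOf R).1
  rw [vecOf_val (memChk_spec hP), vecOf_val (memChk_spec hQ), vecOf_val (memChk_spec hR)]
  funext i
  revert i
  apply forall_pt
  intro k hk
  have := Nat.eq_of_beq_eq_true (allBelow_spec h k hk)
  rw [Pi.add_apply, unpV_pt P hk, unpV_pt Q hk, unpV_pt R hk]
  omega

/-- orbits described by an integer invariant -/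
theorem orbit_eq_of_inv {H : Subgroup Co0} (Ω : Set leechLattice) (I : leechLattice → ℤ)
    (hinv : ∀ h ∈ H, ∀ y, I (h • y) = I y) (hΩ : ∀ h ∈ H, ∀ y ∈ Ω, h • y ∈ Ω)
    (hconj : ∀ y ∈ Ω, ∀ z ∈ Ω, I y = I z → ∃ h ∈ H, h • y = z) {y : leechLattice} (hy : y ∈ Ω) :
    MulAction.orbit ↥H y = {z | z ∈ Ω ∧ I z = I y} := by
  ext z
  constructor
  · rintro ⟨⟨h, hh⟩, rfl⟩
    exact ⟨hΩ h hh y hy, hinv h hh y⟩
  · rintro ⟨hz, hI⟩
    obtain ⟨h, hh, rfl⟩ := hconj y hy z hz hI.symm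
    exact ⟨⟨h, hh⟩, rfl⟩

theorem exists_orbit_of_inv {H : Subgroup Co0} (Ω : Set leechLattice) (I : leechLattice → ℤ)
    (hinv : ∀ h ∈ H, ∀ y, I (h • y) = I y) (hΩ : ∀ h ∈ H, ∀ y ∈ Ω, h • y ∈ Ω)
    (hconj : ∀ y ∈ Ω, ∀ z ∈ Ω, I y = I z → ∃ h ∈ H, h • y = z) (b : ℤ) (n : ℕ) (hn : 0 < n)
    (hc : {z | z ∈ Ω ∧ I z = b}.ncard = n) :
    ∃ y ∈ Ω, MulAction.orbit ↥H y = {z | z ∈ Ω ∧ I z = b} := by
  have : {z | z ∈ Ω ∧ I z = b}.Nonempty := by
    rw [← Set.ncard_pos (Set.finite_of_ncard_pos (by omega)), hc]; exact hn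
  obtain ⟨y, hy, hyb⟩ := this
  exact ⟨y, hy, by rw [orbit_eq_of_inv Ω I hinv hΩ hconj hy, hyb]⟩

theorem eq_of_dot_eq {x y : leechLattice} (hx : sqNorm x.1 = 32) (hy : sqNorm y.1 = 32)
    (h : dotInt x.1 y.1 = 32) : y = x := by
  have h0 : sqNorm (x.1 - y.1) = 0 := by rw [sqNorm_sub, hx, hy, h]; norm_num
  apply Subtype.ext
  funext i
  have h1 := sq_le_sqNorm (x.1 - y.1) i
  rw [h0, Pi.sub_apply] at h1
  have : (x.1 i - y.1 i) = 0 := by nlinarith [sq_nonneg (x.1 i - y.1 i)]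
  linarith

/-! ### the 11178 vectors -/

def S11178 (u : leechLattice) : Set leechLattice := {x | sqNorm x.1 = 32 ∧ dotInt u.1 x.1 = -16}

theorem S11178_eq (u : leechLattice) : S11178 u = OmG (-u) (-u) 16 16 := by
  ext x
  unfold S11178 OmG
  simp only [Set.mem_ofPred_eq, dot_neg_left]
  constructor
  · rintro ⟨h1, h2⟩
    exact ⟨h1, by linarith, by linarith⟩
  · rintro ⟨h1, h2, -⟩
    exact ⟨h1, by linarith⟩

theorem certE_t1 : certE.t1 = -stdU0 := vecOf_neg (by decide +kernel) (by decide +kernel) (by decide +kernel)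

theorem exists_std_E {u : leechLattice} (hu : sqNorm u.1 = 48) : ∃ g : Co0, g • (-u) = certE.t1 := by
  obtain ⟨g, hg⟩ := Co0_trans48 u stdU0 hu sqNorm_stdU0
  exact ⟨g, by rw [Co0_smul_neg, hg, certE_t1]⟩

theorem card11178 {u : leechLattice} (hu : sqNorm u.1 = 48) : (S11178 u).ncard = 11178 := by
  obtain ⟨g, hg⟩ := exists_std_E hu
  rw [S11178_eq, Cert.ncard_tr certE_good (g0 := g) hg hg]
  rfl

theorem trans11178 {u : leechLattice} (hu : sqNorm u.1 = 48) {x y : leechLattice} (hx : x ∈ S11178 u)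
    (hy : y ∈ S11178 u) : ∃ g : Co0, g • u = u ∧ g • x = y := by
  obtain ⟨g, hg⟩ := exists_std_E hu
  rw [S11178_eq] at hx hy
  obtain ⟨k, k1, -, -, k4⟩ := Cert.conj_one_tr certE_good rfl (g0 := g) hg hg hg hx hy
  exact ⟨k, smul_of_smul_neg k1, k4⟩

/-- the standard vector `(-4, 4, 0^22)` -/
noncomputable def stdX1 : leechLattice := certJ.t3

theorem stdX1_mem : stdX1 ∈ certE.Om 16 16 :=
  vecOf_mem_Om certE_valid (by decide +kernel) (by decide +kernel) (by decide +kernel) (by decide +kernel)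

theorem exists_std_J {u x : leechLattice} (hu : sqNorm u.1 = 48) (hx : x ∈ S11178 u) :
    ∃ g : Co0, g • (-u) = certE.t1 ∧ g • x = stdX1 := by
  obtain ⟨g, hg⟩ := exists_std_E hu
  rw [S11178_eq] at hx
  obtain ⟨k, hK, hk⟩ := Cert.conj_of_one certE_good rfl ((Cert.mem_tr (C := certE) hg hg x).2 hx) stdX1_mem
  obtain ⟨k1, -, -⟩ := mem_fix3.1 hK
  exact ⟨k * g, by rw [mul_smul, hg]; exact k1, by rw [mul_smul, hk]⟩

theorem rank11178 {u x : leechLattice} (hu : sqNorm u.1 = 48) (hx : x ∈ S11178 u) :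
    {y | y ∈ S11178 u ∧ dotInt x.1 y.1 = -8}.ncard = 352 ∧ {y | y ∈ S11178 u ∧ dotInt x.1 y.1 = 16}.ncard = 1100 ∧
    {y | y ∈ S11178 u ∧ dotInt x.1 y.1 = 0}.ncard = 4125 ∧ {y | y ∈ S11178 u ∧ dotInt x.1 y.1 = 8}.ncard = 5600 ∧
    (∀ y ∈ S11178 u, dotInt x.1 y.1 = 32 ∨ dotInt x.1 y.1 = -8 ∨ dotInt x.1 y.1 = 16 ∨ dotInt x.1 y.1 = 0 ∨
      dotInt x.1 y.1 = 8) ∧
    ∀ y ∈ S11178 u, ∀ y' ∈ S11178 u, dotInt x.1 y.1 = dotInt x.1 y'.1 →
      ∃ g : Co0, g • u = u ∧ g • x = x ∧ g • y = y' := by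
  obtain ⟨g, h1, h3⟩ := exists_std_J hu hx
  have h1' : g • (-u) = certJ.t1 := h1
  have h2' : g • (-u) = certJ.t2 := h1
  have h3' : g • x = certJ.t3 := h3
  rw [S11178_eq]
  refine ⟨?_, ?_, ?_, ?_, ?_, ?_⟩
  · have := Cert.ncard_inv_tr certJ_good (g0 := g) (c := 4) h1' h2' h3' (by decide)
    rw [certJ_rinv4, certJ_cnt4] at this
    exact this
  · have := Cert.ncard_inv_tr certJ_good (g0 := g) (c := 1) h1' h2' h3' (by decide)
    rw [certJ_rinv1, certJ_cnt1] at this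
    exact this
  · have := Cert.ncard_inv_tr certJ_good (g0 := g) (c := 3) h1' h2' h3' (by decide)
    rw [certJ_rinv3, certJ_cnt3] at this
    exact this
  · have := Cert.ncard_inv_tr certJ_good (g0 := g) (c := 2) h1' h2' h3' (by decide)
    rw [certJ_rinv2, certJ_cnt2] at this
    exact this
  · intro y hy
    obtain ⟨c, hc, he⟩ := Cert.inv_tr certJ_good (g0 := g) h1' h2' h3' hy
    have hc5 : c < 5 := hc
    interval_cases c
    · rw [certJ_rinv0] at he; exact Or.inl he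
    · rw [certJ_rinv1] at he; exact Or.inr (Or.inr (Or.inl he))
    · rw [certJ_rinv2] at he; exact Or.inr (Or.inr (Or.inr (Or.inr he)))
    · rw [certJ_rinv3] at he; exact Or.inr (Or.inr (Or.inr (Or.inl he)))
    · rw [certJ_rinv4] at he; exact Or.inr (Or.inl he)
  · intro y hy y' hy' he
    obtain ⟨k, k1, -, k3, k4⟩ := Cert.conj_tr certJ_good (g0 := g) h1' h2' h3' hy hy' he
    exact ⟨k, smul_of_smul_neg k1, k3, k4⟩

end Cfsg.Agent.Lib.Helper10
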