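/-
The Higman-Sims configuration: two vectors of norm 48 with inner product -32.
-/
import Cfsg.Agent.Lib.Helper10.LeechTri3
set_option autoImplicit false
open Cfsg Cfsg.Agent.Lib.Helper28
namespace Cfsg.Agent.Lib.Helper10

def IsHSPair (v w : leechLattice) : Prop := sqNorm v.1 = 48 ∧ sqNorm w.1 = 48 ∧ dotInt v.1 w.1 = -32

/-- the standard vector `(1, 5, 1^22)` -/
noncomputable def stdU1 : leechLattice := certF.t2

theorem stdU1_eq : stdU1 = stdX1 + stdU0 :=
  vecOf_add (by decide +kernel) (by decide +kernel) (by decide +kernel) (by decide +kernel)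

theorem dot_add_right (a b c : leechLattice) : dotInt a.1 (b + c : leechLattice).1 = dotInt a.1 b.1 + dotInt a.1 c.1 := by
  show dotInt a.1 (b.1 + c.1) = _
  rw [bform_dotInt.symm, bform_dotInt.add, bform_dotInt.symm b.1, bform_dotInt.symm c.1]

theorem dot_neg_right (a b : leechLattice) : dotInt a.1 (-b : leechLattice).1 = -dotInt a.1 b.1 := by
  rw [bform_dotInt.symm, dot_neg_left, bform_dotInt.symm]

theorem exists_std_HS {v w : leechLattice} (h : IsHSPair v w) : ∃ g : Co0, g • v = stdU0 ∧ g • (-w) = stdU1 := by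
  obtain ⟨hv, hw, hd⟩ := h
  have hx : -(v + w) ∈ S11178 v := by
    refine ⟨?_, ?_⟩
    · rw [sqNorm_neg']
      show sqNorm (v.1 + w.1) = 32
      rw [sqNorm_add, hv, hw, hd]; norm_num
    · rw [dot_neg_right, dot_add_right, dotInt_self, hv, hd]; norm_num
  obtain ⟨g, g1, g2⟩ := exists_std_J hv hx
  have g1' : g • v = stdU0 := by
    rw [Co0_smul_neg, certE_t1] at g1
    exact neg_injective g1
  refine ⟨g, g1', ?_⟩
  have e : -w = -(v + w) + v := by abel
  rw [e, Co0_smul_add, g2, g1', stdU1_eq]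

def S100 (v w : leechLattice) : Set leechLattice :=
  {x | sqNorm x.1 = 32 ∧ dotInt v.1 x.1 = 24 ∧ dotInt w.1 x.1 = -24}

theorem S100_eq (v w : leechLattice) : S100 v w = OmG v (-w) 24 24 := by
  ext x
  unfold S100 OmG
  simp only [Set.mem_ofPred_eq, dot_neg_left]
  constructor
  · rintro ⟨h1, h2, h3⟩
    exact ⟨h1, h2, by linarith⟩
  · rintro ⟨h1, h2, h3⟩
    exact ⟨h1, h2, by linarith⟩

theorem card100 {v w : leechLattice} (h : IsHSPair v w) : (S100 v w).ncard = 100 := by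
  obtain ⟨g, h1, h2⟩ := exists_std_HS h
  rw [S100_eq, Cert.ncard_tr certF_good (g0 := g) h1 h2]
  rfl

theorem trans100 {v w : leechLattice} (h : IsHSPair v w) {x y : leechLattice} (hx : x ∈ S100 v w)
    (hy : y ∈ S100 v w) : ∃ g : Co0, g • v = v ∧ g • w = w ∧ g • x = y := by
  obtain ⟨g, h1, h2⟩ := exists_std_HS h
  rw [S100_eq] at hx hy
  obtain ⟨k, k1, k2, -, k4⟩ := Cert.conj_one_tr certF_good rfl (g0 := g) (r := -w) h1 h2 h2 hx hy
  exact ⟨k, k1, smul_of_smul_neg k2, k4⟩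

theorem stdV0_mem_F : stdV0 ∈ certF.Om 24 24 :=
  vecOf_mem_Om certF_valid (by decide +kernel) (by decide +kernel) (by decide +kernel) (by decide +kernel)

theorem exists_std_HS3 {v w x : leechLattice} (h : IsHSPair v w) (hx : x ∈ S100 v w) :
    ∃ g : Co0, g • v = stdU0 ∧ g • (-w) = stdU1 ∧ g • x = stdV0 := by
  obtain ⟨g, h1, h2⟩ := exists_std_HS h
  rw [S100_eq] at hx
  obtain ⟨k, hK, hk⟩ := Cert.conj_of_one certF_good rfl ((Cert.mem_tr (C := certF) h1 h2 x).2 hx) stdV0_mem_F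
  obtain ⟨k1, k2, -⟩ := mem_fix3.1 hK
  refine ⟨k * g, ?_, ?_, ?_⟩
  · rw [mul_smul, h1]; exact k1
  · rw [mul_smul, h2]; exact k2
  · rw [mul_smul, hk]

theorem rank100 {v w x : leechLattice} (h : IsHSPair v w) (hx : x ∈ S100 v w) :
    {y | y ∈ S100 v w ∧ dotInt x.1 y.1 = 8}.ncard = 22 ∧ {y | y ∈ S100 v w ∧ dotInt x.1 y.1 = 16}.ncard = 77 ∧
    (∀ y ∈ S100 v w, dotInt x.1 y.1 = 32 ∨ dotInt x.1 y.1 = 8 ∨ dotInt x.1 y.1 = 16) ∧
    ∀ y ∈ S100 v w, ∀ y' ∈ S100 v w, dotInt x.1 y.1 = dotInt x.1 y'.1 →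
      ∃ g : Co0, g • v = v ∧ g • w = w ∧ g • x = x ∧ g • y = y' := by
  obtain ⟨g, h1, h2, h3⟩ := exists_std_HS3 h hx
  have h1' : g • v = certG.t1 := h1
  have h2' : g • (-w) = certG.t2 := h2
  have h3' : g • x = certG.t3 := h3
  rw [S100_eq]
  refine ⟨?_, ?_, ?_, ?_⟩
  · have := Cert.ncard_inv_tr certG_good (g0 := g) (c := 1) h1' h2' h3' (by decide)
    rw [certG_rinv1, certG_cnt1] at this
    exact this
  · have := Cert.ncard_inv_tr certG_good (g0 := g) (c := 2) h1' h2' h3' (by decide)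
    rw [certG_rinv2, certG_cnt2] at this
    exact this
  · intro y hy
    obtain ⟨c, hc, he⟩ := Cert.inv_tr certG_good (g0 := g) h1' h2' h3' hy
    have hc3 : c < 3 := hc
    interval_cases c
    · rw [certG_rinv0] at he; exact Or.inl he
    · rw [certG_rinv1] at he; exact Or.inr (Or.inl he)
    · rw [certG_rinv2] at he; exact Or.inr (Or.inr he)
  · intro y hy y' hy' he
    obtain ⟨k, k1, k2, k3, k4⟩ := Cert.conj_tr certG_good (g0 := g) h1' h2' h3' hy hy' he
    exact ⟨k, k1, smul_of_smul_neg k2, k3, k4⟩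

theorem word_map {w : List (ℕ × ℕ)} (h : okWord w = true) {P Q : ℕ} (hP : memChk P = true) (hn : nrmP P ≤ 64)
    (hw : wordA w P = Q) : wordCo0 w • vecOf P = vecOf Q := by
  have hv := vecOf_val (memChk_spec hP)
  have := wordA_spec h (vecOf P) (by rw [hv, sqNorm_unpV']; exact hn) hv
  rw [hw] at this
  exact (vecOf_eq_of_val this).symm

def swapW : List (ℕ × ℕ) := [(279829409800545434184421619045966849, 0)]

theorem swap_std : wordCo0 swapW • stdU0 = stdU1 ∧ wordCo0 swapW • stdU1 = stdU0 :=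
  ⟨word_map (by decide +kernel) (by decide +kernel) (by decide +kernel) (by decide +kernel),
    word_map (by decide +kernel) (by decide +kernel) (by decide +kernel) (by decide +kernel)⟩

theorem swapHS {v w : leechLattice} (h : IsHSPair v w) : ∃ g : Co0, g • v = w ∧ g • w = v := by
  obtain ⟨g, h1, h2⟩ := exists_std_HS h
  have h2' : g • w = -stdU1 := by
    rw [Co0_smul_neg] at h2
    rw [← h2, neg_neg]
  refine ⟨g⁻¹ * (negCo0 * wordCo0 swapW) * g, ?_, ?_⟩
  · rw [mul_smul, mul_smul, mul_smul, h1, swap_std.1, negCo0_smul', ← h2', inv_smul_smul]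
  · rw [mul_smul, mul_smul, mul_smul, h2', Co0_smul_neg, swap_std.2, negCo0_smul', neg_neg, ← h1, inv_smul_smul]

end Cfsg.Agent.Lib.Helper10
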