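/-
The action of the stabiliser of two minimal vectors with inner product -8 on 2025 vectors.
-/
import Cfsg.Agent.Lib.Helper10.LeechTri3
import Cfsg.Agent.Lib.Helper10.CertH
import Cfsg.Agent.Lib.Helper10.CertI
set_option autoImplicit false
open Cfsg Cfsg.Agent.Lib.Helper28
namespace Cfsg.Agent.Lib.Helper10

def IsMcLPair (v w : leechLattice) : Prop := sqNorm v.1 = 32 ∧ sqNorm w.1 = 32 ∧ dotInt v.1 w.1 = -8

theorem std_McLPair : IsMcLPair certH.t1 certH.t2 := by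
  refine ⟨?_, ?_, ?_⟩
  · rw [Cert.t1_val certH_valid, sqNorm_unpV']; decide +kernel
  · rw [Cert.t2_val certH_valid, sqNorm_unpV']; decide +kernel
  · rw [Cert.t1_val certH_valid, Cert.t2_val certH_valid, dotInt_unpV']; decide +kernel

theorem exists_std_McL {v w : leechLattice} (h : IsMcLPair v w) : ∃ g : Co0, g • v = certH.t1 ∧ g • w = certH.t2 := by
  obtain ⟨g, hg⟩ := Co0_trans32 v certH.t1 h.1 std_McLPair.1
  have hd : dotInt certH.t1.1 (g • w : leechLattice).1 = -8 := by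
    rw [Cert.dot_tr hg]; exact h.2.2
  obtain ⟨k, k1, k2⟩ := trans223 certH.t1 (g • w) certH.t2 std_McLPair.1 (by rw [Co0_sqNorm]; exact h.2.1)
    std_McLPair.2.1 hd std_McLPair.2.2
  exact ⟨k * g, by rw [mul_smul, hg, k1], by rw [mul_smul, k2]⟩

theorem card2025 {v w : leechLattice} (h : IsMcLPair v w) : (OmG v w 0 16).ncard = 2025 := by
  obtain ⟨g, h1, h2⟩ := exists_std_McL h
  rw [Cert.ncard_tr certH_good (g0 := g) h1 h2]
  rfl

theorem trans2025 {v w : leechLattice} (h : IsMcLPair v w) {x y : leechLattice} (hx : x ∈ OmG v w 0 16)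
    (hy : y ∈ OmG v w 0 16) : ∃ g : Co0, g • v = v ∧ g • w = w ∧ g • x = y := by
  obtain ⟨g, h1, h2⟩ := exists_std_McL h
  obtain ⟨k, k1, k2, -, k4⟩ := Cert.conj_one_tr certH_good rfl (g0 := g) (r := w) h1 h2 h2 hx hy
  exact ⟨k, k1, k2, k4⟩

theorem stdX2_mem : certI.t3 ∈ certH.Om 0 16 :=
  vecOf_mem_Om certH_valid (by decide +kernel) (by decide +kernel) (by decide +kernel) (by decide +kernel)

theorem exists_std_McL3 {v w x : leechLattice} (h : IsMcLPair v w) (hx : x ∈ OmG v w 0 16) :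
    ∃ g : Co0, g • v = certI.t1 ∧ g • w = certI.t2 ∧ g • x = certI.t3 := by
  obtain ⟨g, h1, h2⟩ := exists_std_McL h
  obtain ⟨k, hK, hk⟩ := Cert.conj_of_one certH_good rfl ((Cert.mem_tr (C := certH) h1 h2 x).2 hx) stdX2_mem
  obtain ⟨k1, k2, -⟩ := mem_fix3.1 hK
  refine ⟨k * g, ?_, ?_, ?_⟩
  · rw [mul_smul, h1]; exact k1
  · rw [mul_smul, h2]; exact k2
  · rw [mul_smul, hk]

theorem rank2025 {v w x : leechLattice} (h : IsMcLPair v w) (hx : x ∈ OmG v w 0 16) :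
    {y | y ∈ OmG v w 0 16 ∧ dotInt x.1 y.1 = 0}.ncard = 330 ∧ {y | y ∈ OmG v w 0 16 ∧ dotInt x.1 y.1 = 16}.ncard = 462 ∧
    {y | y ∈ OmG v w 0 16 ∧ dotInt x.1 y.1 = 8}.ncard = 1232 ∧
    ∀ y ∈ OmG v w 0 16, ∀ y' ∈ OmG v w 0 16, dotInt x.1 y.1 = dotInt x.1 y'.1 →
      ∃ g : Co0, g • v = v ∧ g • w = w ∧ g • x = x ∧ g • y = y' := by
  obtain ⟨g, h1, h2, h3⟩ := exists_std_McL3 h hx
  refine ⟨?_, ?_, ?_, ?_⟩
  · have := Cert.ncard_inv_tr certI_good (g0 := g) (c := 1) h1 h2 h3 (by decide)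
    rw [certI_rinv1, certI_cnt1] at this
    exact this
  · have := Cert.ncard_inv_tr certI_good (g0 := g) (c := 3) h1 h2 h3 (by decide)
    rw [certI_rinv3, certI_cnt3] at this
    exact this
  · have := Cert.ncard_inv_tr certI_good (g0 := g) (c := 2) h1 h2 h3 (by decide)
    rw [certI_rinv2, certI_cnt2] at this
    exact this
  · intro y hy y' hy' he
    exact Cert.conj_tr certI_good (g0 := g) h1 h2 h3 hy hy' he

end Cfsg.Agent.Lib.Helper10
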