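/-
The stabiliser of the standard triple `(5,1,1^22)`, `(1,5,1^22)`, `(4,4,0^22)` is the group of coordinate permutations
from the two-point stabiliser of the Mathieu group; it is simple.
-/
import Cfsg.Agent.Lib.Helper10.LeechTri5
import Cfsg.Agent.Lib.Helper10.LeechTri4
import Cfsg.Agent.Lib.Helper10.LeechOrder
import Cfsg.Agent.Lib.Helper3.M24e
set_option autoImplicit false
open Cfsg Cfsg.Agent.Lib.Helper28
namespace Cfsg.Agent.Lib.Helper10

theorem presCross_of_fix' {g : Co0} (i : GolayPt) (hg : g • e8 i = e8 i) : PresCross g := by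
  intro v hv
  obtain ⟨h1, h2, z, hz, h3⟩ := stdCross_subset_cross hv
  have hi : (e8 i).1 ∈ stdCross := ⟨i, 8, Or.inl rfl, rfl⟩
  obtain ⟨-, -, z', hz', h3'⟩ := stdCross_subset_cross hi
  rw [← cross_e8]
  set Z : leechLattice := ⟨z, hz⟩
  set Z' : leechLattice := ⟨z', hz'⟩
  refine ⟨(g • v : leechLattice).2, by rw [Co0_sqNorm]; exact h2, (Z' + g • (Z - Z') : leechLattice).1,
    (Z' + g • (Z - Z') : leechLattice).2, ?_⟩
  have e1 : e8 i - v = (Z - Z') + (Z - Z') := by
    apply Subtype.ext
    show (e8 i).1 - v.1 = (z - z') + (z - z')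
    have a1 : (e8 none).1 - v.1 = z + z := by rw [h3, two_smul]
    have a2 : (e8 none).1 - (e8 i).1 = z' + z' := by rw [h3', two_smul]
    have : (e8 i).1 - v.1 = ((e8 none).1 - v.1) - ((e8 none).1 - (e8 i).1) := by abel
    rw [this, a1, a2]; abel
  have e2 := congrArg (fun u => g • u) e1
  simp only [Co0_smul_sub, Co0_smul_add, hg] at e2
  have e3 : (e8 i).1 - (g • v : leechLattice).1 =
      ((g • Z : leechLattice).1 - (g • Z' : leechLattice).1) + ((g • Z : leechLattice).1 - (g • Z' : leechLattice).1) :=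
    congrArg Subtype.val e2
  have a2 : (e8 none).1 - (e8 i).1 = z' + z' := by rw [h3', two_smul]
  rw [two_smul]
  show (e8 none).1 - (g • v : leechLattice).1 = (z' + (g • (Z - Z') : leechLattice).1) + (z' + (g • (Z - Z') : leechLattice).1)
  have e4 : (g • (Z - Z') : leechLattice).1 = (g • Z : leechLattice).1 - (g • Z' : leechLattice).1 := by
    rw [Co0_smul_sub]; rfl
  have : (e8 none).1 - (g • v : leechLattice).1 = ((e8 none).1 - (e8 i).1) + ((e8 i).1 - (g • v : leechLattice).1) := by
    abel
  rw [this, a2, e3, e4]; abel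

def emptyCode : ↥codeFin := ⟨∅, (mem_codeFin _).2 isC_empty⟩

/-- coordinate permutations -/
def permEl (σ : ↥M24) : Co0 := monoEl (σ, emptyCode)

theorem permEl_smul (σ : ↥M24) (v : leechLattice) (i : GolayPt) : (permEl σ • v : leechLattice).1 i = v.1 (σ.1⁻¹ i) := by
  unfold permEl
  rw [monoEl_smul]
  simp [sgn, emptyCode]

def permHom : ↥M24 →* Co0 where
  toFun := permEl
  map_one' := by
    apply Co0_ext
    intro v
    funext i
    rw [permEl_smul, one_smul]
    rfl
  map_mul' a b := by
    apply Co0_ext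
    intro v
    funext i
    rw [mul_smul, permEl_smul, permEl_smul, permEl_smul]
    rfl

theorem permHom_inj : Function.Injective permHom := fun _ _ h => (Prod.ext_iff.1 (monoEl_inj h)).1

theorem stdU0_val : ∀ i, stdU0.1 i = if i = pt 0 then 5 else 1 := by
  have : stdU0.1 = unpV 728931481559469994818216774992447029 := vecOf_val (memChk_spec (by decide +kernel))
  rw [this]
  decide +kernel

theorem stdU1_val : ∀ i, stdU1.1 i = if i = pt 1 then 5 else 1 := by
  have : stdU1.1 = unpV 728931481559469994818216774992447153 := vecOf_val (memChk_spec (by decide +kernel))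
  rw [this]
  decide +kernel

theorem stdV0_val : ∀ i, stdV0.1 i = if i = pt 0 ∨ i = pt 1 then 4 else 0 := by
  have : stdV0.1 = unpV 686053159114795289240674611757597332 := vecOf_val (memChk_spec (by decide +kernel))
  rw [this]
  decide +kernel

theorem e8_std : e8 (pt 0) + stdU1 = stdU0 + stdV0 := by
  apply Subtype.ext
  funext i
  show (e8 (pt 0)).1 i + stdU1.1 i = stdU0.1 i + stdV0.1 i
  rw [stdU0_val, stdU1_val, stdV0_val]
  show (Pi.single (pt 0) 8 : GolayPt → ℤ) i + _ = _
  revert i
  decide +kernel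

theorem fix_std_iff (g : Co0) : g ∈ fix3 stdU0 stdU1 stdV0 ↔
    ∃ σ : ↥M24, σ.1 (pt 0) = pt 0 ∧ σ.1 (pt 1) = pt 1 ∧ permEl σ = g := by
  rw [mem_fix3]
  constructor
  · rintro ⟨h1, h2, h3⟩
    have he : g • e8 (pt 0) = e8 (pt 0) := by
      have := congrArg (fun u => g • u) e8_std
      simp only [Co0_smul_add, h1, h2, h3] at this
      rw [← e8_std] at this
      exact add_right_cancel this
    obtain ⟨p, rfl⟩ := exists_monoEl g (presCross_of_fix' _ he)
    have k1 : ∀ i, sgn p.2.1 i * stdU0.1 ((p.1.1)⁻¹ i) = stdU0.1 i := by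
      intro i
      rw [← monoEl_smul, h1]
    have k2 : ∀ i, sgn p.2.1 i * stdU1.1 ((p.1.1)⁻¹ i) = stdU1.1 i := by
      intro i
      rw [← monoEl_smul, h2]
    have hs : ∀ i, sgn p.2.1 i = 1 := by
      intro i
      rcases sgn_cases p.2.1 i with h | h
      · exact h
      · exfalso
        have := k1 i
        rw [h, stdU0_val, stdU0_val] at this
        split_ifs at this <;> omega
    have hc : p.2 = emptyCode := by
      apply Subtype.ext
      show p.2.1 = ∅
      apply Finset.eq_empty_of_forall_notMem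
      intro i hi
      have := hs i
      unfold sgn at this
      rw [if_pos hi] at this
      omega
    refine ⟨p.1, ?_, ?_, ?_⟩
    · have := k1 (pt 0)
      rw [hs, stdU0_val, stdU0_val, if_pos rfl] at this
      split_ifs at this with h
      · rw [← h, perm_apply_inv, h]
      · omega
    · have := k2 (pt 1)
      rw [hs, stdU1_val, stdU1_val, if_pos rfl] at this
      split_ifs at this with h
      · rw [← h, perm_apply_inv, h]
      · omega
    · unfold permEl
      rw [← hc]
  · rintro ⟨σ, h0, h1, rfl⟩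
    have i0 : ∀ i, σ.1⁻¹ i = pt 0 ↔ i = pt 0 := by
      intro i
      constructor
      · intro h
        rw [← perm_apply_inv σ.1 i, h, h0]
      · intro h
        rw [h, ← h0, perm_inv_apply, h0]
    have i1 : ∀ i, σ.1⁻¹ i = pt 1 ↔ i = pt 1 := by
      intro i
      constructor
      · intro h
        rw [← perm_apply_inv σ.1 i, h, h1]
      · intro h
        rw [h, ← h1, perm_inv_apply, h1]
    refine ⟨?_, ?_, ?_⟩
    · apply Subtype.ext
      funext i
      rw [permEl_smul, stdU0_val, stdU0_val]
      simp only [i0]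
    · apply Subtype.ext
      funext i
      rw [permEl_smul, stdU1_val, stdU1_val]
      simp only [i1]
    · apply Subtype.ext
      funext i
      rw [permEl_smul, stdV0_val, stdV0_val]
      simp only [i0, i1]

theorem fix_std_eq : fix3 stdU0 stdU1 stdV0 =
    (MulAction.stabilizer M24 (pt 0) ⊓ MulAction.stabilizer M24 (pt 1)).map permHom := by
  ext g
  rw [fix_std_iff, Subgroup.mem_map]
  constructor
  · rintro ⟨σ, h0, h1, rfl⟩
    exact ⟨σ, ⟨h0, h1⟩, rfl⟩
  · rintro ⟨σ, ⟨h0, h1⟩, rfl⟩
    exact ⟨σ, h0, h1, rfl⟩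

theorem simple_fix_std : IsSimpleGroup ↥(fix3 stdU0 stdU1 stdV0) := by
  rw [fix_std_eq]
  have := Cfsg.Agent.Lib.Helper3.M22_simple (pt 0) (pt 1) (by decide)
  exact (Subgroup.equivMapOfInjective _ permHom permHom_inj).symm.isSimpleGroup

end Cfsg.Agent.Lib.Helper10
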