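/-
The Leech lattice is generated by its minimal vectors.
-/
import Cfsg.Agent.Lib.Helper10.LeechOrder
set_option autoImplicit false
open Cfsg Cfsg.Agent.Lib.Helper28
namespace Cfsg.Agent.Lib.Helper10

/-- the subgroup generated by the minimal vectors -/
def minGen : AddSubgroup (GolayPt → ℤ) := AddSubgroup.closure {x | x ∈ leechLattice ∧ sqNorm x = 32}

theorem mem_minGen {x : GolayPt → ℤ} (h1 : x ∈ leechLattice) (h2 : sqNorm x = 32) : x ∈ minGen :=
  AddSubgroup.subset_closure ⟨h1, h2⟩

theorem sqNorm_pair {i j : GolayPt} (hij : i ≠ j) (s t : ℤ) :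
    sqNorm (Pi.single i s + Pi.single j t : GolayPt → ℤ) = s ^ 2 + t ^ 2 := by
  unfold sqNorm
  rw [← Finset.sum_subset (Finset.subset_univ {i, j}), Finset.sum_pair hij]
  · simp [hij, Ne.symm hij]
  · intro k _ hk
    simp only [Finset.mem_insert, Finset.mem_singleton, not_or] at hk
    simp [hk.1, hk.2]

theorem pair_mem {i j : GolayPt} (hij : i ≠ j) {s t : ℤ} (hs : s = 4 ∨ s = -4) (ht : t = 4 ∨ t = -4) :
    (Pi.single i s + Pi.single j t : GolayPt → ℤ) ∈ minGen := by
  apply mem_minGen
  · apply mem_of_four_dvd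
    · intro k
      simp only [Pi.add_apply, Pi.single_apply]
      rcases hs with rfl | rfl <;> rcases ht with rfl | rfl <;> split_ifs <;> norm_num
    · simp only [Pi.add_apply]
      rw [Finset.sum_add_distrib, Finset.sum_pi_single', Finset.sum_pi_single']
      simp only [Finset.mem_univ, if_true]
      rcases hs with rfl | rfl <;> rcases ht with rfl | rfl <;> norm_num
  · rw [sqNorm_pair hij]
    rcases hs with rfl | rfl <;> rcases ht with rfl | rfl <;> norm_num

theorem vFour_mem_minGen (i : GolayPt) : vFour i ∈ minGen := by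
  by_cases hi : i = none
  · subst hi
    have : vFour none = 0 := by unfold vFour; simp
    rw [this]; exact minGen.zero_mem
  · have : vFour i = Pi.single i 4 + Pi.single none (-4) := by
      unfold vFour
      rw [sub_eq_add_neg, ← Pi.single_neg]
    rw [this]
    exact pair_mem hi (Or.inl rfl) (Or.inr rfl)

theorem vEight_mem_minGen : vEight ∈ minGen := by
  have : vEight = (Pi.single none 4 + Pi.single (pt 0) 4) + (Pi.single none 4 + Pi.single (pt 0) (-4)) := by
    unfold vEight
    funext k
    simp only [Pi.add_apply, Pi.single_apply]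
    split_ifs <;> norm_num
  rw [this]
  exact minGen.add_mem (pair_mem (by decide) (Or.inl rfl) (Or.inl rfl)) (pair_mem (by decide) (Or.inl rfl) (Or.inr rfl))

theorem four_chi_mem (S : Finset GolayPt) {a : ℕ} (ha : S.card = 2 * a) : (fun i => 4 * chi S i) ∈ minGen := by
  have : (fun i => 4 * chi S i) = ∑ i ∈ S, vFour i + a • vEight := by
    funext k
    simp only [Pi.add_apply, Finset.sum_apply, Pi.smul_apply, vFour, vEight, Pi.sub_apply, Pi.single_apply,
      nsmul_eq_mul]
    rw [Finset.sum_sub_distrib, Finset.sum_const, Finset.sum_ite_eq, ha]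
    unfold chi
    by_cases hk : k ∈ S <;> by_cases hk' : k = none <;> simp [hk, hk'] <;> ring
  rw [this]
  exact minGen.add_mem (minGen.sum_mem (fun i _ => vFour_mem_minGen i)) (minGen.nsmul_mem vEight_mem_minGen a)

theorem vCode_symmDiff_mem {c c' : Finset GolayPt} (hc : IsC c) (hc' : IsC c') (h : vCode c ∈ minGen)
    (h' : vCode c' ∈ minGen) : vCode (symmDiff c c') ∈ minGen := by
  obtain ⟨a, ha⟩ := isC_inter_even hc hc'
  have : vCode (symmDiff c c') = vCode c + vCode c' - (fun i => 4 * chi (c ∩ c') i) := by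
    funext i
    simp only [vCode, Pi.add_apply, Pi.sub_apply]
    by_cases h1 : i ∈ c <;> by_cases h2 : i ∈ c' <;> simp [chi, h1, h2, Finset.mem_symmDiff]
  rw [this]
  exact minGen.sub_mem (minGen.add_mem h h') (four_chi_mem _ ha)

theorem sqNorm_vCode (c : Finset GolayPt) : sqNorm (vCode c) = 4 * c.card := by
  unfold sqNorm vCode
  have : ∀ i, (2 * chi c i) ^ 2 = 4 * chi c i := by
    intro i
    rcases chi_cases c i with ⟨-, h⟩ | ⟨-, h⟩ <;> rw [h] <;> norm_num
  simp_rw [this]
  rw [← Finset.mul_sum, sum_chi]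

theorem vCode_encAux (L : List ℕ) (hL : ∀ b ∈ L, IsC (unmask b) ∧ vCode (unmask b) ∈ minGen) (j : ℕ) :
    IsC (unmask (encAux L j)) ∧ vCode (unmask (encAux L j)) ∈ minGen := by
  have h0 : IsC (unmask 0) ∧ vCode (unmask 0) ∈ minGen := by
    have e : unmask 0 = ∅ := by decide +kernel
    rw [e]
    refine ⟨isC_empty, ?_⟩
    have : vCode ∅ = 0 := by funext i; simp [vCode, chi]
    rw [this]; exact minGen.zero_mem
  induction L generalizing j with
  | nil => exact h0
  | cons b bs ih =>
    rw [encAux, unmask_xor]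
    have h1 : IsC (unmask (if j.testBit 0 = true then b else 0)) ∧
        vCode (unmask (if j.testBit 0 = true then b else 0)) ∈ minGen := by
      split_ifs
      · exact hL b (by simp)
      · exact h0
    have h2 := ih (fun b hb => hL b (by simp [hb])) (j >>> 1)
    exact ⟨isC_symmDiff h1.1 h2.1, vCode_symmDiff_mem h1.1 h2.1 h1.2 h2.2⟩

theorem vCode_mem_minGen (c : Finset GolayPt) (hc : IsC c) : vCode c ∈ minGen := by
  have hc' := hc
  rw [isC_iff] at hc'
  obtain ⟨j, hj, hjc⟩ := exists_enc_of_isCode (mask_lt c) hc'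
  have := (vCode_encAux basis ?_ j).2
  · have e : unmask (encAux basis j) = c := by
      show unmask (enc j) = c
      rw [hjc, unmask_mask]
    rwa [e] at this
  · intro b hb
    have hb1 : b < 2 ^ 24 ∧ isCode b = true ∧ pcF b = 8 := by
      revert b; decide +kernel
    have hC : IsC (unmask b) := by rw [isC_iff, mask_unmask _ hb1.1]; exact hb1.2.1
    refine ⟨hC, mem_minGen (vCode_mem hC) ?_⟩
    rw [sqNorm_vCode, card_eq_pcF, mask_unmask _ hb1.1, hb1.2.2]
    norm_num

theorem sqNorm_vOdd : sqNorm vOdd = 32 := by decide +kernel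

theorem minGen_eq : minGen = leechLattice := by
  apply le_antisymm
  · unfold minGen
    rw [AddSubgroup.closure_le]
    exact fun x hx => hx.1
  · exact leech_le minGen (mem_minGen vOdd_mem sqNorm_vOdd) vCode_mem_minGen vFour_mem_minGen vEight_mem_minGen

end Cfsg.Agent.Lib.Helper10
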