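/-
A simplicity criterion: a faithful transitive action, primitive by its subdegrees, with a simple point stabiliser and
no regular normal subgroup.
-/
import Mathlib
set_option autoImplicit false
namespace Cfsg.Agent.Lib.Helper10
open MulAction Subgroup

section
variable {G X : Type*} [Group G] [MulAction G X]

theorem orbit_sup_stab (N : Subgroup G) [N.Normal] (α : X) :
    orbit ↥(N ⊔ stabilizer G α) α = orbit ↥N α := by
  ext x
  constructor
  · rintro ⟨⟨k, hk⟩, rfl⟩
    rw [← SetLike.mem_coe, Subgroup.normal_mul] at hk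
    obtain ⟨n, hn, s, hs, rfl⟩ := hk
    refine ⟨⟨n, hn⟩, ?_⟩
    show n • α = (n * s) • α
    rw [mul_smul, mem_stabilizer_iff.1 hs]
  · rintro ⟨⟨n, hn⟩, rfl⟩
    exact ⟨⟨n, (le_sup_left : N ≤ N ⊔ stabilizer G α) hn⟩, rfl⟩

theorem ncard_orbit_normal_dvd (N : Subgroup G) [N.Normal] (α : X) :
    (orbit ↥N α).ncard ∣ (orbit G α).ncard := by
  have h1 : (orbit ↥(N ⊔ stabilizer G α) α).ncard = (stabilizer ↥(N ⊔ stabilizer G α) α).index :=
    (index_stabilizer _ α).symm
  have h2 : stabilizer ↥(N ⊔ stabilizer G α) α = (stabilizer G α).subgroupOf (N ⊔ stabilizer G α) := by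
    ext g
    rw [mem_stabilizer_iff, mem_subgroupOf, mem_stabilizer_iff]
    rfl
  have h3 : (stabilizer G α).relIndex (N ⊔ stabilizer G α) * (N ⊔ stabilizer G α).index = (stabilizer G α).index :=
    relIndex_mul_index le_sup_right
  rw [← orbit_sup_stab, h1, h2, ← index_stabilizer G α, ← h3]
  exact Dvd.intro _ rfl

theorem orbit_normal_subset (N : Subgroup G) (α : X) : orbit ↥N α ⊆ orbit G α := by
  rintro _ ⟨n, rfl⟩
  exact ⟨n.1, rfl⟩

theorem orbit_normal_stab (N : Subgroup G) [hN : N.Normal] (α : X) {h : G} (hh : h • α = α) {y : X}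
    (hy : y ∈ orbit ↥N α) : h • y ∈ orbit ↥N α := by
  obtain ⟨n, rfl⟩ := hy
  refine ⟨⟨h * n.1 * h⁻¹, hN.conj_mem n.1 n.2 h⟩, ?_⟩
  show (h * n.1 * h⁻¹) • α = h • (n.1 • α)
  have : h⁻¹ • α = α := by rw [inv_smul_eq_iff, hh]
  rw [mul_smul, mul_smul, this]

end

theorem ncard_saturated {X : Type*} (Ω B : Set X) (hΩ : Ω.Finite) (hB : B ⊆ Ω) (I : X → ℤ) (vals : Finset ℤ)
    (hv : ∀ y ∈ Ω, I y ∈ vals) (hsat : ∀ y ∈ B, ∀ y' ∈ Ω, I y = I y' → y' ∈ B) :
    ∃ T ∈ vals.powerset, (∀ y ∈ B, I y ∈ T) ∧ B.ncard = ∑ c ∈ T, {y | y ∈ Ω ∧ I y = c}.ncard := by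
  classical
  have hBf : B.Finite := hΩ.subset hB
  refine ⟨vals.filter (fun c => ∃ y ∈ B, I y = c), Finset.mem_powerset.2 (Finset.filter_subset _ _), ?_, ?_⟩
  · intro y hy
    exact Finset.mem_filter.2 ⟨hv y (hB hy), y, hy, rfl⟩
  · rw [Set.ncard_eq_toFinset_card B hBf,
      Finset.card_eq_sum_card_fiberwise (f := I) (t := vals.filter (fun c => ∃ y ∈ B, I y = c))]
    · apply Finset.sum_congr rfl
      intro c hc
      obtain ⟨-, y0, hy0, hc0⟩ := Finset.mem_filter.1 hc
      rw [← Set.ncard_coe_finset]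
      congr 1
      ext y
      simp only [Finset.coe_filter, Set.Finite.mem_toFinset, Set.mem_ofPred_eq]
      constructor
      · rintro ⟨h1, h2⟩
        exact ⟨hB h1, h2⟩
      · rintro ⟨h1, h2⟩
        exact ⟨hsat y0 hy0 y h1 (by rw [hc0, h2]), h2⟩
    · intro y hy
      have hy' : y ∈ B := by simpa using hy
      exact Finset.mem_coe.2 (Finset.mem_filter.2 ⟨hv y (hB hy'), y, hy', rfl⟩)

section
variable {G X : Type*} [Group G] [MulAction G X]

/-- the orbit of a normal subgroup is a point or everything, by the subdegrees -/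
theorem normal_orbit_card (α : X) (m : ℕ) (hm : (orbit G α).ncard = m) (hm0 : m ≠ 0) (I : X → ℤ) (vals : Finset ℤ)
    (sz : ℤ → ℕ) (hv : ∀ y ∈ orbit G α, I y ∈ vals)
    (hsz : ∀ c ∈ vals, {y | y ∈ orbit G α ∧ I y = c}.ncard = sz c)
    (hconj : ∀ y ∈ orbit G α, ∀ y' ∈ orbit G α, I y = I y' → ∃ g : G, g • α = α ∧ g • y = y')
    (hnum : ∀ T ∈ vals.powerset, I α ∈ T → (∑ c ∈ T, sz c) ∣ m → (∑ c ∈ T, sz c) = 1 ∨ (∑ c ∈ T, sz c) = m)
    (N : Subgroup G) [N.Normal] : (orbit ↥N α).ncard = 1 ∨ (orbit ↥N α).ncard = m := by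
  have hfin : (orbit G α).Finite := Set.finite_of_ncard_ne_zero (by rw [hm]; exact hm0)
  obtain ⟨T, hT, h1, h2⟩ := ncard_saturated (orbit G α) (orbit ↥N α) hfin (orbit_normal_subset N α) I vals hv (by
    intro y hy y' hy' he
    obtain ⟨g, g1, g2⟩ := hconj y (orbit_normal_subset N α hy) y' hy' he
    rw [← g2]
    exact orbit_normal_stab N α g1 hy)
  have h3 : ∑ c ∈ T, {y | y ∈ orbit G α ∧ I y = c}.ncard = ∑ c ∈ T, sz c :=
    Finset.sum_congr rfl (fun c hc => hsz c (Finset.mem_powerset.1 hT hc))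
  rw [h3] at h2
  rw [h2]
  apply hnum T hT (h1 α (mem_orbit_self α))
  rw [← h2, ← hm]
  exact ncard_orbit_normal_dvd N α

theorem normal_eq_bot_of_orbit (α : X) (hfaith : ∀ g : G, (∀ x ∈ orbit G α, g • x = x) → g = 1)
    (N : Subgroup G) [hN : N.Normal] (h : (orbit ↥N α).ncard = 1) : N = ⊥ := by
  obtain ⟨a, ha⟩ := Set.ncard_eq_one.1 h
  have hα : α = a := by
    have : α ∈ orbit ↥N α := mem_orbit_self α
    rw [ha] at this
    exact this
  have hfix : ∀ n ∈ N, n • α = α := by
    intro n hn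
    have : n • α ∈ orbit ↥N α := ⟨⟨n, hn⟩, rfl⟩
    rw [ha, ← hα] at this
    exact this
  rw [eq_bot_iff]
  intro n hn
  rw [mem_bot]
  apply hfaith
  rintro _ ⟨g, rfl⟩
  have := hfix (g⁻¹ * n * g⁻¹⁻¹) (hN.conj_mem n hn g⁻¹)
  rw [inv_inv, mul_smul, mul_smul, inv_smul_eq_iff] at this
  exact this

theorem normal_trans_of_orbit (α : X) (N : Subgroup G) (hfin : (orbit G α).Finite)
    (h : (orbit ↥N α).ncard = (orbit G α).ncard) (g : G) : ∃ n ∈ N, n • α = g • α := by
  have : orbit ↥N α = orbit G α := Set.eq_of_subset_of_ncard_le (orbit_normal_subset N α) (by rw [h]) hfin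
  have h2 : g • α ∈ orbit ↥N α := by rw [this]; exact ⟨g, rfl⟩
  obtain ⟨n, hn⟩ := h2
  exact ⟨n.1, n.2, hn⟩

theorem ncard_orbit_dvd_card (α : X) (N : Subgroup G) : (orbit ↥N α).ncard ∣ Nat.card N := by
  rw [← index_stabilizer]
  exact index_dvd_card _

/-- a normal subgroup contains a simple point stabiliser or acts semiregularly -/
theorem stab_le_or_regular (α : X) (hH : IsSimpleGroup (stabilizer G α)) (N : Subgroup G) [hN : N.Normal] :
    stabilizer G α ≤ N ∨ Nat.card N = (orbit ↥N α).ncard := by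
  have hn : (N.subgroupOf (stabilizer G α)).Normal := hN.subgroupOf _
  rcases hH.eq_bot_or_eq_top_of_normal _ hn with h | h
  · right
    rw [← index_stabilizer]
    have : stabilizer ↥N α = ⊥ := by
      rw [eq_bot_iff]
      intro n hn'
      rw [mem_bot]
      have h1 : (⟨n.1, hn'⟩ : stabilizer G α) ∈ N.subgroupOf (stabilizer G α) := by
        rw [mem_subgroupOf]; exact n.2
      rw [h, mem_bot] at h1
      exact Subtype.ext (congrArg (fun z : stabilizer G α => z.1) h1)
    rw [this, index_bot]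
  · left
    rwa [subgroupOf_eq_top] at h

/-- a transitive normal subgroup is everything or regular, when the point stabiliser is simple -/
theorem normal_top_or_regular (α : X) (hH : IsSimpleGroup (stabilizer G α)) (N : Subgroup G) [hN : N.Normal]
    (ht : ∀ g : G, ∃ n ∈ N, n • α = g • α) : N = ⊤ ∨ Nat.card N = (orbit ↥N α).ncard := by
  rcases stab_le_or_regular α hH N with h | h
  · left
    rw [eq_top_iff]
    intro g _
    obtain ⟨n, hn', he⟩ := ht g
    have : n⁻¹ * g ∈ stabilizer G α := by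
      rw [mem_stabilizer_iff, mul_smul, ← he, inv_smul_smul]
    have h2 := N.mul_mem hn' (h this)
    rwa [mul_inv_cancel_left] at h2
  · exact Or.inr h

/-- the order of a normal subgroup, given a simple subgroup that is a point stabiliser: it is a multiple of the order
of the simple subgroup or it divides the index -/
theorem card_normal_of_simple_stab (α : X) (hH : IsSimpleGroup (stabilizer G α)) (N : Subgroup G) [hN : N.Normal] :
    Nat.card (stabilizer G α) ∣ Nat.card N ∨ Nat.card N ∣ (stabilizer G α).index := by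
  rcases stab_le_or_regular α hH N with h | h
  · exact Or.inl (card_dvd_of_le h)
  · right
    rw [h, index_stabilizer]
    exact ncard_orbit_normal_dvd N α

/-- the criterion -/
theorem simple_of_primitive (α : X) (hfin : (orbit G α).Finite) (hH : IsSimpleGroup (stabilizer G α))
    (hfaith : ∀ g : G, (∀ x ∈ orbit G α, g • x = x) → g = 1)
    (hprim : ∀ N : Subgroup G, N.Normal → (orbit ↥N α).ncard = 1 ∨ (orbit ↥N α).ncard = (orbit G α).ncard)
    (hreg : ∀ N : Subgroup G, N.Normal → N ≠ ⊥ → Nat.card N ≠ (orbit G α).ncard) : IsSimpleGroup G := by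
  have hnt : Nontrivial G := by
    obtain ⟨a, b, hab⟩ := hH.exists_pair_ne
    exact ⟨a.1, b.1, fun h => hab (Subtype.ext h)⟩
  refine ⟨fun N hN => ?_⟩
  by_cases hb : N = ⊥
  · exact Or.inl hb
  right
  rcases hprim N hN with h | h
  · exact absurd (normal_eq_bot_of_orbit α hfaith N h) hb
  · rcases normal_top_or_regular α hH N (normal_trans_of_orbit α N hfin h) with h2 | h2
    · exact h2
    · exact absurd (h2.trans h) (hreg N hN hb)

end

theorem no_normal_card_100 {G : Type*} [Group G] [Finite G]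
    (hbig : ∀ N : Subgroup G, N.Normal → N ≠ ⊥ → 100 ∣ Nat.card N) (N : Subgroup G) (hN : N.Normal) :
    Nat.card N ≠ 100 := by
  intro hc
  have : Fact (Nat.Prime 5) := ⟨by norm_num⟩
  obtain ⟨P⟩ : Nonempty (Sylow 5 N) := inferInstance
  have h1 : Nat.card (Sylow 5 N) ≡ 1 [MOD 5] := card_sylow_modEq_one 5 N
  have h2 : Nat.card (Sylow 5 N) ∣ (P : Subgroup N).index := P.card_dvd_index
  have h3 : Nat.card (P : Subgroup N) * (P : Subgroup N).index = 100 := by rw [card_mul_index, hc]
  have h4 : ¬ 5 ∣ (P : Subgroup N).index := P.not_dvd_index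
  obtain ⟨n, h5⟩ := P.2.exists_card_eq
  have h5' : Nat.card (P : Subgroup N) = 5 ^ n := h5
  rw [h5'] at h3
  have hn : n < 3 := by
    by_contra hn
    have : 5 ^ 3 ∣ 5 ^ n := pow_dvd_pow 5 (by omega)
    have h6 : 5 ^ 3 ∣ 100 := by rw [← h3]; exact Dvd.dvd.mul_right this _
    norm_num at h6
  have hidx : (P : Subgroup N).index = 4 ∧ n = 2 := by
    interval_cases n
    · exfalso; apply h4; omega
    · exfalso; apply h4; omega
    · omega
  rw [hidx.1] at h2
  have h7 : Nat.card (Sylow 5 N) = 1 := by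
    have hle : Nat.card (Sylow 5 N) ≤ 4 := Nat.le_of_dvd (by norm_num) h2
    unfold Nat.ModEq at h1
    interval_cases h : Nat.card (Sylow 5 N) <;> simp_all
  have : Subsingleton (Sylow 5 N) := (Nat.card_eq_one_iff_unique.1 h7).1
  have : (P : Subgroup N).Characteristic := Sylow.characteristic_of_subsingleton P
  have h8 : ((P : Subgroup N).map N.subtype).Normal := ConjAct.normal_of_characteristic_of_normal
  have h9 : Nat.card ((P : Subgroup N).map N.subtype) = 25 := by
    rw [card_map_of_injective N.subtype_injective, h5', hidx.2]; norm_num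
  have h10 := hbig _ h8 (by
    intro hb
    rw [hb, card_bot] at h9
    norm_num at h9)
  rw [h9] at h10
  norm_num at h10

end Cfsg.Agent.Lib.Helper10
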