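/-
Primitive actions of subgroups of the automorphism group of the Leech lattice on sets of minimal vectors, and the
resulting simplicity criterion.
-/
import Cfsg.Agent.Lib.Helper10.SimpleCrit
import Cfsg.Agent.Lib.Helper10.LeechTri3
set_option autoImplicit false
open Cfsg Cfsg.Agent.Lib.Helper28 MulAction
namespace Cfsg.Agent.Lib.Helper10

structure PrimData (S : Subgroup Co0) (Ω : Set leechLattice) (α : leechLattice) (m : ℕ) (vals : Finset ℤ)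
    (sz : ℤ → ℕ) : Prop where
  mem : α ∈ Ω
  nrm : ∀ y ∈ Ω, sqNorm y.1 = 32
  inv : ∀ g ∈ S, ∀ x ∈ Ω, g • x ∈ Ω
  tr : ∀ x ∈ Ω, ∃ g ∈ S, g • α = x
  card : Ω.ncard = m
  pos : m ≠ 0
  v : ∀ y ∈ Ω, dotInt α.1 y.1 ∈ vals
  s : ∀ c ∈ vals, {y | y ∈ Ω ∧ dotInt α.1 y.1 = c}.ncard = sz c
  conj : ∀ y ∈ Ω, ∀ y' ∈ Ω, dotInt α.1 y.1 = dotInt α.1 y'.1 → ∃ g ∈ S, g • α = α ∧ g • y = y'
  num : ∀ T ∈ vals.powerset, (32 : ℤ) ∈ T → (∑ c ∈ T, sz c) ∣ m → (∑ c ∈ T, sz c) = 1 ∨ (∑ c ∈ T, sz c) = m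

theorem ncard_dot32 {Ω : Set leechLattice} {α : leechLattice} (hα : α ∈ Ω) (hn : ∀ y ∈ Ω, sqNorm y.1 = 32) :
    {y | y ∈ Ω ∧ dotInt α.1 y.1 = 32}.ncard = 1 := by
  have : {y | y ∈ Ω ∧ dotInt α.1 y.1 = 32} = {α} := by
    ext y
    simp only [Set.mem_ofPred_eq, Set.mem_singleton_iff]
    constructor
    · rintro ⟨h1, h2⟩
      exact eq_of_dot_eq (hn α hα) (hn y h1) h2
    · rintro rfl
      exact ⟨hα, by rw [dotInt_self]; exact hn y hα⟩
  rw [this, Set.ncard_singleton]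

/-- the stabiliser of a vector in a subgroup -/
def stabSubEquiv (S : Subgroup Co0) (α : leechLattice) : stabilizer ↥S α ≃* ↥(S ⊓ stabilizer Co0 α) where
  toFun g := ⟨g.1.1, ⟨g.1.2, g.2⟩⟩
  invFun g := ⟨⟨g.1, g.2.1⟩, g.2.2⟩
  left_inv _ := rfl
  right_inv _ := rfl
  map_mul' _ _ := rfl

namespace PrimData

variable {S : Subgroup Co0} {Ω : Set leechLattice} {α : leechLattice} {m : ℕ} {vals : Finset ℤ} {sz : ℤ → ℕ}

theorem orbit_eq (h : PrimData S Ω α m vals sz) : orbit ↥S α = Ω := by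
  ext x
  constructor
  · rintro ⟨g, rfl⟩
    exact h.inv g.1 g.2 α h.mem
  · intro hx
    obtain ⟨g, hg, rfl⟩ := h.tr x hx
    exact ⟨⟨g, hg⟩, rfl⟩

theorem orbit_card (h : PrimData S Ω α m vals sz) (N : Subgroup ↥S) [N.Normal] :
    (orbit ↥N α).ncard = 1 ∨ (orbit ↥N α).ncard = m := by
  apply normal_orbit_card (G := ↥S) α m (by rw [h.orbit_eq, h.card]) h.pos (fun y => dotInt α.1 y.1) vals sz
  · rw [h.orbit_eq]; exact h.v
  · rw [h.orbit_eq]; exact h.s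
  · rw [h.orbit_eq]
    intro y hy y' hy' he
    obtain ⟨g, hg, g1, g2⟩ := h.conj y hy y' hy' he
    exact ⟨⟨g, hg⟩, g1, g2⟩
  · intro T hT h32
    apply h.num T hT
    have : dotInt α.1 α.1 = 32 := by rw [dotInt_self]; exact h.nrm α h.mem
    rw [← this]; exact h32

theorem faith' (h : PrimData S Ω α m vals sz) (hf : ∀ g ∈ S, (∀ x ∈ Ω, g • x = x) → g = 1) :
    ∀ g : ↥S, (∀ x ∈ orbit ↥S α, g • x = x) → g = 1 := by
  rw [h.orbit_eq]
  intro g hg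
  exact Subtype.ext (hf g.1 g.2 hg)

theorem orbit_card_of_ne (h : PrimData S Ω α m vals sz) (hf : ∀ g ∈ S, (∀ x ∈ Ω, g • x = x) → g = 1)
    (N : Subgroup ↥S) [N.Normal] (hb : N ≠ ⊥) : (orbit ↥N α).ncard = m := by
  rcases h.orbit_card N with h1 | h1
  · exact absurd (normal_eq_bot_of_orbit α (h.faith' hf) N h1) hb
  · exact h1

theorem dvd_card (h : PrimData S Ω α m vals sz) (hf : ∀ g ∈ S, (∀ x ∈ Ω, g • x = x) → g = 1)
    (N : Subgroup ↥S) [N.Normal] (hb : N ≠ ⊥) : m ∣ Nat.card N := by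
  rw [← h.orbit_card_of_ne hf N hb]
  exact ncard_orbit_dvd_card α N

theorem finite (h : PrimData S Ω α m vals sz) : Ω.Finite :=
  Set.finite_of_ncard_ne_zero (by rw [h.card]; exact h.pos)

theorem trans_of_ne (h : PrimData S Ω α m vals sz) (hf : ∀ g ∈ S, (∀ x ∈ Ω, g • x = x) → g = 1)
    (N : Subgroup ↥S) [N.Normal] (hb : N ≠ ⊥) {x : leechLattice} (hx : x ∈ Ω) : ∃ n ∈ N, n • α = x := by
  obtain ⟨g, hg, rfl⟩ := h.tr x hx
  exact normal_trans_of_orbit α N (by rw [h.orbit_eq]; exact h.finite)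
    (by rw [h.orbit_card_of_ne hf N hb, h.orbit_eq, h.card]) ⟨g, hg⟩

theorem simple (h : PrimData S Ω α m vals sz) (hf : ∀ g ∈ S, (∀ x ∈ Ω, g • x = x) → g = 1)
    (hH : IsSimpleGroup ↥(S ⊓ stabilizer Co0 α))
    (hreg : ∀ N : Subgroup ↥S, N.Normal → N ≠ ⊥ → Nat.card N ≠ m) : IsSimpleGroup ↥S := by
  apply simple_of_primitive (G := ↥S) α (by rw [h.orbit_eq]; exact h.finite)
    (stabSubEquiv S α).isSimpleGroup (h.faith' hf)
  · intro N hN
    rw [h.orbit_eq, h.card]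
    exact h.orbit_card N
  · rw [h.orbit_eq, h.card]
    exact hreg

theorem card_eq (h : PrimData S Ω α m vals sz) : Nat.card ↥(S ⊓ stabilizer Co0 α) * m = Nat.card ↥S := by
  rw [← Nat.card_congr (stabSubEquiv S α).toEquiv, ← h.card, ← h.orbit_eq, ← index_stabilizer]
  exact Subgroup.card_mul_index _

end PrimData

end Cfsg.Agent.Lib.Helper10
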