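/-
Primitivity data from an orbit certificate; transport of stabilisers by conjugation; orders of vector stabilisers.
-/
import Cfsg.Agent.Lib.Helper10.LeechPrim
import Cfsg.Agent.Lib.Helper10.LeechOrder
set_option autoImplicit false
open Cfsg Cfsg.Agent.Lib.Helper28 MulAction
namespace Cfsg.Agent.Lib.Helper10

theorem OmG_smul {p q : leechLattice} {a1 a2 : ℤ} {g : Co0} (g1 : g • p = p) (g2 : g • q = q) {x : leechLattice}
    (hx : x ∈ OmG p q a1 a2) : g • x ∈ OmG p q a1 a2 := by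
  obtain ⟨h1, h2, h3⟩ := hx
  refine ⟨by rw [Co0_sqNorm]; exact h1, ?_, ?_⟩
  · rw [Cert.dot_tr g1]; exact h2
  · rw [Cert.dot_tr g2]; exact h3

theorem Cert.primData {C : Cert} {a1 a2 : ℤ} (h : C.Good a1 a2) {p q r : leechLattice} {g0 : Co0}
    (h1 : g0 • p = C.t1) (h2 : g0 • q = C.t2) (h3 : g0 • r = C.t3) (hr : r ∈ OmG p q a1 a2)
    (htr : ∀ x ∈ OmG p q a1 a2, ∃ g : Co0, g • p = p ∧ g • q = q ∧ g • r = x)
    (m : ℕ) (hm : C.n = m) (hm0 : m ≠ 0) (vals : Finset ℤ) (sz : ℤ → ℕ)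
    (hv1 : ∀ c, c < C.rts.length → C.rinv c ∈ vals ∧ sz (C.rinv c) = C.cntCl c)
    (hv2 : ∀ a ∈ vals, ∃ c, c < C.rts.length ∧ C.rinv c = a)
    (hnum : ∀ T ∈ vals.powerset, (32 : ℤ) ∈ T → (∑ c ∈ T, sz c) ∣ m → (∑ c ∈ T, sz c) = 1 ∨ (∑ c ∈ T, sz c) = m) :
    PrimData (stabilizer Co0 p ⊓ stabilizer Co0 q) (OmG p q a1 a2) r m vals sz where
  mem := hr
  nrm := fun y hy => hy.1
  inv := by
    rintro g ⟨g1, g2⟩ x hx
    exact OmG_smul g1 g2 hx
  tr := by
    intro x hx
    obtain ⟨g, g1, g2, g3⟩ := htr x hx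
    exact ⟨g, ⟨g1, g2⟩, g3⟩
  card := by rw [Cert.ncard_tr h h1 h2, hm]
  pos := hm0
  v := by
    intro y hy
    obtain ⟨c, hc, he⟩ := Cert.inv_tr h h1 h2 h3 hy
    rw [he]
    exact (hv1 c hc).1
  s := by
    intro a ha
    obtain ⟨c, hc, rfl⟩ := hv2 a ha
    rw [Cert.ncard_inv_tr h h1 h2 h3 hc, (hv1 c hc).2]
  conj := by
    intro y hy y' hy' he
    obtain ⟨g, g1, g2, g3, g4⟩ := Cert.conj_tr h h1 h2 h3 hy hy' he
    exact ⟨g, ⟨g1, g2⟩, g3, g4⟩
  num := hnum

theorem stab_neg (w : leechLattice) : stabilizer Co0 (-w) = stabilizer Co0 w := by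
  ext g
  rw [mem_stabilizer_iff, mem_stabilizer_iff, Co0_smul_neg, neg_inj]

theorem fix3_smul (g : Co0) (a b c : leechLattice) :
    fix3 (g • a) (g • b) (g • c) = (fix3 a b c).map (MulAut.conj g).toMonoidHom := by
  unfold fix3
  rw [stabilizer_smul_eq_stabilizer_map_conj, stabilizer_smul_eq_stabilizer_map_conj,
    stabilizer_smul_eq_stabilizer_map_conj, Subgroup.map_inf _ _ _ (MulAut.conj g).injective,
    Subgroup.map_inf _ _ _ (MulAut.conj g).injective]

theorem simple_fix3_of_smul (g : Co0) (a b c : leechLattice) (h : IsSimpleGroup ↥(fix3 (g • a) (g • b) (g • c))) :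
    IsSimpleGroup ↥(fix3 a b c) := by
  rw [fix3_smul] at h
  exact (Subgroup.equivMapOfInjective (fix3 a b c) (MulAut.conj g).toMonoidHom (MulAut.conj g).injective).isSimpleGroup

instance finite_Co0 : Finite Co0 := Nat.finite_of_card_ne_zero (by rw [card_Co0]; norm_num)

theorem ncard_sub_norm (n : ℤ) : {v : leechLattice | sqNorm v.1 = n}.ncard =
    {x : GolayPt → ℤ | x ∈ leechLattice ∧ sqNorm x = n}.ncard := by
  rw [← Set.ncard_image_of_injective _ Subtype.val_injective]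
  congr 1
  ext x
  simp only [Set.mem_image, Set.mem_ofPred_eq, Subtype.exists, exists_and_left, exists_prop, exists_eq_right_right]
  tauto

theorem card_stab32 {v : leechLattice} (hv : sqNorm v.1 = 32) : Nat.card ↥(stabilizer Co0 v) = 42305421312000 := by
  have h := (stabilizer Co0 v).card_mul_index
  have ho : orbit Co0 v = {x : leechLattice | sqNorm x.1 = 32} := by
    ext x
    constructor
    · rintro ⟨g, rfl⟩
      show sqNorm (g • v : leechLattice).1 = 32
      rw [Co0_sqNorm, hv]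
    · intro hx
      exact Co0_trans32 _ _ hv hx
  rw [index_stabilizer, ho, ncard_sub_norm, ncard_norm32, card_Co0] at h
  omega

theorem card_stab48 {v : leechLattice} (hv : sqNorm v.1 = 48) : Nat.card ↥(stabilizer Co0 v) = 495766656000 := by
  have h := (stabilizer Co0 v).card_mul_index
  have ho : orbit Co0 v = {x : leechLattice | sqNorm x.1 = 48} := by
    ext x
    constructor
    · rintro ⟨g, rfl⟩
      show sqNorm (g • v : leechLattice).1 = 48
      rw [Co0_sqNorm, hv]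
    · intro hx
      exact Co0_trans48 _ _ hv hx
  rw [index_stabilizer, ho, ncard_sub_norm, ncard_norm48, card_Co0] at h
  omega

end Cfsg.Agent.Lib.Helper10
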