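/-
Simplicity and orders of the stabilisers giving the Higman-Sims group, the McLaughlin group and the third Conway group.
-/
import Cfsg.Agent.Lib.Helper10.LeechPrim2
import Cfsg.Agent.Lib.Helper10.LeechM22
import Cfsg.Agent.Lib.Helper10.SpanData
set_option autoImplicit false
open Cfsg Cfsg.Agent.Lib.Helper28 MulAction
namespace Cfsg.Agent.Lib.Helper10

/-! ### the action of the stabiliser of a vector of norm 48 on 11178 vectors -/

def szCo3 : ℤ → ℕ := fun c => if c = 32 then 1 else if c = 16 then 1100 else if c = 8 then 5600 else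
  if c = 0 then 4125 else 352

theorem Co3_prim {u x : leechLattice} (hu : sqNorm u.1 = 48) (hx : x ∈ S11178 u) :
    PrimData (stabilizer Co0 u) (OmG (-u) (-u) 16 16) x 11178 {32, 16, 8, 0, -8} szCo3 := by
  obtain ⟨g, h1, h3⟩ := exists_std_J hu hx
  have hx' := hx
  rw [S11178_eq] at hx'
  have htr : ∀ y ∈ OmG (-u) (-u) 16 16, ∃ k : Co0, k • (-u) = -u ∧ k • (-u) = -u ∧ k • x = y := by
    intro y hy
    rw [← S11178_eq] at hy
    obtain ⟨k, k1, k2⟩ := trans11178 hu hx hy
    exact ⟨k, by rw [Co0_smul_neg, k1], by rw [Co0_smul_neg, k1], k2⟩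
  have P := Cert.primData certJ_good (g0 := g) (p := -u) (q := -u) (r := x) h1 h1 h3 hx' htr 11178 rfl (by norm_num)
    {32, 16, 8, 0, -8} szCo3 (by
      intro c hc
      have hc5 : c < 5 := hc
      interval_cases c
      · rw [certJ_rinv0, certJ_cnt0]; exact ⟨by decide, rfl⟩
      · rw [certJ_rinv1, certJ_cnt1]; exact ⟨by decide, rfl⟩
      · rw [certJ_rinv2, certJ_cnt2]; exact ⟨by decide, rfl⟩
      · rw [certJ_rinv3, certJ_cnt3]; exact ⟨by decide, rfl⟩
      · rw [certJ_rinv4, certJ_cnt4]; exact ⟨by decide, rfl⟩) (by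
      intro a ha
      simp only [Finset.mem_insert, Finset.mem_singleton] at ha
      rcases ha with rfl | rfl | rfl | rfl | rfl
      · exact ⟨0, by decide, certJ_rinv0⟩
      · exact ⟨1, by decide, certJ_rinv1⟩
      · exact ⟨2, by decide, certJ_rinv2⟩
      · exact ⟨3, by decide, certJ_rinv3⟩
      · exact ⟨4, by decide, certJ_rinv4⟩) (by decide +kernel)
  rw [stab_neg, inf_idem] at P
  exact P

theorem Co3_faith {u : leechLattice} (hu : sqNorm u.1 = 48) :
    ∀ g ∈ stabilizer Co0 u, (∀ x ∈ OmG (-u) (-u) 16 16, g • x = x) → g = 1 := by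
  obtain ⟨g0, h0⟩ := exists_std_E hu
  intro g hg hx
  have hg' : g • (-u) = -u := by rw [Co0_smul_neg, mem_stabilizer_iff.1 hg]
  exact Cert.faithful_tr certE_valid spanE_chk (by decide +kernel) h0 h0 g hg' hg' hx

/-! ### the Higman-Sims group -/

theorem stab_pair_eq (v w : leechLattice) :
    stabilizer Co0 v ⊓ stabilizer Co0 (-(v + w)) = stabilizer Co0 v ⊓ stabilizer Co0 w := by
  ext g
  simp only [Subgroup.mem_inf, mem_stabilizer_iff]
  constructor
  · rintro ⟨g1, g2⟩
    refine ⟨g1, ?_⟩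
    rw [Co0_smul_neg, Co0_smul_add, g1, neg_inj] at g2
    exact add_left_cancel g2
  · rintro ⟨g1, g2⟩
    exact ⟨g1, by rw [Co0_smul_neg, Co0_smul_add, g1, g2]⟩

theorem HS_mem {v w : leechLattice} (h : IsHSPair v w) : -(v + w) ∈ S11178 v := by
  obtain ⟨hv, hw, hd⟩ := h
  refine ⟨?_, ?_⟩
  · rw [sqNorm_neg']
    show sqNorm (v.1 + w.1) = 32
    rw [sqNorm_add, hv, hw, hd]; norm_num
  · rw [dot_neg_right, dot_add_right, dotInt_self, hv, hd]; norm_num

theorem HS_card {v w : leechLattice} (h : IsHSPair v w) :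
    Nat.card ↥(stabilizer Co0 v ⊓ stabilizer Co0 w) = 44352000 := by
  have := (Co3_prim h.1 (HS_mem h)).card_eq
  rw [stab_pair_eq, card_stab48 h.1] at this
  omega

def szHS : ℤ → ℕ := fun c => if c = 32 then 1 else if c = 8 then 22 else 77

theorem HS_prim {v w x : leechLattice} (h : IsHSPair v w) (hx : x ∈ S100 v w) :
    PrimData (stabilizer Co0 v ⊓ stabilizer Co0 w) (OmG v (-w) 24 24) x 100 {32, 8, 16} szHS := by
  obtain ⟨g, h1, h2, h3⟩ := exists_std_HS3 h hx
  have hx' := hx
  rw [S100_eq] at hx'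
  have htr : ∀ y ∈ OmG v (-w) 24 24, ∃ k : Co0, k • v = v ∧ k • (-w) = -w ∧ k • x = y := by
    intro y hy
    rw [← S100_eq] at hy
    obtain ⟨k, k1, k2, k3⟩ := trans100 h hx hy
    exact ⟨k, k1, by rw [Co0_smul_neg, k2], k3⟩
  have P := Cert.primData certG_good (g0 := g) (p := v) (q := -w) (r := x) h1 h2 h3 hx' htr 100 rfl (by norm_num)
    {32, 8, 16} szHS (by
      intro c hc
      have hc3 : c < 3 := hc
      interval_cases c
      · rw [certG_rinv0, certG_cnt0]; exact ⟨by decide, rfl⟩
      · rw [certG_rinv1, certG_cnt1]; exact ⟨by decide, rfl⟩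
      · rw [certG_rinv2, certG_cnt2]; exact ⟨by decide, rfl⟩) (by
      intro a ha
      simp only [Finset.mem_insert, Finset.mem_singleton] at ha
      rcases ha with rfl | rfl | rfl
      · exact ⟨0, by decide, certG_rinv0⟩
      · exact ⟨1, by decide, certG_rinv1⟩
      · exact ⟨2, by decide, certG_rinv2⟩) (by decide +kernel)
  rw [stab_neg] at P
  exact P

theorem HS_faith {v w : leechLattice} (h : IsHSPair v w) :
    ∀ g ∈ stabilizer Co0 v ⊓ stabilizer Co0 w, (∀ x ∈ OmG v (-w) 24 24, g • x = x) → g = 1 := by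
  obtain ⟨g0, h1, h2⟩ := exists_std_HS h
  rintro g ⟨g1, g2⟩ hx
  have g2' : g • (-w) = -w := by rw [Co0_smul_neg, mem_stabilizer_iff.1 g2]
  exact Cert.faithful_tr certF_valid spanF_chk (by decide +kernel) h1 h2 g g1 g2' hx

theorem HS_simple {v w : leechLattice} (h : IsHSPair v w) :
    IsSimpleGroup ↥(stabilizer Co0 v ⊓ stabilizer Co0 w) := by
  have hne : (S100 v w).Nonempty := Set.nonempty_of_ncard_ne_zero (by rw [card100 h]; norm_num)
  obtain ⟨x, hx⟩ := hne
  have P := HS_prim h hx
  have hf := HS_faith h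
  apply P.simple hf
  · obtain ⟨g, h1, h2, h3⟩ := exists_std_HS3 h hx
    have : IsSimpleGroup ↥(fix3 v (-w) x) := simple_fix3_of_smul g _ _ _ (by rw [h1, h2, h3]; exact simple_fix_std)
    unfold fix3 at this
    rw [stab_neg] at this
    exact this
  · intro N hN _
    exact no_normal_card_100 (fun N' hN' hb' => by
      have := hN'
      exact P.dvd_card hf N' hb') N hN

/-! ### the McLaughlin group -/

theorem McL_pair {v w : leechLattice} (h : IsMcLPair v w) : IsPair (v + w) v := by
  obtain ⟨hv, hw, hd⟩ := h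
  refine ⟨?_, hv, ?_⟩
  · show sqNorm (v.1 + w.1) = 48
    rw [sqNorm_add, hv, hw, hd]; norm_num
  · have : (v + w : leechLattice).1 - v.1 = w.1 := by
      show v.1 + w.1 - v.1 = w.1
      abel
    rw [this, hw]

theorem stab_sum_eq (v w : leechLattice) :
    stabilizer Co0 (v + w) ⊓ stabilizer Co0 v = stabilizer Co0 v ⊓ stabilizer Co0 w := by
  ext g
  simp only [Subgroup.mem_inf, mem_stabilizer_iff]
  constructor
  · rintro ⟨g1, g2⟩
    refine ⟨g2, ?_⟩
    rw [Co0_smul_add, g2] at g1
    exact add_left_cancel g1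
  · rintro ⟨g1, g2⟩
    exact ⟨by rw [Co0_smul_add, g1, g2], g1⟩

theorem card_inf_stab (S : Subgroup Co0) (Ω : Set leechLattice) (α : leechLattice) (hα : α ∈ Ω)
    (hinv : ∀ g ∈ S, ∀ x ∈ Ω, g • x ∈ Ω) (htr : ∀ x ∈ Ω, ∃ g ∈ S, g • α = x) :
    Nat.card ↥(S ⊓ stabilizer Co0 α) * Ω.ncard = Nat.card ↥S := by
  have ho : orbit ↥S α = Ω := by
    ext x
    constructor
    · rintro ⟨g, rfl⟩
      exact hinv g.1 g.2 α hα
    · intro hx
      obtain ⟨g, hg, rfl⟩ := htr x hx
      exact ⟨⟨g, hg⟩, rfl⟩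
  rw [← Nat.card_congr (stabSubEquiv S α).toEquiv, ← ho, ← index_stabilizer]
  exact Subgroup.card_mul_index _

theorem McL_card {v w : leechLattice} (h : IsMcLPair v w) :
    Nat.card ↥(stabilizer Co0 v ⊓ stabilizer Co0 w) = 898128000 := by
  have hp := McL_pair h
  have := card_inf_stab (stabilizer Co0 (v + w)) {x : leechLattice | sqNorm x.1 = 32 ∧ sqNorm ((v + w : leechLattice).1 - x.1) = 32}
    v ⟨hp.2.1, hp.2.2⟩ (by
      rintro g hg x ⟨h1, h2⟩
      refine ⟨by rw [Co0_sqNorm]; exact h1, ?_⟩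
      have e : (v + w : leechLattice).1 - (g • x : leechLattice).1 = (g • ((v + w) - x) : leechLattice).1 := by
        rw [Co0_smul_sub, mem_stabilizer_iff.1 hg]; rfl
      rw [e, Co0_sqNorm]
      exact h2) (by
      intro x hx
      obtain ⟨g, g1, g2⟩ := trans552 (v + w) v x hp.1 ⟨hp.2.1, hp.2.2⟩ hx
      exact ⟨g, g1, g2⟩)
  rw [card552 _ hp.1, stab_sum_eq, card_stab48 hp.1] at this
  omega

def szMcL : ℤ → ℕ := fun c => if c = 32 then 1 else if c = 0 then 330 else if c = 8 then 1232 else 462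

theorem McL_prim {v w x : leechLattice} (h : IsMcLPair v w) (hx : x ∈ OmG v w 0 16) :
    PrimData (stabilizer Co0 v ⊓ stabilizer Co0 w) (OmG v w 0 16) x 2025 {32, 0, 8, 16} szMcL := by
  obtain ⟨g, h1, h2, h3⟩ := exists_std_McL3 h hx
  exact Cert.primData certI_good (g0 := g) h1 h2 h3 hx (fun y hy => trans2025 h hx hy) 2025 rfl (by norm_num)
    {32, 0, 8, 16} szMcL (by
      intro c hc
      have hc4 : c < 4 := hc
      interval_cases c
      · rw [certI_rinv0, certI_cnt0]; exact ⟨by decide, rfl⟩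
      · rw [certI_rinv1, certI_cnt1]; exact ⟨by decide, rfl⟩
      · rw [certI_rinv2, certI_cnt2]; exact ⟨by decide, rfl⟩
      · rw [certI_rinv3, certI_cnt3]; exact ⟨by decide, rfl⟩) (by
      intro a ha
      simp only [Finset.mem_insert, Finset.mem_singleton] at ha
      rcases ha with rfl | rfl | rfl | rfl
      · exact ⟨0, by decide, certI_rinv0⟩
      · exact ⟨1, by decide, certI_rinv1⟩
      · exact ⟨2, by decide, certI_rinv2⟩
      · exact ⟨3, by decide, certI_rinv3⟩) (by decide +kernel)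

theorem McL_faith {v w : leechLattice} (h : IsMcLPair v w) :
    ∀ g ∈ stabilizer Co0 v ⊓ stabilizer Co0 w, (∀ x ∈ OmG v w 0 16, g • x = x) → g = 1 := by
  obtain ⟨g0, h1, h2⟩ := exists_std_McL h
  rintro g ⟨g1, g2⟩ hx
  exact Cert.faithful_tr certH_valid spanH_chk (by decide +kernel) h1 h2 g g1 g2 hx

def szMcL' : ℤ → ℕ := fun c => if c = 32 then 1 else if c = 8 then 112 else 162

theorem McL_prim' {u v x : leechLattice} (h : IsPair u v) (hx : x ∈ S275 u v) :
    PrimData (stabilizer Co0 u ⊓ stabilizer Co0 v) (OmG u v 24 16) x 275 {32, 8, 16} szMcL' := by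
  obtain ⟨g, h1, h2, h3⟩ := exists_std_triple h hx
  have hx' := hx
  rw [S275_eq h] at hx'
  exact Cert.primData certD_good (g0 := g) h1 h2 h3 hx' (fun y hy => trans275 h hx (by rw [S275_eq h]; exact hy))
    275 rfl (by norm_num) {32, 8, 16} szMcL' (by
      intro c hc
      have hc3 : c < 3 := hc
      interval_cases c
      · rw [certD_rinv0, certD_cnt0]; exact ⟨by decide, rfl⟩
      · rw [certD_rinv1, certD_cnt1]; exact ⟨by decide, rfl⟩
      · rw [certD_rinv2, certD_cnt2]; exact ⟨by decide, rfl⟩) (by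
      intro a ha
      simp only [Finset.mem_insert, Finset.mem_singleton] at ha
      rcases ha with rfl | rfl | rfl
      · exact ⟨0, by decide, certD_rinv0⟩
      · exact ⟨1, by decide, certD_rinv1⟩
      · exact ⟨2, by decide, certD_rinv2⟩) (by decide +kernel)

theorem McL_faith' {u v : leechLattice} (h : IsPair u v) :
    ∀ g ∈ stabilizer Co0 u ⊓ stabilizer Co0 v, (∀ x ∈ OmG u v 24 16, g • x = x) → g = 1 := by
  obtain ⟨g0, h1, h2⟩ := exists_std_pair h
  rintro g ⟨g1, g2⟩ hx
  exact Cert.faithful_tr certC_valid spanC_chk (by decide +kernel) h1 h2 g g1 g2 hx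

theorem std_U0_eq : stdU0 = certI.t1 + certI.t2 :=
  vecOf_add (by decide +kernel) (by decide +kernel) (by decide +kernel) (by decide +kernel)

theorem std_U0_eq' : stdU0 = stdU1 + certI.t3 :=
  vecOf_add (by decide +kernel) (by decide +kernel) (by decide +kernel) (by decide +kernel)

theorem fix3_I : fix3 certI.t1 certI.t2 certI.t3 = fix3 stdU0 stdU1 stdV0 := by
  have e0 : certI.t1 = stdV0 := rfl
  ext g
  rw [mem_fix3, mem_fix3]
  constructor
  · rintro ⟨g1, g2, g3⟩
    have a1 : g • stdU0 = stdU0 := by rw [std_U0_eq, Co0_smul_add, g1, g2]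
    refine ⟨a1, ?_, by rw [← e0]; exact g1⟩
    have := a1
    rw [std_U0_eq', Co0_smul_add, g3] at this
    exact add_right_cancel this
  · rintro ⟨g1, g2, g3⟩
    rw [← e0] at g3
    refine ⟨g3, ?_, ?_⟩
    · have := g1
      rw [std_U0_eq, Co0_smul_add, g3] at this
      exact add_left_cancel this
    · have := g1
      rw [std_U0_eq', Co0_smul_add, g2] at this
      exact add_left_cancel this

theorem McL_simple {v w : leechLattice} (h : IsMcLPair v w) :
    IsSimpleGroup ↥(stabilizer Co0 v ⊓ stabilizer Co0 w) := by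
  have hne : (OmG v w 0 16).Nonempty := Set.nonempty_of_ncard_ne_zero (by rw [card2025 h]; norm_num)
  obtain ⟨x, hx⟩ := hne
  have P := McL_prim h hx
  have hf := McL_faith h
  apply P.simple hf
  · obtain ⟨g, h1, h2, h3⟩ := exists_std_McL3 h hx
    exact simple_fix3_of_smul g _ _ _ (by rw [h1, h2, h3, fix3_I]; exact simple_fix_std)
  · intro N hN hb hc
    have hp := McL_pair h
    have hne' : (S275 (v + w) v).Nonempty := Set.nonempty_of_ncard_ne_zero (by rw [card275 hp]; norm_num)
    obtain ⟨y, hy⟩ := hne'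
    have P' := McL_prim' hp hy
    have hf' := McL_faith' hp
    rw [stab_sum_eq] at P' hf'
    have := P'.dvd_card hf' N hb
    rw [hc] at this
    norm_num at this

/-! ### the third Conway group -/

theorem Co3_simple {u : leechLattice} (hu : sqNorm u.1 = 48) : IsSimpleGroup ↥(stabilizer Co0 u) := by
  have hne : (S11178 u).Nonempty := Set.nonempty_of_ncard_ne_zero (by rw [card11178 hu]; norm_num)
  obtain ⟨x, hx⟩ := hne
  have P := Co3_prim hu hx
  have hf := Co3_faith hu
  have hHS : IsHSPair u (-(u + x)) := by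
    obtain ⟨h1, h2⟩ := hx
    refine ⟨hu, ?_, ?_⟩
    · rw [sqNorm_neg']
      show sqNorm (u.1 + x.1) = 48
      rw [sqNorm_add, hu, h1, h2]; norm_num
    · rw [dot_neg_right, dot_add_right, dotInt_self, hu, h2]; norm_num
  apply P.simple hf
  · have := HS_simple hHS
    rw [stab_pair_eq] at this
    exact this
  · intro N hN hb hc
    have hne' : {v : leechLattice | sqNorm v.1 = 32 ∧ sqNorm (u.1 - v.1) = 32}.Nonempty :=
      Set.nonempty_of_ncard_ne_zero (by rw [card552 u hu]; norm_num)
    obtain ⟨v, hv1, hv2⟩ := hne'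
    have hM : IsMcLPair v (u - v) := by
      refine ⟨hv1, hv2, ?_⟩
      have := (dot_of_norm_sub hu hv1).1 hv2
      have e : dotInt v.1 (u - v : leechLattice).1 = dotInt u.1 v.1 - sqNorm v.1 := by
        have : (u - v : leechLattice) = u + -v := sub_eq_add_neg u v
        rw [this, dot_add_right, dot_neg_right, dotInt_self, bform_dotInt.symm]
        ring
      rw [e, hv1]
      linarith
    have hs := McL_simple hM
    have hcard := McL_card hM
    have e : stabilizer Co0 v ⊓ stabilizer Co0 (u - v) = stabilizer Co0 u ⊓ stabilizer Co0 v := by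
      have := stab_sum_eq v (u - v)
      rw [add_sub_cancel] at this
      exact this.symm
    rw [e] at hs hcard
    have hs' : IsSimpleGroup (stabilizer ↥(stabilizer Co0 u) v) := (stabSubEquiv _ v).isSimpleGroup
    have hc' : Nat.card (stabilizer ↥(stabilizer Co0 u) v) = 898128000 := by
      rw [Nat.card_congr (stabSubEquiv _ v).toEquiv, hcard]
    have hi : (stabilizer ↥(stabilizer Co0 u) v).index = 552 := by
      have := (stabilizer ↥(stabilizer Co0 u) v).card_mul_index
      rw [hc', card_stab48 hu] at this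
      omega
    rcases card_normal_of_simple_stab v hs' N with h1 | h1
    · rw [hc', hc] at h1
      norm_num at h1
    · rw [hi, hc] at h1
      norm_num at h1

end Cfsg.Agent.Lib.Helper10
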