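/-
Simplicity of the stabiliser of a minimal vector (the second Conway group).
-/
import Cfsg.Agent.Lib.Helper10.LeechSimple1
import Cfsg.Agent.Lib.Helper10.CertK
set_option autoImplicit false
open Cfsg Cfsg.Agent.Lib.Helper28 MulAction
namespace Cfsg.Agent.Lib.Helper10

def szCo2 : ℤ → ℕ := fun c => if c = 32 then 1 else if c = 16 then 2025 else if c = 8 then 15400 else
  if c = 0 then 22275 else if c = -8 then 7128 else 275

theorem certK_t3 : certK.t3 = -certH.t2 :=
  vecOf_neg (by decide +kernel) (by decide +kernel) (by decide +kernel)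

theorem McL_of_mem {v x : leechLattice} (hv : sqNorm v.1 = 32) (hx : x ∈ OmG v v 8 8) : IsMcLPair v (-x) :=
  ⟨hv, by rw [sqNorm_neg']; exact hx.1, by rw [dot_neg_right, hx.2.1]⟩

theorem exists_std_K {v x : leechLattice} (hv : sqNorm v.1 = 32) (hx : x ∈ OmG v v 8 8) :
    ∃ g : Co0, g • v = certK.t1 ∧ g • x = certK.t3 := by
  obtain ⟨g, h1, h2⟩ := exists_std_McL (McL_of_mem hv hx)
  refine ⟨g, h1, ?_⟩
  rw [Co0_smul_neg] at h2
  rw [certK_t3, ← h2, neg_neg]

theorem Co2_prim {v x : leechLattice} (hv : sqNorm v.1 = 32) (hx : x ∈ OmG v v 8 8) :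
    PrimData (stabilizer Co0 v) (OmG v v 8 8) x 47104 {32, 16, 8, 0, -8, -16} szCo2 := by
  obtain ⟨g, h1, h3⟩ := exists_std_K hv hx
  have htr : ∀ y ∈ OmG v v 8 8, ∃ k : Co0, k • v = v ∧ k • v = v ∧ k • x = y := by
    intro y hy
    have a1 := McL_of_mem hv hx
    have a2 := McL_of_mem hv hy
    obtain ⟨k, k1, k2⟩ := trans223 v (-x) (-y) hv a1.2.1 a2.2.1 a1.2.2 a2.2.2
    rw [Co0_smul_neg, neg_inj] at k2
    exact ⟨k, k1, k1, k2⟩
  have P := Cert.primData certK_good (g0 := g) (p := v) (q := v) (r := x) h1 h1 h3 hx htr 47104 rfl (by norm_num)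
    {32, 16, 8, 0, -8, -16} szCo2 (by
      intro c hc
      have hc6 : c < 6 := hc
      interval_cases c
      · rw [certK_rinv0, certK_cnt0]; exact ⟨by decide, rfl⟩
      · rw [certK_rinv1, certK_cnt1]; exact ⟨by decide, rfl⟩
      · rw [certK_rinv2, certK_cnt2]; exact ⟨by decide, rfl⟩
      · rw [certK_rinv3, certK_cnt3]; exact ⟨by decide, rfl⟩
      · rw [certK_rinv4, certK_cnt4]; exact ⟨by decide, rfl⟩
      · rw [certK_rinv5, certK_cnt5]; exact ⟨by decide, rfl⟩) (by
      intro a ha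
      simp only [Finset.mem_insert, Finset.mem_singleton] at ha
      rcases ha with rfl | rfl | rfl | rfl | rfl | rfl
      · exact ⟨0, by decide, certK_rinv0⟩
      · exact ⟨1, by decide, certK_rinv1⟩
      · exact ⟨2, by decide, certK_rinv2⟩
      · exact ⟨3, by decide, certK_rinv3⟩
      · exact ⟨4, by decide, certK_rinv4⟩
      · exact ⟨5, by decide, certK_rinv5⟩) (by decide +kernel)
  rw [inf_idem] at P
  exact P

theorem exists_std_K1 {v : leechLattice} (hv : sqNorm v.1 = 32) : ∃ g : Co0, g • v = certK.t1 :=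
  Co0_trans32 _ _ hv std_McLPair.1

theorem card47104 {v : leechLattice} (hv : sqNorm v.1 = 32) : (OmG v v 8 8).ncard = 47104 := by
  obtain ⟨g, hg⟩ := exists_std_K1 hv
  rw [Cert.ncard_tr certK_good (g0 := g) hg hg]
  rfl

theorem Co2_faith {v : leechLattice} (hv : sqNorm v.1 = 32) :
    ∀ g ∈ stabilizer Co0 v, (∀ x ∈ OmG v v 8 8, g • x = x) → g = 1 := by
  obtain ⟨g0, h0⟩ := exists_std_K1 hv
  intro g hg hx
  exact Cert.faithful_tr certK_valid spanK_chk (by decide +kernel) h0 h0 g hg hg hx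

theorem HSPair_smul {p q : leechLattice} (h : IsHSPair p q) (g : Co0) : IsHSPair (g • p) (g • q) :=
  ⟨by rw [Co0_sqNorm]; exact h.1, by rw [Co0_sqNorm]; exact h.2.1, by rw [Co0_dot]; exact h.2.2⟩

theorem HSPair_of_mem {u x : leechLattice} (hu : sqNorm u.1 = 48) (hx : x ∈ S11178 u) : IsHSPair u (-(u + x)) := by
  obtain ⟨h1, h2⟩ := hx
  refine ⟨hu, ?_, ?_⟩
  · rw [sqNorm_neg']
    show sqNorm (u.1 + x.1) = 48
    rw [sqNorm_add, hu, h1, h2]; norm_num
  · rw [dot_neg_right, dot_add_right, dotInt_self, hu, h2]; norm_num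

/-- every minimal vector is the sum of a Higman-Sims pair -/
theorem exists_HSPair_sum {v : leechLattice} (hv : sqNorm v.1 = 32) : ∃ p q : leechLattice, IsHSPair p q ∧ p + q = v := by
  have hne : (S11178 stdU0).Nonempty := Set.nonempty_of_ncard_ne_zero (by rw [card11178 sqNorm_stdU0]; norm_num)
  obtain ⟨x, hx⟩ := hne
  have h := HSPair_of_mem sqNorm_stdU0 hx
  obtain ⟨g, hg⟩ := Co0_trans32 (-x) v (by rw [sqNorm_neg']; exact hx.1) hv
  refine ⟨g • stdU0, g • (-(stdU0 + x)), HSPair_smul h g, ?_⟩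
  rw [← Co0_smul_add, ← hg]
  congr 1
  abel

theorem Co2_simple {v : leechLattice} (hv : sqNorm v.1 = 32) : IsSimpleGroup ↥(stabilizer Co0 v) := by
  have hne : (OmG v v 8 8).Nonempty := Set.nonempty_of_ncard_ne_zero (by rw [card47104 hv]; norm_num)
  obtain ⟨x, hx⟩ := hne
  have P := Co2_prim hv hx
  have hf := Co2_faith hv
  apply P.simple hf
  · have := McL_simple (McL_of_mem hv hx)
    rw [stab_neg] at this
    exact this
  · intro N hN hb hc
    obtain ⟨p, q, hpq, rfl⟩ := exists_HSPair_sum hv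
    have hs := HS_simple hpq
    have hcard := HS_card hpq
    rw [← stab_sum_eq] at hs hcard
    have hs' : IsSimpleGroup (stabilizer ↥(stabilizer Co0 (p + q)) p) := (stabSubEquiv _ p).isSimpleGroup
    have hc' : Nat.card (stabilizer ↥(stabilizer Co0 (p + q)) p) = 44352000 := by
      rw [Nat.card_congr (stabSubEquiv _ p).toEquiv, hcard]
    have hi : (stabilizer ↥(stabilizer Co0 (p + q)) p).index = 953856 := by
      have := (stabilizer ↥(stabilizer Co0 (p + q)) p).card_mul_index
      rw [hc', card_stab32 hv] at this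
      omega
    rcases card_normal_of_simple_stab p hs' N with h1 | h1
    · rw [hc', hc] at h1
      norm_num at h1
    · rw [hi, hc] at h1
      norm_num at h1

end Cfsg.Agent.Lib.Helper10
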