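/-
Normal subgroups of the automorphism group of the Leech lattice; the first Conway group is simple.
-/
import Cfsg.Agent.Lib.Helper10.LeechSimple2
set_option autoImplicit false
open Cfsg Cfsg.Agent.Lib.Helper28 MulAction
namespace Cfsg.Agent.Lib.Helper10

theorem sqNorm_zero' : sqNorm (0 : GolayPt → ℤ) = 0 := by simp [sqNorm]

/-- possible inner products of two minimal vectors -/
theorem dot_vals {x y : leechLattice} (hx : sqNorm x.1 = 32) (hy : sqNorm y.1 = 32) :
    dotInt x.1 y.1 ∈ ({32, 16, 8, 0, -8, -16, -32} : Finset ℤ) := by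
  have h1 := sqNorm_sub x.1 y.1
  have h2 := sqNorm_add x.1 y.1
  rw [hx, hy] at h1 h2
  obtain ⟨k, hk⟩ : (16 : ℤ) ∣ sqNorm (x.1 - y.1) := sqNorm_dvd (x - y).2
  have m1 : sqNorm (x.1 - y.1) = 0 ∨ 32 ≤ sqNorm (x.1 - y.1) := by
    by_cases h : x.1 - y.1 = 0
    · left; rw [h, sqNorm_zero']
    · right; exact min_norm (x - y).2 h
  have m2 : sqNorm (x.1 + y.1) = 0 ∨ 32 ≤ sqNorm (x.1 + y.1) := by
    by_cases h : x.1 + y.1 = 0
    · left; rw [h, sqNorm_zero']
    · right; exact min_norm (x + y).2 h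
  have hd : dotInt x.1 y.1 = 32 - 8 * k := by omega
  have hk0 : 0 ≤ k ∧ k ≤ 8 := by omega
  obtain ⟨a, b⟩ := hk0
  rw [hd]
  interval_cases k
  · decide
  · omega
  · decide
  · decide
  · decide
  · decide
  · decide
  · omega
  · decide

theorem ncard_neg_dot (v : leechLattice) (c : ℤ) :
    {y : leechLattice | sqNorm y.1 = 32 ∧ dotInt v.1 y.1 = -c}.ncard =
      {y : leechLattice | sqNorm y.1 = 32 ∧ dotInt v.1 y.1 = c}.ncard := by
  have : {y : leechLattice | sqNorm y.1 = 32 ∧ dotInt v.1 y.1 = -c} =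
      Neg.neg '' {y : leechLattice | sqNorm y.1 = 32 ∧ dotInt v.1 y.1 = c} := by
    ext y
    simp only [Set.mem_image, Set.mem_ofPred_eq]
    constructor
    · rintro ⟨h1, h2⟩
      exact ⟨-y, ⟨by rw [sqNorm_neg']; exact h1, by rw [dot_neg_right, h2, neg_neg]⟩, neg_neg y⟩
    · rintro ⟨z, ⟨h1, h2⟩, rfl⟩
      exact ⟨by rw [sqNorm_neg']; exact h1, by rw [dot_neg_right, h2]⟩
  rw [this, Set.ncard_image_of_injective _ neg_injective]

theorem ncard_dot8 {v : leechLattice} (hv : sqNorm v.1 = 32) :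
    {y : leechLattice | sqNorm y.1 = 32 ∧ dotInt v.1 y.1 = 8}.ncard = 47104 := by
  rw [← card47104 hv]
  congr 1
  ext y
  unfold OmG
  simp only [Set.mem_ofPred_eq]
  tauto

theorem ncard_dotm16 {v : leechLattice} (hv : sqNorm v.1 = 32) :
    {y : leechLattice | sqNorm y.1 = 32 ∧ dotInt v.1 y.1 = -16}.ncard = 4600 := by
  have hn : sqNorm certA.t1.1 = 32 := by
    rw [Cert.t1_val certA_valid, sqNorm_unpV']; decide +kernel
  obtain ⟨g0, hg0⟩ := Co0_trans32 (-v) certA.t1 (by rw [sqNorm_neg']; exact hv) hn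
  have := Cert.ncard_tr certA_good (g0 := g0) hg0 hg0
  have e : certA.n = 4600 := rfl
  rw [e] at this
  rw [← this]
  congr 1
  ext y
  unfold OmG
  simp only [Set.mem_ofPred_eq, dot_neg_left]
  constructor
  · rintro ⟨h1, h2⟩
    exact ⟨h1, by omega, by omega⟩
  · rintro ⟨h1, h2, -⟩
    exact ⟨h1, by omega⟩

theorem ncard_eq_sum_fibers {X : Type*} (Ω : Set X) (hΩ : Ω.Finite) (I : X → ℤ) (vals : Finset ℤ)
    (hv : ∀ y ∈ Ω, I y ∈ vals) : Ω.ncard = ∑ c ∈ vals, {y | y ∈ Ω ∧ I y = c}.ncard := by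
  classical
  rw [Set.ncard_eq_toFinset_card Ω hΩ, Finset.card_eq_sum_card_fiberwise (f := I) (t := vals)]
  · apply Finset.sum_congr rfl
    intro c _
    rw [← Set.ncard_coe_finset]
    congr 1
    ext y
    simp only [Finset.coe_filter, Set.Finite.mem_toFinset, Set.mem_ofPred_eq]
  · intro y hy
    have hy' : y ∈ Ω := by simpa using hy
    exact Finset.mem_coe.2 (hv y hy')

def szCo0 : ℤ → ℕ := fun c => if c = 32 then 1 else if c = 16 then 4600 else if c = 8 then 47104 else
  if c = 0 then 93150 else if c = -8 then 47104 else if c = -16 then 4600 else 1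

theorem finite_min : {y : leechLattice | sqNorm y.1 = 32}.Finite :=
  Set.finite_of_ncard_ne_zero (by rw [ncard_sub_norm, ncard_norm32]; norm_num)

theorem ncard_dot_all {v : leechLattice} (hv : sqNorm v.1 = 32) :
    ∀ c ∈ ({32, 16, 8, 0, -8, -16, -32} : Finset ℤ),
      {y : leechLattice | y ∈ {y : leechLattice | sqNorm y.1 = 32} ∧ dotInt v.1 y.1 = c}.ncard = szCo0 c := by
  have a32 : {y : leechLattice | y ∈ {y : leechLattice | sqNorm y.1 = 32} ∧ dotInt v.1 y.1 = 32}.ncard = 1 :=
    ncard_dot32 (Ω := {y : leechLattice | sqNorm y.1 = 32}) hv (fun y hy => hy)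
  have am32 : {y : leechLattice | y ∈ {y : leechLattice | sqNorm y.1 = 32} ∧ dotInt v.1 y.1 = -32}.ncard = 1 :=
    (ncard_neg_dot v 32).trans a32
  have a8 : {y : leechLattice | y ∈ {y : leechLattice | sqNorm y.1 = 32} ∧ dotInt v.1 y.1 = 8}.ncard = 47104 :=
    ncard_dot8 hv
  have am8 : {y : leechLattice | y ∈ {y : leechLattice | sqNorm y.1 = 32} ∧ dotInt v.1 y.1 = -8}.ncard = 47104 :=
    (ncard_neg_dot v 8).trans a8
  have am16 : {y : leechLattice | y ∈ {y : leechLattice | sqNorm y.1 = 32} ∧ dotInt v.1 y.1 = -16}.ncard = 4600 :=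
    ncard_dotm16 hv
  have a16 : {y : leechLattice | y ∈ {y : leechLattice | sqNorm y.1 = 32} ∧ dotInt v.1 y.1 = 16}.ncard = 4600 := by
    rw [← am16]
    exact (ncard_neg_dot v 16).symm
  have tot := ncard_eq_sum_fibers {y : leechLattice | sqNorm y.1 = 32} finite_min (fun y => dotInt v.1 y.1)
    {32, 16, 8, 0, -8, -16, -32} (fun y hy => dot_vals hv hy)
  rw [ncard_sub_norm, ncard_norm32] at tot
  rw [Finset.sum_insert (by decide), Finset.sum_insert (by decide), Finset.sum_insert (by decide),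
    Finset.sum_insert (by decide), Finset.sum_insert (by decide), Finset.sum_insert (by decide),
    Finset.sum_singleton, a32, a16, a8, am8, am16, am32] at tot
  intro c hc
  simp only [Finset.mem_insert, Finset.mem_singleton] at hc
  rcases hc with rfl | rfl | rfl | rfl | rfl | rfl | rfl
  · exact a32
  · exact a16
  · exact a8
  · show _ = 93150
    omega
  · exact am8
  · exact am16
  · exact am32

theorem conj_dot {v y y' : leechLattice} (hv : sqNorm v.1 = 32) (hy : sqNorm y.1 = 32) (hy' : sqNorm y'.1 = 32)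
    (he : dotInt v.1 y.1 = dotInt v.1 y'.1) : ∃ g : Co0, g • v = v ∧ g • y = y' := by
  have hneg : ∀ c : ℤ, (∀ z z' : leechLattice, sqNorm z.1 = 32 → sqNorm z'.1 = 32 → dotInt v.1 z.1 = c →
      dotInt v.1 z'.1 = c → ∃ g : Co0, g • v = v ∧ g • z = z') → dotInt v.1 y.1 = -c →
      ∃ g : Co0, g • v = v ∧ g • y = y' := by
    intro c h hc
    obtain ⟨g, g1, g2⟩ := h (-y) (-y') (by rw [sqNorm_neg']; exact hy) (by rw [sqNorm_neg']; exact hy')
      (by rw [dot_neg_right, hc, neg_neg]) (by rw [dot_neg_right, ← he, hc, neg_neg])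
    rw [Co0_smul_neg, neg_inj] at g2
    exact ⟨g, g1, g2⟩
  have t32 : ∀ z z' : leechLattice, sqNorm z.1 = 32 → sqNorm z'.1 = 32 → dotInt v.1 z.1 = 32 →
      dotInt v.1 z'.1 = 32 → ∃ g : Co0, g • v = v ∧ g • z = z' := by
    intro z z' hz hz' h1 h2
    refine ⟨1, one_smul _ _, ?_⟩
    rw [one_smul, eq_of_dot_eq hv hz h1, eq_of_dot_eq hv hz' h2]
  have tm16 : ∀ z z' : leechLattice, sqNorm z.1 = 32 → sqNorm z'.1 = 32 → dotInt v.1 z.1 = -16 →
      dotInt v.1 z'.1 = -16 → ∃ g : Co0, g • v = v ∧ g • z = z' :=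
    fun z z' hz hz' h1 h2 => trans222 v z z' hv hz hz' h1 h2
  have tm8 : ∀ z z' : leechLattice, sqNorm z.1 = 32 → sqNorm z'.1 = 32 → dotInt v.1 z.1 = -8 →
      dotInt v.1 z'.1 = -8 → ∃ g : Co0, g • v = v ∧ g • z = z' :=
    fun z z' hz hz' h1 h2 => trans223 v z z' hv hz hz' h1 h2
  have hc := dot_vals hv hy
  simp only [Finset.mem_insert, Finset.mem_singleton] at hc
  rcases hc with h | h | h | h | h | h | h
  · exact t32 y y' hy hy' h (by rw [← he]; exact h)
  · exact hneg (-16) tm16 (by rw [h]; norm_num)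
  · exact hneg (-8) tm8 (by rw [h]; norm_num)
  · exact Co0_trans_orth v y y' hv hy hy' h (by rw [← he]; exact h)
  · exact tm8 y y' hy hy' h (by rw [← he]; exact h)
  · exact tm16 y y' hy hy' h (by rw [← he]; exact h)
  · exact hneg 32 t32 h

theorem normal_orbit_card' {G X : Type*} [Group G] [MulAction G X] (α : X) (m : ℕ) (hm : (orbit G α).ncard = m)
    (hm0 : m ≠ 0) (I : X → ℤ) (vals : Finset ℤ) (sz : ℤ → ℕ) (hv : ∀ y ∈ orbit G α, I y ∈ vals)
    (hsz : ∀ c ∈ vals, {y | y ∈ orbit G α ∧ I y = c}.ncard = sz c)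
    (hconj : ∀ y ∈ orbit G α, ∀ y' ∈ orbit G α, I y = I y' → ∃ g : G, g • α = α ∧ g • y = y')
    (N : Subgroup G) [N.Normal] :
    ∃ T ∈ vals.powerset, I α ∈ T ∧ (∑ c ∈ T, sz c) ∣ m ∧ (orbit ↥N α).ncard = ∑ c ∈ T, sz c := by
  have hfin : (orbit G α).Finite := Set.finite_of_ncard_ne_zero (by rw [hm]; exact hm0)
  obtain ⟨T, hT, h1, h2⟩ := ncard_saturated (orbit G α) (orbit ↥N α) hfin (orbit_normal_subset N α) I vals hv (by
    intro y hy y' hy' he
    obtain ⟨g, g1, g2⟩ := hconj y (orbit_normal_subset N α hy) y' hy' he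
    rw [← g2]
    exact orbit_normal_stab N α g1 hy)
  have h3 : ∑ c ∈ T, {y | y ∈ orbit G α ∧ I y = c}.ncard = ∑ c ∈ T, sz c :=
    Finset.sum_congr rfl (fun c hc => hsz c (Finset.mem_powerset.1 hT hc))
  rw [h3] at h2
  refine ⟨T, hT, h1 α (mem_orbit_self α), ?_, h2⟩
  rw [← h2, ← hm]
  exact ncard_orbit_normal_dvd N α

theorem orbit_min {v : leechLattice} (hv : sqNorm v.1 = 32) : orbit Co0 v = {y : leechLattice | sqNorm y.1 = 32} := by
  ext x
  constructor
  · rintro ⟨g, rfl⟩
    show sqNorm (g • v : leechLattice).1 = 32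
    rw [Co0_sqNorm, hv]
  · intro hx
    exact Co0_trans32 _ _ hv hx

theorem Co0_orbit_card {v : leechLattice} (hv : sqNorm v.1 = 32) (N : Subgroup Co0) [N.Normal] :
    (orbit ↥N v).ncard = 1 ∨ (orbit ↥N v).ncard = 2 ∨ (orbit ↥N v).ncard = 196560 := by
  obtain ⟨T, hT, h1, h2, h3⟩ := normal_orbit_card' (G := Co0) v 196560
    (by rw [orbit_min hv, ncard_sub_norm, ncard_norm32]) (by norm_num) (fun y => dotInt v.1 y.1)
    {32, 16, 8, 0, -8, -16, -32} szCo0 (by rw [orbit_min hv]; exact fun y hy => dot_vals hv hy)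
    (by rw [orbit_min hv]; exact ncard_dot_all hv)
    (by rw [orbit_min hv]; exact fun y hy y' hy' he => conj_dot hv hy hy' he) N
  have h1' : (32 : ℤ) ∈ T := by
    have : dotInt v.1 v.1 = 32 := by rw [dotInt_self]; exact hv
    rw [← this]; exact h1
  rw [h3]
  have key : ∀ T ∈ ({32, 16, 8, 0, -8, -16, -32} : Finset ℤ).powerset, (32 : ℤ) ∈ T → (∑ c ∈ T, szCo0 c) ∣ 196560 →
      (∑ c ∈ T, szCo0 c) = 1 ∨ (∑ c ∈ T, szCo0 c) = 2 ∨ (∑ c ∈ T, szCo0 c) = 196560 := by decide +kernel
  exact key T hT h1' h2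

/-- a normal subgroup of the automorphism group is everything or has at most two elements -/
theorem Co0_normal (N : Subgroup Co0) [hN : N.Normal] : N = ⊤ ∨ Nat.card N ≤ 2 := by
  have hv : sqNorm certK.t1.1 = 32 := std_McLPair.1
  set v := certK.t1 with hvdef
  have hs : IsSimpleGroup (stabilizer Co0 v) := Co2_simple hv
  have hfinN : (orbit ↥N v).Finite := finite_min.subset (by rw [← orbit_min hv]; exact orbit_normal_subset N v)
  have small : (orbit ↥N v).ncard ≤ 2 → Nat.card N ≤ 2 := by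
    intro hk
    rcases stab_le_or_regular v hs N with hle | hreg
    · exfalso
      have hne : {y : leechLattice | sqNorm y.1 = 32 ∧ dotInt v.1 y.1 = -16}.Nonempty :=
        Set.nonempty_of_ncard_ne_zero (by rw [ncard_dotm16 hv]; norm_num)
      obtain ⟨w, hw, hd⟩ := hne
      obtain ⟨g, hg⟩ := Co0_trans32 v w hv hw
      have hle' : stabilizer Co0 w ≤ N := by
        rw [← hg, stabilizer_smul_eq_stabilizer_map_conj]
        rintro _ ⟨h, hh, rfl⟩
        exact hN.conj_mem h (hle hh) g
      have hsub : {y : leechLattice | sqNorm y.1 = 32 ∧ dotInt w.1 y.1 = -16} ⊆ orbit ↥N v := by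
        rintro y ⟨hy, hdy⟩
        obtain ⟨k, k1, k2⟩ := trans222 w v y hw hv hy (by rw [bform_dotInt.symm]; exact hd) hdy
        exact ⟨⟨k, hle' k1⟩, k2⟩
      have := Set.ncard_le_ncard hsub hfinN
      rw [ncard_dotm16 hw] at this
      omega
    · rw [hreg]; exact hk
  rcases Co0_orbit_card hv N with h | h | h
  · right; exact small (by omega)
  · right; exact small (by omega)
  · left
    have ht := normal_trans_of_orbit v N (by rw [orbit_min hv]; exact finite_min)
      (by rw [h, orbit_min hv, ncard_sub_norm, ncard_norm32])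
    rcases normal_top_or_regular v hs N ht with h2 | h2
    · exact h2
    · exfalso
      rw [h] at h2
      have hu := sqNorm_stdU0
      have hs3 : IsSimpleGroup (stabilizer Co0 stdU0) := Co3_simple hu
      have hi : (stabilizer Co0 stdU0).index = 16773120 := by
        have := (stabilizer Co0 stdU0).card_mul_index
        rw [card_stab48 hu, card_Co0] at this
        omega
      rcases card_normal_of_simple_stab stdU0 hs3 N with h1 | h1
      · rw [card_stab48 hu, h2] at h1
        norm_num at h1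
      · rw [hi, h2] at h1
        norm_num at h1

theorem negCo0_mem_center : negCo0 ∈ Subgroup.center Co0 := by
  rw [Subgroup.mem_center_iff]
  intro g
  apply Co0_ext
  intro x
  rw [mul_smul, mul_smul, negCo0_smul', negCo0_smul', Co0_smul_neg]

theorem negCo0_ne_one : negCo0 ≠ 1 := by
  intro h
  have := negCo0_smul' stdU0
  rw [h, one_smul] at this
  have h2 := congrArg (fun z : leechLattice => z.1 (pt 0)) this
  have h3 : (-stdU0 : leechLattice).1 (pt 0) = -(stdU0.1 (pt 0)) := rfl
  rw [h3, stdU0_val, if_pos rfl] at h2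
  omega

theorem card_center_Co0 : Nat.card (Subgroup.center Co0) = 2 := by
  have hle : Nat.card (Subgroup.center Co0) ≤ 2 := by
    rcases Co0_normal (Subgroup.center Co0) with h | h
    · exfalso
      have hv : sqNorm certK.t1.1 = 32 := std_McLPair.1
      have hn : (stabilizer Co0 certK.t1).Normal := by
        refine ⟨fun n hn g => ?_⟩
        have : n ∈ Subgroup.center Co0 := by rw [h]; exact Subgroup.mem_top n
        rw [Subgroup.mem_center_iff] at this
        rw [this g, mul_inv_cancel_right]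
        exact hn
      rcases Co0_normal (stabilizer Co0 certK.t1) with h2 | h2
      · have := card_stab32 hv
        rw [h2, Subgroup.card_top, card_Co0] at this
        omega
      · rw [card_stab32 hv] at h2
        omega
    · exact h
  have hge : 1 < Nat.card (Subgroup.center Co0) := by
    rw [Finite.one_lt_card_iff_nontrivial]
    exact ⟨⟨negCo0, negCo0_mem_center⟩, 1, fun h => negCo0_ne_one (congrArg Subtype.val h)⟩
  omega

theorem card_Co1 : Nat.card (Co0 ⧸ Subgroup.center Co0) = 4157776806543360000 := by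
  have := Subgroup.card_eq_card_quotient_mul_card_subgroup (Subgroup.center Co0)
  rw [card_center_Co0, card_Co0] at this
  omega

theorem Co1_simple : IsSimpleGroup (Co0 ⧸ Subgroup.center Co0) := by
  have hnt : Nontrivial (Co0 ⧸ Subgroup.center Co0) := by
    rw [← Finite.one_lt_card_iff_nontrivial, card_Co1]
    norm_num
  refine ⟨fun M hM => ?_⟩
  have hc : (M.comap (QuotientGroup.mk' (Subgroup.center Co0))).Normal := hM.comap _
  have hsurj := QuotientGroup.mk'_surjective (Subgroup.center Co0)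
  rcases Co0_normal (M.comap (QuotientGroup.mk' (Subgroup.center Co0))) with h | h
  · right
    rw [← Subgroup.map_comap_eq_self_of_surjective hsurj M, h, Subgroup.map_top_of_surjective _ hsurj]
  · left
    have hle : Subgroup.center Co0 ≤ M.comap (QuotientGroup.mk' (Subgroup.center Co0)) := by
      intro z hz
      rw [Subgroup.mem_comap]
      have : QuotientGroup.mk' (Subgroup.center Co0) z = 1 := (QuotientGroup.eq_one_iff z).2 hz
      rw [this]
      exact M.one_mem
    have he : Subgroup.center Co0 = M.comap (QuotientGroup.mk' (Subgroup.center Co0)) :=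
      Subgroup.eq_of_le_of_card_ge hle (by rw [card_center_Co0]; exact h)
    rw [← Subgroup.map_comap_eq_self_of_surjective hsurj M, ← he]
    rw [eq_bot_iff]
    rintro _ ⟨z, hz, rfl⟩
    rw [Subgroup.mem_bot]
    exact (QuotientGroup.eq_one_iff z).2 hz

end Cfsg.Agent.Lib.Helper10
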