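/-
An automorphism fixing 24 independent lattice vectors is the identity; independence is checked with an explicit
multiple of the inverse matrix.
-/
import Cfsg.Agent.Lib.Helper10.LeechCertTr
set_option autoImplicit false
open Cfsg Cfsg.Agent.Lib.Helper28
namespace Cfsg.Agent.Lib.Helper10

def linC (X : List ℕ) (a : List ℤ) (i : ℕ) : ℤ :=
  sumN (fun j => a.getD j 0 * ((gP (X.getD j 0) i : ℤ) - 16)) 24

def spanChk (X : List ℕ) (A : List (List ℤ)) (c : ℤ) : Bool :=
  decide (c ≠ 0) &&
    allBelow (fun k => allBelow (fun i => decide (linC X (A.getD k []) i = if i = k then c else 0)) 24) 24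

theorem zero_of_span {X : List ℕ} {A : List (List ℤ)} {c : ℤ} (h : spanChk X A c = true) (z : GolayPt → ℤ)
    (hz : ∀ j, j < 24 → dotInt z (unpV (X.getD j 0)) = 0) : z = 0 := by
  unfold spanChk at h
  rw [Bool.and_eq_true, decide_eq_true_eq] at h
  obtain ⟨hc, h2⟩ := h
  funext i
  revert i
  apply forall_pt
  intro k hk
  have hk' : ∀ i, i < 24 → linC X (A.getD k []) i = if i = k then c else 0 := by
    intro i hi
    exact of_decide_eq_true (allBelow_spec (allBelow_spec h2 k hk) i hi)
  have key : ∑ i ∈ Finset.range 24, z (pt i) * linC X (A.getD k []) i =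
      ∑ j ∈ Finset.range 24, (A.getD k []).getD j 0 * dotInt z (unpV (X.getD j 0)) := by
    unfold linC
    simp_rw [sumN_eq, Finset.mul_sum]
    rw [Finset.sum_comm]
    apply Finset.sum_congr rfl
    intro j _
    unfold dotInt
    rw [sum_pt, Finset.mul_sum]
    apply Finset.sum_congr rfl
    intro i hi
    rw [unpV_pt _ (Finset.mem_range.1 hi)]
    ring
  have r0 : ∑ j ∈ Finset.range 24, (A.getD k []).getD j 0 * dotInt z (unpV (X.getD j 0)) = 0 := by
    apply Finset.sum_eq_zero
    intro j hj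
    rw [hz j (Finset.mem_range.1 hj), mul_zero]
  have l0 : ∑ i ∈ Finset.range 24, z (pt i) * linC X (A.getD k []) i = z (pt k) * c := by
    rw [Finset.sum_eq_single k]
    · rw [hk' k hk, if_pos rfl]
    · intro i hi hne
      rw [hk' i (Finset.mem_range.1 hi), if_neg hne, mul_zero]
    · intro hn
      exact absurd (Finset.mem_range.2 hk) hn
  rw [l0, r0] at key
  rcases mul_eq_zero.1 key with h3 | h3
  · exact h3
  · exact absurd h3 hc

theorem eq_one_of_fix_span {X : List ℕ} {A : List (List ℤ)} {c : ℤ} (h : spanChk X A c = true)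
    (hm : ∀ j, j < 24 → unpV (X.getD j 0) ∈ leechLattice) (g : Co0)
    (hg : ∀ j, j < 24 → g • vecOf (X.getD j 0) = vecOf (X.getD j 0)) : g = 1 := by
  apply Co0_ext
  intro v
  rw [one_smul]
  have : (g • v : leechLattice).1 - v.1 = 0 := by
    apply zero_of_span h
    intro j hj
    have h1 := Co0_dot g v (vecOf (X.getD j 0))
    rw [hg j hj, vecOf_val (hm j hj)] at h1
    have h2 : dotInt ((g • v : leechLattice).1 - v.1) (unpV (X.getD j 0)) =
        dotInt (g • v : leechLattice).1 (unpV (X.getD j 0)) - dotInt v.1 (unpV (X.getD j 0)) := by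
      unfold dotInt
      rw [← Finset.sum_sub_distrib]
      apply Finset.sum_congr rfl
      intro i _
      rw [Pi.sub_apply]; ring
    rw [h2, h1, sub_self]
  exact sub_eq_zero.1 this

/-- the vectors of the family are base vectors or belong to the set -/
def famChk (P1 P2 : ℕ) (a1 a2 : ℤ) (X : List ℕ) : Bool :=
  allBelow (fun j => Nat.beq (X.getD j 0) P1 || Nat.beq (X.getD j 0) P2 ||
    (memChk (X.getD j 0) && decide (nrmP (X.getD j 0) = 32) && decide (dotP P1 (X.getD j 0) = a1) &&
      decide (dotP P2 (X.getD j 0) = a2))) 24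

namespace Cert

variable {C : Cert} {a1 a2 : ℤ}

theorem faithful (hC : C.Valid) {X : List ℕ} {A : List (List ℤ)} {c : ℤ} (h : spanChk X A c = true)
    (hf : famChk C.P1 C.P2 a1 a2 X = true) (g : Co0) (g1 : g • C.t1 = C.t1) (g2 : g • C.t2 = C.t2)
    (hg : ∀ x ∈ C.Om a1 a2, g • x = x) : g = 1 := by
  have key : ∀ j, j < 24 → unpV (X.getD j 0) ∈ leechLattice ∧ g • vecOf (X.getD j 0) = vecOf (X.getD j 0) := by
    intro j hj
    have := allBelow_spec hf j hj
    simp only [Bool.or_eq_true, Bool.and_eq_true, decide_eq_true_eq] at this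
    rcases this with (h1 | h1) | ⟨⟨⟨h1, h2⟩, h3⟩, h4⟩
    · rw [Nat.eq_of_beq_eq_true h1]
      exact ⟨(baseChk_spec hC.b1).1, g1⟩
    · rw [Nat.eq_of_beq_eq_true h1]
      exact ⟨(baseChk_spec hC.b2).1, g2⟩
    · exact ⟨memChk_spec h1, hg _ (vecOf_mem_Om hC h1 h2 h3 h4)⟩
  exact eq_one_of_fix_span h (fun j hj => (key j hj).1) g (fun j hj => (key j hj).2)

theorem faithful_tr (hC : C.Valid) {X : List ℕ} {A : List (List ℤ)} {c : ℤ} (h : spanChk X A c = true)
    (hf : famChk C.P1 C.P2 a1 a2 X = true) {p q : leechLattice} {g0 : Co0} (h1 : g0 • p = C.t1) (h2 : g0 • q = C.t2)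
    (g : Co0) (g1 : g • p = p) (g2 : g • q = q) (hg : ∀ x ∈ OmG p q a1 a2, g • x = x) : g = 1 := by
  have : g0 * g * g0⁻¹ = 1 := by
    apply faithful hC h hf
    · rw [mul_smul, mul_smul, ← h1, inv_smul_smul, g1]
    · rw [mul_smul, mul_smul, ← h2, inv_smul_smul, g2]
    · intro x hx
      have hx' : g0⁻¹ • x ∈ OmG p q a1 a2 := by
        rw [← mem_tr (C := C) h1 h2, smul_inv_smul]; exact hx
      rw [mul_smul, mul_smul, hg _ hx', smul_inv_smul]
  have h3 : g0 * g = g0 := by
    have := congrArg (· * g0) this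
    simpa using this
  exact mul_eq_left.1 h3

end Cert

end Cfsg.Agent.Lib.Helper10
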