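/-
Sextets: every tetrad lies in exactly one sextet.
-/
import Cfsg.Agent.Lib.Helper10.SetSys
import Cfsg.Prelude.Def_SporadicCombinatorics

set_option autoImplicit false

namespace Cfsg.Agent.Lib.Helper10

open Cfsg Cfsg.Agent.Lib.Helper28
open scoped Pointwise

theorem isCode_smul_iff {g : Equiv.Perm GolayPt} (hg : g ∈ M24) (x : Finset GolayPt) :
    isCode (mask (g • x)) = true ↔ isCode (mask x) = true := by
  constructor
  · intro h
    have := isCode_pm_of_mem (M24.inv_mem hg) (mask_lt _) h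
    rwa [← mask_smul, inv_smul_smul] at this
  · intro h
    rw [mask_smul]
    exact isCode_pm_of_mem hg (mask_lt _) h

/-- the tetrads congruent to `t` modulo the code -/
def sxt (t : Finset GolayPt) : Finset (Finset GolayPt) :=
  Finset.univ.filter (fun u => u.card = 4 ∧ isCode (mask (symmDiff u t)) = true)

theorem mem_sxt {t u : Finset GolayPt} : u ∈ sxt t ↔ u.card = 4 ∧ isCode (mask (symmDiff u t)) = true := by
  simp [sxt]

theorem self_mem_sxt {t : Finset GolayPt} (ht : t.card = 4) : t ∈ sxt t := by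
  rw [mem_sxt, symmDiff_self]
  refine ⟨ht, ?_⟩
  show isCode (mask ∅) = true
  rw [mask_empty]; decide

theorem smul_sxt {g : Equiv.Perm GolayPt} (hg : g ∈ M24) (t : Finset GolayPt) : g • sxt t = sxt (g • t) := by
  ext u
  rw [← Finset.inv_smul_mem_iff, mem_sxt, mem_sxt, Finset.card_smul_finset, ← isCode_smul_iff hg,
    Finset.smul_finset_symmDiff, smul_inv_smul]

theorem isCode_symmDiff_trans {a b c : Finset GolayPt} (h1 : isCode (mask (symmDiff a b)) = true)
    (h2 : isCode (mask (symmDiff b c)) = true) : isCode (mask (symmDiff a c)) = true := by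
  have := isCode_xor _ _ h1 h2
  have e : mask (symmDiff a b) ^^^ mask (symmDiff b c) = mask (symmDiff a c) := by
    rw [mask_symmDiff, mask_symmDiff, mask_symmDiff]
    have : (mask a ^^^ mask b) ^^^ (mask b ^^^ mask c) = (mask b ^^^ mask b) ^^^ (mask a ^^^ mask c) := by ac_rfl
    rw [this, Nat.xor_self, Nat.zero_xor]
  rwa [e] at this

theorem sxt_congr {t t' : Finset GolayPt} (h : isCode (mask (symmDiff t t')) = true) : sxt t = sxt t' := by
  ext u
  rw [mem_sxt, mem_sxt]
  constructor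
  · rintro ⟨h1, h2⟩
    exact ⟨h1, isCode_symmDiff_trans h2 h⟩
  · rintro ⟨h1, h2⟩
    rw [symmDiff_comm] at h
    exact ⟨h1, isCode_symmDiff_trans h2 h⟩

theorem card_sxt_eq (m : ℕ) (hm : m < 2 ^ 24) :
    (sxt (unmask m)).card = cntW 24 4 (fun x => isCodeF (Nat.xor x m)) := by
  rw [← ncard_weight_eq, ← Set.ncard_coe_finset]
  congr 1
  ext u
  have e : isCodeF (Nat.xor (mask u) m) = isCode (mask u ^^^ m) := isCodeF_eq (Nat.xor_lt_two_pow (mask_lt u) hm)
  rw [Finset.mem_coe, mem_sxt, mask_symmDiff, mask_unmask m hm, Set.mem_ofPred_eq, e]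

theorem card_sxt_std : (sxt (unmask 8388615)).card = 6 := by
  rw [card_sxt_eq _ (by norm_num)]
  decide +kernel

theorem card_sxt {t : Finset GolayPt} (ht : t.card = 4) : (sxt t).card = 6 := by
  obtain ⟨g, hg, h⟩ := tetrad_std ht
  rw [← Finset.card_smul_finset g, smul_sxt hg, h, card_sxt_std]

/-- two distinct congruent tetrads are disjoint and their union is an octad -/
theorem union_mem_octads {u v : Finset GolayPt} (hu : u.card = 4) (hv : v.card = 4) (huv : u ≠ v)
    (h : isCode (mask (symmDiff u v)) = true) : Disjoint u v ∧ u ∪ v ∈ octads := by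
  have h1 := card_symmDiff_add u v
  have h2 := code_weight (mask_lt _) h
  rw [← card_eq_pc] at h2
  have h3 : (symmDiff u v).card ≠ 0 := by
    rw [Finset.card_ne_zero, Finset.nonempty_iff_ne_empty]
    intro h0
    exact huv (symmDiff_eq_bot.1 h0)
  have h4 : (u ∩ v).card = 0 := by omega
  have h5 : Disjoint u v := by
    rw [Finset.disjoint_iff_inter_eq_empty]
    exact Finset.card_eq_zero.1 h4
  refine ⟨h5, ?_⟩
  rw [← Finset.sup_eq_union, ← h5.symmDiff_eq_sup, mem_octads_iff]
  exact ⟨h, by omega⟩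

theorem sxt_mem_sextets {t : Finset GolayPt} (ht : t.card = 4) : sxt t ∈ sextets := by
  refine ⟨card_sxt ht, fun u hu => (mem_sxt.1 hu).1, ?_⟩
  intro u hu v hv huv
  obtain ⟨hu1, hu2⟩ := mem_sxt.1 hu
  obtain ⟨hv1, hv2⟩ := mem_sxt.1 hv
  rw [symmDiff_comm] at hv2
  exact (union_mem_octads hu1 hv1 huv (isCode_symmDiff_trans hu2 hv2)).2

theorem eq_sxt_of_mem {S : Finset (Finset GolayPt)} (hS : S ∈ sextets) {t : Finset GolayPt} (ht : t ∈ S) :
    S = sxt t := by
  obtain ⟨h6, h4, hoct⟩ := hS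
  apply Finset.eq_of_subset_of_card_le
  · intro u hu
    rw [mem_sxt]
    refine ⟨h4 u hu, ?_⟩
    by_cases hut : u = t
    · rw [hut, symmDiff_self]
      show isCode (mask ∅) = true
      rw [mask_empty]; decide
    · have ho := hoct u hu t ht hut
      rw [mem_octads_iff] at ho
      have hd : Disjoint u t := by
        rw [Finset.disjoint_iff_inter_eq_empty, ← Finset.card_eq_zero]
        have := Finset.card_union_add_card_inter u t
        rw [ho.2, h4 u hu, h4 t ht] at this
        omega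
      rw [hd.symmDiff_eq_sup, Finset.sup_eq_union]
      exact ho.1
  · rw [card_sxt (h4 t ht), h6]

theorem smul_mem_sextets {g : Equiv.Perm GolayPt} (hg : g ∈ M24) {S : Finset (Finset GolayPt)} (hS : S ∈ sextets) :
    g • S ∈ sextets := by
  have hne : S.Nonempty := by
    rw [← Finset.card_pos, hS.1]; norm_num
  obtain ⟨t, ht⟩ := hne
  rw [eq_sxt_of_mem hS ht, smul_sxt hg]
  exact sxt_mem_sextets (by rw [Finset.card_smul_finset]; exact hS.2.1 t ht)

/-- M24 is transitive on sextets -/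
theorem sextet_std {S : Finset (Finset GolayPt)} (hS : S ∈ sextets) : ∃ g ∈ M24, g • S = sxt (unmask 8388615) := by
  have hne : S.Nonempty := by
    rw [← Finset.card_pos, hS.1]; norm_num
  obtain ⟨t, ht⟩ := hne
  obtain ⟨g, hg, h⟩ := tetrad_std (hS.2.1 t ht)
  exact ⟨g, hg, by rw [eq_sxt_of_mem hS ht, smul_sxt hg, h]⟩

/-! ### syndromes -/

/-- the syndrome of a mask -/
def synd (m : ℕ) : ℕ := Nat.xor m (encF (Nat.shiftRight m 12))

theorem synd_eq_iff {a b : ℕ} (ha : a < 2 ^ 24) (hb : b < 2 ^ 24) :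
    synd a = synd b ↔ isCode (a ^^^ b) = true := by
  have ha' : a >>> 12 < 4096 := by rw [Nat.shiftRight_eq_div_pow]; omega
  have hb' : b >>> 12 < 4096 := by rw [Nat.shiftRight_eq_div_pow]; omega
  have e1 : synd a = a ^^^ enc (a >>> 12) := by
    unfold synd; rw [← encF_eq _ ha']; rfl
  have e2 : synd b = b ^^^ enc (b >>> 12) := by
    unfold synd; rw [← encF_eq _ hb']; rfl
  have e3 : enc ((a ^^^ b) >>> 12) = enc (a >>> 12) ^^^ enc (b >>> 12) := by
    rw [Nat.shiftRight_xor_distrib, enc, encAux_xor]; rfl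
  rw [e1, e2, isCode, beq_iff_eq, e3, ← Nat.xor_eq_zero_iff, ← Nat.xor_eq_zero_iff (x := _ ^^^ _) (y := a ^^^ b)]
  have : (a ^^^ enc (a >>> 12)) ^^^ (b ^^^ enc (b >>> 12)) = (enc (a >>> 12) ^^^ enc (b >>> 12)) ^^^ (a ^^^ b) := by
    ac_rfl
  rw [this]

theorem sxt_eq_of_synd {a b : ℕ} (ha : a < 2 ^ 24) (hb : b < 2 ^ 24) (h : synd a = synd b) :
    sxt (unmask a) = sxt (unmask b) := by
  apply sxt_congr
  rw [mask_symmDiff, mask_unmask a ha, mask_unmask b hb]
  exact (synd_eq_iff ha hb).1 h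

theorem synd_eq_of_sxt {a b : ℕ} (ha : a < 2 ^ 24) (hb : b < 2 ^ 24) (h4 : (unmask a).card = 4)
    (h : sxt (unmask a) = sxt (unmask b)) : synd a = synd b := by
  have h1 := self_mem_sxt h4
  rw [h, mem_sxt, mask_symmDiff, mask_unmask a ha, mask_unmask b hb] at h1
  exact (synd_eq_iff ha hb).2 h1.2

/-- an explicit list of six tetrads is a sextet -/
noncomputable def isSxL (l : List ℕ) : Bool :=
  and (incrL l) (and (Nat.beq l.length 6) (l.all fun m => and (Nat.beq (pcF m) 4) (Nat.beq (synd m) (synd (l.headD 0)))))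

theorem decL_eq_sxt {l : List ℕ} (h : isSxL l = true) {m : ℕ} (hm : m < 2 ^ 24) (hc : Nat.beq (pcF m) 4 = true)
    (hs : Nat.beq (synd m) (synd (l.headD 0)) = true) : sxt (unmask m) = decL l := by
  rw [isSxL, Bool.and_eq_true, Bool.and_eq_true, List.all_eq_true] at h
  obtain ⟨h1, h2, h3⟩ := h
  have hb := (incrL_spec h1).1
  have hcard : (unmask m).card = 4 := by
    rw [card_eq_pcF, mask_unmask m hm]; exact Nat.eq_of_beq_eq_true hc
  symm
  apply Finset.eq_of_subset_of_card_le
  · intro u hu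
    obtain ⟨x, hx, rfl⟩ := mem_decL.1 hu
    have hx' := h3 x hx
    rw [Bool.and_eq_true] at hx'
    rw [mem_sxt, card_eq_pcF, mask_symmDiff, mask_unmask x (hb x hx), mask_unmask m hm]
    refine ⟨Nat.eq_of_beq_eq_true hx'.1, (synd_eq_iff (hb x hx) hm).1 ?_⟩
    rw [Nat.eq_of_beq_eq_true hx'.2, Nat.eq_of_beq_eq_true hs]
  · rw [card_sxt hcard, card_decL h1, Nat.eq_of_beq_eq_true h2]

end Cfsg.Agent.Lib.Helper10
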