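import Mathlib
import Cfsg.Agent.Lib.Helper10.LeechM22
import Cfsg.Agent.Lib.Helper10.LeechPrim2
import Cfsg.Agent.Lib.Helper3.M24d
import Cfsg.Agent.Lib.Helper10.M24Dod
import Cfsg.Agent.Lib.Helper10.M24Oct

set_option autoImplicit false
open Cfsg

namespace Cfsg.Agent.Lib.Helper10

open Cfsg.Agent.Lib.Helper28
open scoped Pointwise

theorem oct_of_mask {m : ℕ} (h : m < 2 ^ 24 ∧ isCode m = true ∧ pcF m = 8) : unmask m ∈ octads := by
  rw [mem_octads_iff, mask_unmask _ h.1, card_eq_pcF, mask_unmask _ h.1]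
  exact ⟨h.2.1, h.2.2⟩

theorem dod_of_mask {m : ℕ} (h : m < 2 ^ 24 ∧ isCode m = true ∧ pcF m = 12) : unmask m ∈ dodecads := by
  rw [mem_dodecads_iff, mask_unmask _ h.1, card_eq_pcF, mask_unmask _ h.1]
  exact ⟨h.2.1, h.2.2⟩

theorem smul_compl' (g : Equiv.Perm GolayPt) (s : Finset GolayPt) : g • sᶜ = (g • s)ᶜ := by
  ext i
  rw [Finset.mem_compl, ← Finset.inv_smul_mem_iff, ← Finset.inv_smul_mem_iff, Finset.mem_compl]

theorem symmDiff_compl' (s t : Finset GolayPt) : symmDiff sᶜ tᶜ = symmDiff s t := by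
  ext i
  simp only [Finset.mem_symmDiff, Finset.mem_compl]
  tauto

/-- an `M24`-invariant subcode containing a word other than `∅`, `univ` is the whole code -/
theorem inv_code_full (P : Finset GolayPt → Prop) (h0 : P ∅)
    (hadd : ∀ s t, P s → P t → P (symmDiff s t)) (hinv : ∀ g ∈ M24, ∀ s, P s → P (g • s))
    (hsub : ∀ s, P s → IsC s) {c : Finset GolayPt} (hc : P c) (h1 : c ≠ ∅) (h2 : c ≠ Finset.univ) :
    ∀ s, IsC s → P s := by
  have hoct : ∃ o ∈ octads, P o := by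
    have hC := hsub c hc
    rcases isC_card hC with h | h | h | h | h
    · exact absurd (Finset.card_eq_zero.1 h) h1
    · exact ⟨c, (mem_octads_iff c).2 ⟨(isC_iff c).1 hC, h⟩, hc⟩
    · have hd : c ∈ dodecads := (mem_dodecads_iff c).2 ⟨(isC_iff c).1 hC, h⟩
      obtain ⟨g1, hg1, e1⟩ := dodecads_trans hd (dod_of_mask (m := 28637) (by decide +kernel))
      obtain ⟨g2, hg2, e2⟩ := dodecads_trans hd (dod_of_mask (m := 57274) (by decide +kernel))
      have := hadd _ _ (hinv g1 hg1 c hc) (hinv g2 hg2 c hc)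
      rw [e1, e2, ← unmask_xor] at this
      exact ⟨_, oct_of_mask (by decide +kernel), this⟩
    · have ho : cᶜ ∈ octads := by
        refine (mem_octads_iff _).2 ⟨(isC_iff _).1 (isC_compl hC), ?_⟩
        rw [Finset.card_compl, h]; rfl
      obtain ⟨g1, hg1, e1⟩ := octads_trans ho (oct_of_mask (m := 5279) (by decide +kernel))
      obtain ⟨g2, hg2, e2⟩ := octads_trans ho (oct_of_mask (m := 10558) (by decide +kernel))
      have := hadd _ _ (hinv g1 hg1 c hc) (hinv g2 hg2 c hc)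
      rw [← symmDiff_compl', ← smul_compl', ← smul_compl', e1, e2, ← unmask_xor] at this
      exact ⟨_, oct_of_mask (by decide +kernel), this⟩
    · exact absurd (Finset.eq_univ_of_card c (by rw [h]; rfl)) h2
  obtain ⟨o, ho, hPo⟩ := hoct
  have hall : ∀ o' ∈ octads, P o' := by
    intro o' ho'
    obtain ⟨g, hg, e⟩ := octads_trans ho ho'
    rw [← e]; exact hinv g hg o hPo
  have e0 : unmask 0 = ∅ := by decide +kernel
  have haux : ∀ (L : List ℕ), (∀ b ∈ L, P (unmask b)) → ∀ j, P (unmask (encAux L j)) := by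
    intro L
    induction L with
    | nil => intro _ j; rw [encAux, e0]; exact h0
    | cons b bs ih =>
      intro hL j
      rw [encAux, unmask_xor]
      apply hadd
      · split_ifs
        · exact hL b (by simp)
        · rw [e0]; exact h0
      · exact ih (fun b hb => hL b (by simp [hb])) _
  intro s hs
  obtain ⟨j, hj, hjc⟩ := exists_enc_of_isCode (mask_lt s) ((isC_iff s).1 hs)
  have := haux basis (fun b hb => hall _ (oct_of_mask (by revert b; decide +kernel))) j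
  have e : unmask (encAux basis j) = s := by
    show unmask (enc j) = s
    rw [hjc, unmask_mask]
  rwa [e] at this

/-- monomial element from a permutation and a codeword -/
def mE (σ : ↥M24) (c : Finset GolayPt) (hc : IsC c) : Co0 := monoEl (σ, ⟨c, (mem_codeFin c).2 hc⟩)

theorem mE_smul (σ : ↥M24) (c : Finset GolayPt) (hc : IsC c) (v : leechLattice) (i : GolayPt) :
    (mE σ c hc • v : leechLattice).1 i = sgn c i * v.1 (σ.1⁻¹ i) := rfl

theorem mE_pres (σ : ↥M24) (c : Finset GolayPt) (hc : IsC c) : PresCross (mE σ c hc) := monoEl_pres _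

theorem exists_mE {g : Co0} (hg : PresCross g) : ∃ σ c hc, g = mE σ c hc := by
  obtain ⟨p, hp⟩ := exists_monoEl g hg
  exact ⟨p.1, p.2.1, (mem_codeFin _).1 p.2.2, hp⟩

theorem mE_inj {σ τ : ↥M24} {c d : Finset GolayPt} {hc : IsC c} {hd : IsC d}
    (h : mE σ c hc = mE τ d hd) : σ = τ ∧ c = d := by
  have := monoEl_inj h
  exact ⟨(Prod.ext_iff.1 this).1, congrArg Subtype.val (Prod.ext_iff.1 this).2⟩

theorem mE_congr {σ τ : ↥M24} {c d : Finset GolayPt} (hc : IsC c) (h1 : σ = τ) (h2 : c = d) :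
    mE σ c hc = mE τ d (h2 ▸ hc) := by
  subst h1; subst h2; rfl

theorem sgn_symmDiff (c d : Finset GolayPt) (i : GolayPt) : sgn (symmDiff c d) i = sgn c i * sgn d i := by
  unfold sgn
  by_cases h1 : i ∈ c <;> by_cases h2 : i ∈ d <;> simp [Finset.mem_symmDiff, h1, h2]

theorem mE_mul (σ τ : ↥M24) (c d : Finset GolayPt) (hc : IsC c) (hd : IsC d) :
    mE σ c hc * mE τ d hd = mE (σ * τ) (symmDiff c (σ.1 • d)) (isC_symmDiff hc (isC_smul σ.2 hd)) := by
  apply Co0_ext
  intro v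
  funext i
  rw [mul_smul, mE_smul, mE_smul, mE_smul, sgn_symmDiff, sgn_smul, mul_assoc]
  rfl

theorem mE_one : mE 1 ∅ isC_empty = 1 := permHom.map_one

theorem mE_inv (σ : ↥M24) (c : Finset GolayPt) (hc : IsC c) :
    (mE σ c hc)⁻¹ = mE σ⁻¹ ((σ⁻¹ : ↥M24).1 • c) (isC_smul (σ⁻¹ : ↥M24).2 hc) := by
  apply inv_eq_of_mul_eq_one_right
  rw [mE_mul, ← mE_one]
  apply mE_congr
  · exact mul_inv_cancel σ
  · have : σ.1 • (σ⁻¹ : ↥M24).1 • c = c := by
      rw [smul_smul]
      show (σ.1 * σ.1⁻¹) • c = c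
      rw [mul_inv_cancel, one_smul]
    rw [this, symmDiff_self]; rfl

/-- the group of sign changes on codewords -/
def signGrp : Subgroup Co0 where
  carrier := {x | ∃ c hc, x = mE 1 c hc}
  one_mem' := ⟨∅, isC_empty, mE_one.symm⟩
  mul_mem' := by
    rintro _ _ ⟨c, hc, rfl⟩ ⟨d, hd, rfl⟩
    refine ⟨symmDiff c ((1 : ↥M24).1 • d), isC_symmDiff hc (isC_smul (1 : ↥M24).2 hd), ?_⟩
    rw [mE_mul]
    exact mE_congr _ (mul_one 1) rfl
  inv_mem' := by
    rintro _ ⟨c, hc, rfl⟩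
    refine ⟨((1 : ↥M24)⁻¹ : ↥M24).1 • c, isC_smul ((1 : ↥M24)⁻¹ : ↥M24).2 hc, ?_⟩
    rw [mE_inv]
    exact mE_congr _ inv_one rfl

theorem card_signGrp : Nat.card signGrp = 4096 := by
  have e : ↥codeFin ≃ ↥signGrp := Equiv.ofBijective
    (fun c => ⟨mE 1 c.1 ((mem_codeFin _).1 c.2), c.1, (mem_codeFin _).1 c.2, rfl⟩)
    ⟨fun c d h => Subtype.ext (mE_inj (hc := (mem_codeFin _).1 c.2) (hd := (mem_codeFin _).1 d.2)
      (congrArg Subtype.val h)).2, fun x => by
      obtain ⟨c, hc, hx⟩ := x.2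
      exact ⟨⟨c, (mem_codeFin c).2 hc⟩, Subtype.ext hx.symm⟩⟩
  rw [← Nat.card_congr e, Nat.card_eq_fintype_card, Fintype.card_coe, card_codeFin]

/-- normal subgroups of small order of the monomial group -/
theorem mono_normal (X : Subgroup Co0) (h1 : ∀ x ∈ X, PresCross x)
    (h2 : ∀ n : Co0, PresCross n → ∀ x ∈ X, n * x * n⁻¹ ∈ X) (h3 : Nat.card X < 244823040)
    (h4 : 2 < Nat.card X) : X = signGrp := by
  classical
  let S : Subgroup ↥M24 :=
    { carrier := {σ | ∃ c hc, mE σ c hc ∈ X}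
      one_mem' := ⟨∅, isC_empty, by rw [mE_one]; exact X.one_mem⟩
      mul_mem' := by
        rintro a b ⟨c, hc, h⟩ ⟨d, hd, h'⟩
        exact ⟨_, _, by rw [← mE_mul a b c d hc hd]; exact X.mul_mem h h'⟩
      inv_mem' := by
        rintro a ⟨c, hc, h⟩
        exact ⟨_, _, by rw [← mE_inv a c hc]; exact X.inv_mem h⟩ }
  have hSn : S.Normal := by
    refine ⟨fun σ hσ τ => ?_⟩
    obtain ⟨c, hc, h⟩ := hσ
    have := h2 (mE τ ∅ isC_empty) (mE_pres _ _ _) _ h
    rw [mE_inv, mE_mul, mE_mul] at this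
    exact ⟨_, _, this⟩
  haveI := Cfsg.Agent.Lib.Helper3.M24_simple
  have hle : X ≤ signGrp := by
    rcases hSn.eq_bot_or_eq_top with hb | ht
    · intro x hx
      obtain ⟨σ, c, hc, rfl⟩ := exists_mE (h1 x hx)
      have : σ ∈ S := ⟨c, hc, hx⟩
      rw [hb, Subgroup.mem_bot] at this
      subst this
      exact ⟨c, hc, rfl⟩
    · exfalso
      have hall : ∀ σ : ↥M24, ∃ c hc, mE σ c hc ∈ X := by
        intro σ
        have : σ ∈ S := by rw [ht]; trivial
        exact this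
      choose cf hcf hmem using hall
      have hinj : Function.Injective (fun σ : ↥M24 => (⟨mE σ (cf σ) (hcf σ), hmem σ⟩ : X)) := by
        intro a b h
        exact (mE_inj (hc := hcf a) (hd := hcf b) (congrArg Subtype.val h)).1
      have := Nat.card_le_card_of_injective _ hinj
      rw [card_M24] at this
      omega
  let P : Finset GolayPt → Prop := fun c => ∃ hc, mE 1 c hc ∈ X
  have hP0 : P ∅ := ⟨isC_empty, by rw [mE_one]; exact X.one_mem⟩
  have hPadd : ∀ s t, P s → P t → P (symmDiff s t) := by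
    rintro s t ⟨hs, h⟩ ⟨ht, h'⟩
    refine ⟨isC_symmDiff hs ht, ?_⟩
    have := X.mul_mem h h'
    rw [mE_mul] at this
    have e : mE (1 * 1) (symmDiff s ((1 : ↥M24).1 • t)) (isC_symmDiff hs (isC_smul (1 : ↥M24).2 ht)) =
        mE 1 (symmDiff s t) (isC_symmDiff hs ht) :=
      mE_congr _ (mul_one 1) (by show symmDiff s ((1 : Equiv.Perm GolayPt) • t) = _; rw [one_smul])
    rwa [e] at this
  have hPinv : ∀ g ∈ M24, ∀ s, P s → P (g • s) := by
    rintro g hg s ⟨hs, h⟩
    refine ⟨isC_smul hg hs, ?_⟩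
    have := h2 (mE ⟨g, hg⟩ ∅ isC_empty) (mE_pres _ _ _) _ h
    rw [mE_inv, mE_mul, mE_mul] at this
    have e := mE_congr (σ := (⟨g, hg⟩ : ↥M24) * 1 * (⟨g, hg⟩ : ↥M24)⁻¹) (τ := 1)
      (c := symmDiff (symmDiff ∅ ((⟨g, hg⟩ : ↥M24).1 • s))
        (((⟨g, hg⟩ : ↥M24) * 1 : ↥M24).1 • ((⟨g, hg⟩ : ↥M24)⁻¹ : ↥M24).1 • (∅ : Finset GolayPt)))
      (d := g • s)
      (isC_symmDiff (isC_symmDiff isC_empty (isC_smul hg hs))
        (isC_smul ((⟨g, hg⟩ : ↥M24) * 1 : ↥M24).2 (isC_smul ((⟨g, hg⟩ : ↥M24)⁻¹ : ↥M24).2 isC_empty)))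
      (by simp) (by simp)
    rwa [e] at this
  have hex : ∃ c, P c ∧ c ≠ ∅ ∧ c ≠ Finset.univ := by
    by_contra hcon
    push Not at hcon
    have hsub : (X : Set Co0) ⊆ (({mE 1 ∅ isC_empty, mE 1 Finset.univ isC_univ} : Finset Co0) : Set Co0) := by
      intro x hx
      obtain ⟨c, hc, rfl⟩ := hle hx
      by_cases h0 : c = ∅
      · subst h0; simp
      · have := hcon c ⟨hc, hx⟩ (Finset.nonempty_iff_ne_empty.2 h0)
        subst this; simp
    have : Nat.card X ≤ 2 := by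
      have e1 : Nat.card X = (X : Set Co0).ncard := rfl
      rw [e1]
      calc (X : Set Co0).ncard ≤ ((({mE 1 ∅ isC_empty, mE 1 Finset.univ isC_univ} : Finset Co0) : Set Co0)).ncard :=
            Set.ncard_le_ncard hsub (Finset.finite_toSet _)
        _ = ({mE 1 ∅ isC_empty, mE 1 Finset.univ isC_univ} : Finset Co0).card := Set.ncard_coe_finset _
        _ ≤ 2 := Finset.card_le_two
    omega
  obtain ⟨c, hPc, c0, c1⟩ := hex
  have hfull := inv_code_full P hP0 hPadd hPinv (fun s hs => hs.1) hPc c0 c1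
  apply le_antisymm hle
  rintro _ ⟨d, hd, rfl⟩
  exact (hfull d hd).2

end Cfsg.Agent.Lib.Helper10
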