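import Mathlib
import Cfsg.Prelude.Def_MonsterType
import Cfsg.Agent.S5552

set_option autoImplicit false
open Cfsg

namespace Cfsg.Agent.Lib.Helper10

open Cfsg.Agent.Lib.Helper28

/-- Abstract form of the Monster-type centralizer: `H` plays `C(z)`, `c` plays `z`. -/
structure MS {H : Type*} [Group H] (Q : Subgroup H) (c : H) (π : H →* Spor.Co1)
    (T : leechLattice → H → Prop) : Prop where
  c_mem : c ∈ Q
  c_ne : c ≠ 1
  c_sq : c * c = 1
  c_comm : ∀ h : H, h * c = c * h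
  cen : ∀ x ∈ Q, (∀ y ∈ Q, x * y = y * x) → x = 1 ∨ x = c
  ker : ∀ h : H, π h = 1 ↔ h ∈ Q
  surj : Function.Surjective π
  T_mem : ∀ v x, T v x → x ∈ Q
  T_exv : ∀ x ∈ Q, ∃ v, T v x
  T_exx : ∀ v, ∃ x, T v x
  T_mul : ∀ v w x y, T v x → T w y → T (v + w) (x * y)
  T_uniq : ∀ v x y, T v x → T v y → y = x ∨ y = x * c
  T_c : ∀ v x, T v x → T v (x * c)
  T_one : ∀ v, T v 1 ↔ ∃ w, v = w + w
  T_conj : ∀ (h : H) (g : Co0), (QuotientGroup.mk g : Spor.Co1) = π h →
    ∀ v x, T v x → T (g • v) (h * x * h⁻¹)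
  card : Nat.card Q = 2 ^ 25

namespace MS

variable {H : Type*} [Group H] {Q : Subgroup H} {c : H} {π : H →* Spor.Co1}
  {T : leechLattice → H → Prop}

theorem sq_mem (M : MS Q c π T) {x : H} (hx : x ∈ Q) : x * x = 1 ∨ x * x = c := by
  obtain ⟨v, hv⟩ := M.T_exv x hx
  have h1 := M.T_mul v v x x hv hv
  have h2 := (M.T_one (v + v)).2 ⟨v, rfl⟩
  simpa using M.T_uniq _ _ _ h2 h1

theorem comm_mem (M : MS Q c π T) {x y : H} (hx : x ∈ Q) (hy : y ∈ Q) :
    x * y = y * x ∨ x * y = y * x * c := by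
  obtain ⟨v, hv⟩ := M.T_exv x hx
  obtain ⟨w, hw⟩ := M.T_exv y hy
  have h1 := M.T_mul v w x y hv hw
  have h2 := M.T_mul w v y x hw hv
  rw [add_comm] at h2
  exact M.T_uniq _ _ _ h2 h1

theorem sq_pow (M : MS Q c π T) {x : H} (hx : x ∈ Q) : ∃ n : ℕ, x * x = c ^ n := by
  rcases M.sq_mem hx with h | h
  · exact ⟨0, by simpa using h⟩
  · exact ⟨1, by simpa using h⟩

theorem comm_pow (M : MS Q c π T) {x y : H} (hx : x ∈ Q) (hy : y ∈ Q) :
    ∃ n : ℕ, x * y = y * x * c ^ n := by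
  rcases M.comm_mem hx hy with h | h
  · exact ⟨0, by simpa using h⟩
  · exact ⟨1, by simpa using h⟩

theorem cpow_comm (M : MS Q c π T) (n : ℕ) (h : H) : h * c ^ n = c ^ n * h :=
  ((show Commute h c from M.c_comm h).pow_right n)

theorem orderOf_c (M : MS Q c π T) : orderOf c = 2 :=
  orderOf_eq_prime (by rw [pow_two]; exact M.c_sq) M.c_ne

theorem cpow_eq (M : MS Q c π T) (n m : ℕ) : c ^ n = c ^ m ↔ (n : ZMod 2) = m := by
  rw [pow_eq_pow_iff_modEq, M.orderOf_c, ZMod.natCast_eq_natCast_iff]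

open Classical in
/-- the squaring form -/
noncomputable def f (_ : MS Q c π T) (v : leechLattice) : ZMod 2 :=
  if ∃ x, T v x ∧ x * x = 1 then 0 else 1

theorem sq_c (M : MS Q c π T) (x : H) : (x * c) * (x * c) = x * x := by
  calc (x * c) * (x * c) = x * (c * x) * c := by group
    _ = x * (x * c) * c := by rw [M.c_comm x]
    _ = x * x * (c * c) := by group
    _ = x * x := by rw [M.c_sq, mul_one]

theorem f_spec (M : MS Q c π T) {v : leechLattice} {x : H} (hx : T v x) {n : ℕ} (hn : x * x = c ^ n) :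
    M.f v = n := by
  unfold f
  split_ifs with h
  · obtain ⟨x', h1, h2⟩ := h
    have : x * x = 1 := by
      rcases M.T_uniq _ _ _ hx h1 with e | e
      · rw [← e]; exact h2
      · rw [e, M.sq_c] at h2; exact h2
    rw [hn, ← pow_zero c, M.cpow_eq] at this
    rw [this]; simp
  · have : x * x ≠ 1 := fun e => h ⟨x, hx, e⟩
    rw [hn, ← pow_zero c, Ne, M.cpow_eq] at this
    revert this
    generalize (n : ZMod 2) = t
    revert t
    decide

theorem f_coset (M : MS Q c π T) (v w : leechLattice) : M.f (v + (w + w)) = M.f v := by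
  obtain ⟨x, hx⟩ := M.T_exx v
  obtain ⟨n, hn⟩ := M.sq_pow (M.T_mem _ _ hx)
  have h1 := M.T_mul _ _ _ _ hx ((M.T_one (w + w)).2 ⟨w, rfl⟩)
  rw [mul_one] at h1
  rw [M.f_spec hx hn, M.f_spec h1 hn]

theorem sq_mul (M : MS Q c π T) {x y : H} {a b k : ℕ} (hx : x * x = c ^ a) (hy : y * y = c ^ b)
    (hxy : y * x = x * y * c ^ k) : (x * y) * (x * y) = c ^ (a + b + k) := by
  calc (x * y) * (x * y) = x * (y * x) * y := by group
    _ = x * (x * y * c ^ k) * y := by rw [hxy]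
    _ = x * x * y * (c ^ k * y) := by group
    _ = x * x * y * (y * c ^ k) := by rw [M.cpow_comm k y]
    _ = (x * x) * (y * y) * c ^ k := by group
    _ = c ^ (a + b + k) := by rw [hx, hy, pow_add, pow_add]

theorem comm_mul (M : MS Q c π T) {x y w : H} {a b : ℕ} (hx : w * x = x * w * c ^ a)
    (hy : w * y = y * w * c ^ b) : w * (x * y) = (x * y) * w * c ^ (a + b) := by
  calc w * (x * y) = (w * x) * y := by group
    _ = x * w * c ^ a * y := by rw [hx]
    _ = x * w * (c ^ a * y) := by group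
    _ = x * w * (y * c ^ a) := by rw [M.cpow_comm a y]
    _ = x * (w * y) * c ^ a := by group
    _ = x * (y * w * c ^ b) * c ^ a := by rw [hy]
    _ = x * y * w * (c ^ b * c ^ a) := by group
    _ = (x * y) * w * c ^ (a + b) := by rw [← pow_add, add_comm]

theorem f_quad (M : MS Q c π T) (u v w : leechLattice) :
    M.f (u + v + w) + M.f u + M.f v + M.f w = M.f (u + v) + M.f (u + w) + M.f (v + w) := by
  obtain ⟨x, hx⟩ := M.T_exx u
  obtain ⟨y, hy⟩ := M.T_exx v
  obtain ⟨k, hk⟩ := M.T_exx w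
  have mx := M.T_mem _ _ hx
  have my := M.T_mem _ _ hy
  have mk := M.T_mem _ _ hk
  obtain ⟨a1, e1⟩ := M.sq_pow mx
  obtain ⟨a2, e2⟩ := M.sq_pow my
  obtain ⟨a3, e3⟩ := M.sq_pow mk
  obtain ⟨b1, c1⟩ := M.comm_pow my mx
  obtain ⟨b2, c2⟩ := M.comm_pow mk mx
  obtain ⟨b3, c3⟩ := M.comm_pow mk my
  have s1 := M.sq_mul e1 e2 c1
  have s2 := M.sq_mul e1 e3 c2
  have s3 := M.sq_mul e2 e3 c3
  have s4 := M.sq_mul s1 e3 (M.comm_mul c2 c3)
  rw [M.f_spec hx e1, M.f_spec hy e2, M.f_spec hk e3, M.f_spec (M.T_mul _ _ _ _ hx hy) s1,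
    M.f_spec (M.T_mul _ _ _ _ hx hk) s2, M.f_spec (M.T_mul _ _ _ _ hy hk) s3,
    M.f_spec (M.T_mul _ _ _ _ (M.T_mul _ _ _ _ hx hy) hk) s4]
  push_cast
  generalize (a1 : ZMod 2) = A1
  generalize (a2 : ZMod 2) = A2
  generalize (a3 : ZMod 2) = A3
  generalize (b1 : ZMod 2) = B1
  generalize (b2 : ZMod 2) = B2
  generalize (b3 : ZMod 2) = B3
  have h2 : ∀ t : ZMod 2, t + t = 0 := by decide
  linear_combination h2 A1 + h2 A2 + h2 A3 - h2 A1 - h2 A2 - h2 A3

theorem f_inv (M : MS Q c π T) (g : Co0) (v : leechLattice) : M.f (g • v) = M.f v := by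
  obtain ⟨x, hx⟩ := M.T_exx v
  obtain ⟨n, hn⟩ := M.sq_pow (M.T_mem _ _ hx)
  obtain ⟨h, hh⟩ := M.surj (QuotientGroup.mk g)
  have h1 := M.T_conj h g hh.symm v x hx
  have h2 : (h * x * h⁻¹) * (h * x * h⁻¹) = c ^ n := by
    calc (h * x * h⁻¹) * (h * x * h⁻¹) = h * (x * x) * h⁻¹ := by group
      _ = h * c ^ n * h⁻¹ := by rw [hn]
      _ = c ^ n := by rw [M.cpow_comm n h]; group
  rw [M.f_spec hx hn, M.f_spec h1 h2]

theorem f_ne (M : MS Q c π T) : ∃ v, M.f v ≠ 0 := by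
  classical
  by_contra hcon
  push Not at hcon
  have hsq : ∀ x ∈ Q, x * x = 1 := by
    intro x hx
    obtain ⟨v, hv⟩ := M.T_exv x hx
    obtain ⟨n, hn⟩ := M.sq_pow hx
    have := M.f_spec hv hn
    rw [hcon v] at this
    rw [hn, ← pow_zero c, M.cpow_eq, ← this]; simp
  have hab : ∀ x ∈ Q, ∀ y ∈ Q, x * y = y * x := by
    intro x hx y hy
    have h1 := hsq x hx
    have h2 := hsq y hy
    have h3 := hsq (x * y) (Q.mul_mem hx hy)
    calc x * y = y * y * (x * y) * (x * x) := by rw [h1, h2]; group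
      _ = y * (y * x) * (y * x) * x := by group
      _ = y * ((y * x) * (y * x)) * x := by group
      _ = y * x := by rw [hsq (y * x) (Q.mul_mem hy hx)]; group
  have hsub : (Q : Set H) ⊆ (({1, c} : Finset H) : Set H) := by
    intro x hx
    rcases M.cen x hx (fun y hy => hab x hx y hy) with h | h <;> simp [h]
  have hle : Nat.card Q ≤ 2 := by
    have h1 : Nat.card Q = (Q : Set H).ncard := rfl
    rw [h1]
    calc (Q : Set H).ncard ≤ ((({1, c} : Finset H) : Set H)).ncard :=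
          Set.ncard_le_ncard hsub (Finset.finite_toSet _)
      _ = ({1, c} : Finset H).card := Set.ncard_coe_finset _
      _ ≤ 2 := Finset.card_le_two
  rw [M.card] at hle
  norm_num at hle

theorem f_eq (M : MS Q c π T) (v : leechLattice) :
    M.f v = ((sqNorm (v : GolayPt → ℤ) / 16 : ℤ) : ZMod 2) :=
  Cfsg.Agent.S5552.result M.f M.f_coset M.f_quad M.f_inv M.f_ne v

theorem sq_iff (M : MS Q c π T) {v : leechLattice} {x : H} (hx : T v x) :
    x * x = 1 ↔ (32 : ℤ) ∣ sqNorm v.1 := by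
  obtain ⟨n, hn⟩ := M.sq_pow (M.T_mem _ _ hx)
  have h1 := M.f_spec hx hn
  rw [M.f_eq] at h1
  rw [hn, ← pow_zero c, M.cpow_eq, ← h1, Nat.cast_zero, ZMod.intCast_zmod_eq_zero_iff_dvd]
  obtain ⟨k, hk⟩ := sqNorm_dvd v.2
  rw [hk]
  constructor
  · intro h
    rw [Int.mul_ediv_cancel_left _ (by norm_num)] at h
    obtain ⟨j, hj⟩ := h
    exact ⟨j, by push_cast at hj; rw [hj]; ring⟩
  · rintro ⟨j, hj⟩
    rw [Int.mul_ediv_cancel_left _ (by norm_num)]
    exact ⟨j, by push_cast; omega⟩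

/-- change of representative modulo twice the lattice -/
theorem T_shift (M : MS Q c π T) {v w : leechLattice} {x : H} (hx : T (v + (w + w)) x) : T v x := by
  obtain ⟨x', hx'⟩ := M.T_exx v
  have h1 := M.T_mul _ _ _ _ hx' ((M.T_one (w + w)).2 ⟨w, rfl⟩)
  rw [mul_one] at h1
  rcases M.T_uniq _ _ _ h1 hx with e | e
  · rw [e]; exact hx'
  · rw [e]; exact M.T_c _ _ hx'

theorem T_zero (M : MS Q c π T) {x : H} (hx : T 0 x) : x = 1 ∨ x = c := by
  have h1 := (M.T_one 0).2 ⟨0, by simp⟩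
  simpa using M.T_uniq _ _ _ h1 hx

theorem norm_vals {y : GolayPt → ℤ} (hy : y ∈ leechLattice) (hn : sqNorm y ≤ 64) :
    y = 0 ∨ sqNorm y = 32 ∨ sqNorm y = 48 ∨ sqNorm y = 64 := by
  by_cases h0 : y = 0
  · exact Or.inl h0
  · right
    have h1 := min_norm hy h0
    obtain ⟨k, hk⟩ := sqNorm_dvd hy
    omega

/-- every element of `Q` outside the centre has a type -/
theorem type_of (M : MS Q c π T) {x : H} (hx : x ∈ Q) (h1 : x ≠ 1) (hc : x ≠ c) :
    ∃ v : leechLattice, T v x ∧ (sqNorm v.1 = 32 ∨ sqNorm v.1 = 48 ∨ sqNorm v.1 = 64) := by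
  obtain ⟨v0, hv0⟩ := M.T_exv x hx
  obtain ⟨y, hy, hn, z, hz, hxy⟩ := exists_short_rep v0.2
  have e : v0 = (⟨y, hy⟩ : leechLattice) + ((⟨z, hz⟩ : leechLattice) + ⟨z, hz⟩) := by
    apply Subtype.ext
    show v0.1 = y + (z + z)
    rw [← two_smul ℕ z, ← hxy]; abel
  rw [e] at hv0
  have h2 := M.T_shift hv0
  rcases norm_vals hy hn with h | h
  · exfalso
    have : (⟨y, hy⟩ : leechLattice) = 0 := Subtype.ext h
    rw [this] at h2
    rcases M.T_zero h2 with h | h
    · exact h1 h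
    · exact hc h
  · exact ⟨⟨y, hy⟩, h2, h⟩

theorem not_double {v : leechLattice} (hv : sqNorm v.1 = 32 ∨ sqNorm v.1 = 48 ∨ sqNorm v.1 = 64) :
    ¬ ∃ w : leechLattice, v = w + w := by
  rintro ⟨w, rfl⟩
  have h1 : sqNorm (w + w : leechLattice).1 = 4 * sqNorm w.1 := by
    show sqNorm (w.1 + w.1) = _
    rw [sqNorm_add, dotInt_self]; ring
  rw [h1] at hv
  by_cases h0 : w.1 = 0
  · rw [h0] at hv
    simp [sqNorm] at hv
  · have := min_norm w.2 h0
    omega

theorem ne_of_type (M : MS Q c π T) {v : leechLattice} {x : H} (hx : T v x)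
    (hv : sqNorm v.1 = 32 ∨ sqNorm v.1 = 48 ∨ sqNorm v.1 = 64) : x ≠ 1 ∧ x ≠ c := by
  constructor
  · rintro rfl
    exact not_double hv ((M.T_one v).1 hx)
  · rintro rfl
    have := M.T_c _ _ hx
    rw [M.c_sq] at this
    exact not_double hv ((M.T_one v).1 this)

/-- a non-central element of `Q` is `Q`-conjugate to its product with `c` -/
theorem exists_flip (M : MS Q c π T) {x : H} (hx : x ∈ Q) (h1 : x ≠ 1) (hc : x ≠ c) :
    ∃ y ∈ Q, y * x * y⁻¹ = x * c := by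
  by_contra hcon
  push Not at hcon
  rcases M.cen x hx (fun y hy => by
    rcases M.comm_mem hy hx with h | h
    · exact h.symm
    · exact absurd (by rw [h, mul_assoc x y c, M.c_comm y]; group) (hcon y hy)) with h | h
  · exact h1 h
  · exact hc h

theorem conj_of_type (M : MS Q c π T) {v w : leechLattice} {x y : H} (hx : T v x) (hy : T w y)
    (hv : sqNorm v.1 = 32 ∨ sqNorm v.1 = 48 ∨ sqNorm v.1 = 64) (hvw : sqNorm v.1 = sqNorm w.1) :
    ∃ h : H, h * x * h⁻¹ = y := by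
  have hg : ∃ g : Co0, g • v = w := by
    rcases hv with h | h | h
    · exact Co0_trans32 v w h (by rw [← hvw]; exact h)
    · exact Co0_trans48 v w h (by rw [← hvw]; exact h)
    · exact Co0_trans64 v w h (by rw [← hvw]; exact h)
  obtain ⟨g, rfl⟩ := hg
  obtain ⟨h, hh⟩ := M.surj (QuotientGroup.mk g)
  have h1 := M.T_conj h g hh.symm v x hx
  rcases M.T_uniq _ _ _ h1 hy with e | e
  · exact ⟨h, e.symm⟩
  · have hv' : sqNorm (g • v : leechLattice).1 = 32 ∨ sqNorm (g • v : leechLattice).1 = 48 ∨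
        sqNorm (g • v : leechLattice).1 = 64 := by rw [← hvw]; exact hv
    obtain ⟨n1, n2⟩ := M.ne_of_type h1 hv'
    obtain ⟨k, _, hk⟩ := M.exists_flip (M.T_mem _ _ h1) n1 n2
    refine ⟨k * h, ?_⟩
    rw [e, ← hk]; group

end MS

end Cfsg.Agent.Lib.Helper10
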