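import Mathlib
import Cfsg.Agent.Lib.Helper10.Monster1

set_option autoImplicit false
open Cfsg

namespace Cfsg.Agent.Lib.Helper10

open Cfsg.Agent.Lib.Helper28

theorem self_mem_cent {G : Type*} [Group G] (z : G) : z ∈ Subgroup.centralizer ({z} : Set G) := by
  rw [Subgroup.mem_centralizer_iff]
  intro h hh
  rw [Set.mem_singleton_iff.1 hh]

/-- the element `z` inside its centralizer -/
def zC {G : Type*} [Group G] (z : G) : Subgroup.centralizer ({z} : Set G) := ⟨z, self_mem_cent z⟩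

theorem zC_comm {G : Type*} [Group G] (z : G) (h : Subgroup.centralizer ({z} : Set G)) :
    h * zC z = zC z * h := by
  apply Subtype.ext
  show h.1 * z = z * h.1
  exact ((Subgroup.mem_centralizer_iff.1 h.2) z rfl).symm

theorem center_le_gfit (C : Type*) [Group C] : Subgroup.center C ≤ generalizedFittingSubgroup C := by
  refine le_trans ?_ le_sup_right
  have hn : Group.IsNilpotent (Subgroup.center C) :=
    ⟨1, Subgroup.upperCentralSeries_one_eq_top_iff.2 inferInstance⟩
  exact le_sSup (show Subgroup.center C ∈ {N : Subgroup C | N.Normal ∧ Group.IsNilpotent N} from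
    ⟨inferInstance, hn⟩)

/-- the relation between lattice vectors and elements of `Q` -/
def relT {G : Type*} [Group G] {z : G} (Q : Subgroup (Subgroup.centralizer ({z} : Set G)))
    (ψ : leechLattice → Q ⧸ Subgroup.center Q) (v : leechLattice)
    (x : Subgroup.centralizer ({z} : Set G)) : Prop :=
  ∃ hx : x ∈ Q, ψ v = QuotientGroup.mk ⟨x, hx⟩

theorem ms_of {G : Type*} [Group G] (z : G)
    (Q : Subgroup (Subgroup.centralizer ({z} : Set G))) [Q.Normal]
    (hE : IsExtraspecialCentralizerSetting z Q 12)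
    (e : (Subgroup.centralizer ({z} : Set G)) ⧸ Q ≃* Spor.Co1)
    (ψ : leechLattice → Q ⧸ Subgroup.center Q) (hψ : IsLeechModTwoIso Q e ψ) :
    MS Q (zC z) (e.toMonoidHom.comp (QuotientGroup.mk' Q)) (relT Q ψ) := by
  obtain ⟨ho, hF, hX, hcard, -⟩ := hE
  obtain ⟨hadd, hsurj, hker, hconj⟩ := hψ
  have cQ : zC z ∈ Q := by
    rw [← hF]
    apply center_le_gfit
    rw [Subgroup.mem_center_iff]
    exact zC_comm z
  have z1 : z ≠ 1 := by
    rintro rfl
    simp at ho
  have zz : z * z = 1 := by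
    have := pow_orderOf_eq_one z
    rwa [ho, pow_two] at this
  have c1 : zC z ≠ 1 := fun h => z1 (congrArg Subtype.val h)
  have ccen : (⟨zC z, cQ⟩ : Q) ∈ Subgroup.center Q := by
    rw [Subgroup.mem_center_iff]
    intro g
    apply Subtype.ext
    exact zC_comm z g.1
  have hcen : ∀ x : Q, x ∈ Subgroup.center Q → x = 1 ∨ x = ⟨zC z, cQ⟩ := by
    intro x hx
    have h2 := hX.2
    obtain ⟨y, hy1, hy2⟩ := (Nat.card_eq_two_iff' (1 : Subgroup.center Q)).1 h2
    by_cases hx1 : x = 1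
    · exact Or.inl hx1
    · right
      have a1 := hy2 ⟨x, hx⟩ (fun h => hx1 (congrArg Subtype.val h))
      have a2 := hy2 ⟨⟨zC z, cQ⟩, ccen⟩ (fun h => c1 (congrArg (fun t => t.1.1) h))
      have := a1.trans a2.symm
      exact congrArg Subtype.val this
  refine ⟨cQ, c1, Subtype.ext zz, zC_comm z, ?_, ?_, ?_, ?_, ?_, ?_, ?_, ?_, ?_, ?_, ?_, by rw [hcard]⟩
  · intro x hx hc
    have : (⟨x, hx⟩ : Q) ∈ Subgroup.center Q := by
      rw [Subgroup.mem_center_iff]
      intro g
      apply Subtype.ext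
      exact (hc g.1 g.2).symm
    rcases hcen _ this with h | h
    · exact Or.inl (congrArg Subtype.val h)
    · exact Or.inr (congrArg Subtype.val h)
  · intro h
    show e (QuotientGroup.mk h) = 1 ↔ _
    rw [MulEquiv.map_eq_one_iff, QuotientGroup.eq_one_iff]
  · exact e.surjective.comp (QuotientGroup.mk'_surjective Q)
  · rintro v x ⟨hx, -⟩
    exact hx
  · intro x hx
    obtain ⟨v, hv⟩ := hsurj (QuotientGroup.mk ⟨x, hx⟩)
    exact ⟨v, hx, hv⟩
  · intro v
    obtain ⟨q, hq⟩ := QuotientGroup.mk_surjective (ψ v)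
    exact ⟨q.1, q.2, hq.symm⟩
  · rintro v w x y ⟨hx, h1⟩ ⟨hy, h2⟩
    refine ⟨Q.mul_mem hx hy, ?_⟩
    rw [hadd, h1, h2]
    rfl
  · rintro v x y ⟨hx, h1⟩ ⟨hy, h2⟩
    rw [h1] at h2
    have := QuotientGroup.eq.1 h2
    rcases hcen _ this with h | h
    · left
      have h' := congrArg (fun t : Q => t.1) h
      have h'' : x⁻¹ * y = 1 := h'
      exact (inv_mul_eq_one.1 h'').symm
    · right
      have h' := congrArg (fun t : Q => t.1) h
      have h'' : x⁻¹ * y = zC z := h'
      rw [← h'']; group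
  · rintro v x ⟨hx, h1⟩
    refine ⟨Q.mul_mem hx cQ, ?_⟩
    rw [h1]
    apply QuotientGroup.eq.2
    have : (⟨x, hx⟩ : Q)⁻¹ * ⟨x * zC z, Q.mul_mem hx cQ⟩ = ⟨zC z, cQ⟩ := by
      apply Subtype.ext
      show x⁻¹ * (x * zC z) = zC z
      group
    rw [this]
    exact ccen
  · intro v
    rw [← hker v]
    constructor
    · rintro ⟨_, h⟩
      rw [h]; rfl
    · intro h
      exact ⟨Q.one_mem, by rw [h]; rfl⟩
  · rintro h g hg v x ⟨hx, h1⟩
    exact ⟨_, hconj h g hg v ⟨x, hx⟩ h1⟩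

theorem MS.type_of_inv {H : Type*} [Group H] {Q : Subgroup H} {c : H} {π : H →* Spor.Co1}
    {T : leechLattice → H → Prop} (M : MS Q c π T) {x : H} (hx : x ∈ Q) (h2 : x * x = 1)
    (h1 : x ≠ 1) (hc : x ≠ c) :
    ∃ v : leechLattice, T v x ∧ (sqNorm v.1 = 32 ∨ sqNorm v.1 = 64) := by
  obtain ⟨v, hv, hn⟩ := M.type_of hx h1 hc
  refine ⟨v, hv, ?_⟩
  have := (M.sq_iff hv).1 h2
  rcases hn with h | h | h
  · exact Or.inl h
  · rw [h] at this; norm_num at this
  · exact Or.inr h

/-- the conjugate of `z` in `Q` provided by the hypothesis -/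
theorem exists_conj_type {G : Type*} [Group G] (z : G)
    (Q : Subgroup (Subgroup.centralizer ({z} : Set G))) [Q.Normal]
    (hE : IsExtraspecialCentralizerSetting z Q 12)
    (e : (Subgroup.centralizer ({z} : Set G)) ⧸ Q ≃* Spor.Co1)
    (ψ : leechLattice → Q ⧸ Subgroup.center Q) (hψ : IsLeechModTwoIso Q e ψ) :
    ∃ (g : G) (r : Subgroup.centralizer ({z} : Set G)) (v : leechLattice), r.1 = g * z * g⁻¹ ∧
      relT Q ψ v r ∧ (sqNorm v.1 = 32 ∨ sqNorm v.1 = 64) := by
  have M := ms_of z Q hE e ψ hψ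
  obtain ⟨-, -, -, -, g, ⟨hrc, hrQ⟩, hr1⟩ := hE
  have zz : z * z = 1 := congrArg Subtype.val M.c_sq
  have z1 : z ≠ 1 := fun h => M.c_ne (Subtype.ext h)
  obtain ⟨v, hv, hn⟩ := M.type_of_inv hrQ
    (by apply Subtype.ext
        show g * z * g⁻¹ * (g * z * g⁻¹) = 1
        calc g * z * g⁻¹ * (g * z * g⁻¹) = g * (z * z) * g⁻¹ := by group
          _ = 1 := by rw [zz]; group)
    (by intro h
        have h' : g * z * g⁻¹ = 1 := congrArg Subtype.val h
        apply z1
        calc z = g⁻¹ * (g * z * g⁻¹) * g := by group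
          _ = 1 := by rw [h']; group)
    (fun h => hr1 (congrArg Subtype.val h))
  exact ⟨g, _, v, rfl, hv, hn⟩

end Cfsg.Agent.Lib.Helper10
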