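import Mathlib
import Cfsg.Agent.Lib.Helper10.Monster2
import Cfsg.Agent.Lib.Helper10.LeechSimple3

set_option autoImplicit false
open Cfsg

namespace Cfsg.Agent.Lib.Helper10

open Cfsg.Agent.Lib.Helper28

/-- the centralizer in `Q` of an element -/
def CQ {H : Type*} [Group H] (Q : Subgroup H) (t : H) : Subgroup H := Q ⊓ Subgroup.centralizer {t}

theorem mem_CQ {H : Type*} [Group H] {Q : Subgroup H} {t x : H} : x ∈ CQ Q t ↔ x ∈ Q ∧ x * t = t * x := by
  unfold CQ
  rw [Subgroup.mem_inf, Subgroup.mem_centralizer_iff]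
  constructor
  · rintro ⟨h1, h2⟩
    exact ⟨h1, (h2 t rfl).symm⟩
  · rintro ⟨h1, h2⟩
    refine ⟨h1, ?_⟩
    intro h hh
    rw [Set.mem_singleton_iff.1 hh]
    exact h2.symm

/-- the centralizer in `Q` of `C_Q(t)` -/
def CQQ {H : Type*} [Group H] (Q : Subgroup H) (t : H) : Subgroup H :=
  Q ⊓ Subgroup.centralizer (CQ Q t : Set H)

theorem mem_CQQ {H : Type*} [Group H] {Q : Subgroup H} {t x : H} :
    x ∈ CQQ Q t ↔ x ∈ Q ∧ ∀ p ∈ CQ Q t, x * p = p * x := by
  unfold CQQ
  rw [Subgroup.mem_inf, Subgroup.mem_centralizer_iff]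
  constructor
  · rintro ⟨h1, h2⟩
    exact ⟨h1, fun p hp => (h2 p hp).symm⟩
  · rintro ⟨h1, h2⟩
    exact ⟨h1, fun p hp => (h2 p hp).symm⟩

namespace MS

variable {H : Type*} [Group H] {Q : Subgroup H} {c : H} {π : H →* Spor.Co1}
  {T : leechLattice → H → Prop}

theorem mul_c_ne (M : MS Q c π T) (x : H) : x * c ≠ x := by
  intro h
  exact M.c_ne (mul_eq_left.1 h)

theorem flip_xor (M : MS Q c π T) {t y b : H} (ht : t ∈ Q) (hy : y * t * y⁻¹ = t * c) (hb : b ∈ Q) :
    Xor (b * y * t = t * (b * y)) (b * t = t * b) := by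
  have hy' : y * t = t * y * c := by
    calc y * t = (y * t * y⁻¹) * y := by group
      _ = t * c * y := by rw [hy]
      _ = t * (c * y) := by group
      _ = t * (y * c) := by rw [M.c_comm y]
      _ = t * y * c := by group
  rcases M.comm_mem hb ht with h | h
  · right
    refine ⟨h, ?_⟩
    intro h2
    have : b * y * t = t * (b * y) * c := by
      calc b * y * t = b * (y * t) := by group
        _ = b * (t * y * c) := by rw [hy']
        _ = (b * t) * y * c := by group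
        _ = t * b * y * c := by rw [h]
        _ = t * (b * y) * c := by group
    rw [h2] at this
    exact M.mul_c_ne _ this.symm
  · left
    refine ⟨?_, ?_⟩
    · calc b * y * t = b * (y * t) := by group
        _ = b * (t * y * c) := by rw [hy']
        _ = (b * t) * y * c := by group
        _ = t * b * c * y * c := by rw [h]
        _ = t * b * (c * y) * c := by group
        _ = t * b * (y * c) * c := by rw [M.c_comm y]
        _ = t * (b * y) * (c * c) := by group
        _ = t * (b * y) := by rw [M.c_sq, mul_one]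
    · intro h2
      rw [h2] at h
      exact M.mul_c_ne _ h.symm

theorem card_CQ (M : MS Q c π T) {t : H} (ht : t ∈ Q) (h1 : t ≠ 1) (hc : t ≠ c) :
    Nat.card (CQ Q t) = 2 ^ 24 := by
  obtain ⟨y, hyQ, hy⟩ := M.exists_flip ht h1 hc
  have hidx : ((CQ Q t).subgroupOf Q).index = 2 := by
    rw [Subgroup.index_eq_two_iff]
    refine ⟨⟨y, hyQ⟩, fun b => ?_⟩
    have := M.flip_xor ht hy b.2
    simp only [Subgroup.mem_subgroupOf, mem_CQ]
    rcases this with ⟨h1, h2⟩ | ⟨h1, h2⟩
    · left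
      exact ⟨⟨Q.mul_mem b.2 hyQ, h1⟩, fun h => h2 h.2⟩
    · right
      exact ⟨⟨b.2, h1⟩, fun h => h2 h.2⟩
  have hle : CQ Q t ≤ Q := inf_le_left
  have h2 := ((CQ Q t).subgroupOf Q).card_mul_index
  rw [hidx, M.card, Nat.card_congr (Subgroup.subgroupOfEquivOfLe hle).toEquiv] at h2
  omega

theorem card_CQQ (M : MS Q c π T) {t : H} (ht : t ∈ Q) (h1 : t ≠ 1) (hc : t ≠ c) :
    Nat.card (CQQ Q t) ≤ 4 := by
  classical
  obtain ⟨y, hyQ, hy⟩ := M.exists_flip ht h1 hc
  have key : ∀ x ∈ CQQ Q t, x * y = y * x → x = 1 ∨ x = c := by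
    intro x hx hxy
    obtain ⟨hxQ, hxP⟩ := mem_CQQ.1 hx
    apply M.cen x hxQ
    intro q hq
    rcases M.flip_xor ht hy hq with ⟨a1, -⟩ | ⟨a1, -⟩
    · have hp := hxP (q * y) (mem_CQ.2 ⟨Q.mul_mem hq hyQ, a1⟩)
      calc x * q = x * (q * y) * y⁻¹ := by group
        _ = q * y * x * y⁻¹ := by rw [hp]
        _ = q * (y * x) * y⁻¹ := by group
        _ = q * (x * y) * y⁻¹ := by rw [hxy]
        _ = q * x := by group
    · exact hxP q (mem_CQ.2 ⟨hq, a1⟩)
  have hfin : ∀ S : Finset H, ((CQQ Q t : Subgroup H) : Set H) ⊆ (S : Set H) → S.card ≤ 4 →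
      Nat.card (CQQ Q t) ≤ 4 := by
    intro S hS hc4
    have e1 : Nat.card (CQQ Q t) = ((CQQ Q t : Subgroup H) : Set H).ncard := rfl
    rw [e1]
    calc ((CQQ Q t : Subgroup H) : Set H).ncard ≤ (S : Set H).ncard :=
          Set.ncard_le_ncard hS (Finset.finite_toSet _)
      _ = S.card := Set.ncard_coe_finset _
      _ ≤ 4 := hc4
  by_cases hex : ∃ x1 ∈ CQQ Q t, x1 * y ≠ y * x1
  · obtain ⟨x1, hx1, hne⟩ := hex
    have e1 : x1 * y = y * x1 * c := by
      rcases M.comm_mem (mem_CQQ.1 hx1).1 hyQ with h | h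
      · exact absurd h hne
      · exact h
    apply hfin {1, c, x1, x1 * c} _ Finset.card_le_four
    intro x hx
    by_cases hxy : x * y = y * x
    · rcases key x hx hxy with h | h <;> simp [h]
    · have e2 : x * y = y * x * c := by
        rcases M.comm_mem (mem_CQQ.1 hx).1 hyQ with h | h
        · exact absurd h hxy
        · exact h
      have e3 : (x1⁻¹ * x) * y = y * (x1⁻¹ * x) := by
        have e1' : x1⁻¹ * y = y * x1⁻¹ * c := by
          calc x1⁻¹ * y = x1⁻¹ * (y * x1 * c) * (c * x1⁻¹) := by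
                rw [show x1⁻¹ * (y * x1 * c) * (c * x1⁻¹) = x1⁻¹ * y * x1 * (c * c) * x1⁻¹ by group,
                  M.c_sq]; group
            _ = x1⁻¹ * (x1 * y) * (c * x1⁻¹) := by rw [e1]
            _ = y * (c * x1⁻¹) := by group
            _ = y * (x1⁻¹ * c) := by rw [M.c_comm x1⁻¹]
            _ = y * x1⁻¹ * c := by group
        calc (x1⁻¹ * x) * y = x1⁻¹ * (x * y) := by group
          _ = x1⁻¹ * (y * x * c) := by rw [e2]
          _ = (x1⁻¹ * y) * x * c := by group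
          _ = y * x1⁻¹ * c * x * c := by rw [e1']
          _ = y * x1⁻¹ * (c * x) * c := by group
          _ = y * x1⁻¹ * (x * c) * c := by rw [M.c_comm x]
          _ = y * (x1⁻¹ * x) * (c * c) := by group
          _ = y * (x1⁻¹ * x) := by rw [M.c_sq, mul_one]
      rcases key _ ((CQQ Q t).mul_mem ((CQQ Q t).inv_mem hx1) hx) e3 with h | h
      · have : x = x1 := (inv_mul_eq_one.1 h).symm
        simp [this]
      · have : x = x1 * c := by rw [← h]; group
        simp [this]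
  · push Not at hex
    apply hfin {1, c} _ (le_trans Finset.card_le_two (by norm_num))
    intro x hx
    rcases key x hx (hex x hx) with h | h <;> simp [h]

theorem c_mem_CQ (M : MS Q c π T) (t : H) : c ∈ CQ Q t := mem_CQ.2 ⟨M.c_mem, (M.c_comm t).symm⟩

/-- (A1): any homomorphism from `C_Q(t)` to `H` sends `c` into `Q` -/
theorem hom_c_mem (M : MS Q c π T) {t : H} (ht : t ∈ Q) (h1 : t ≠ 1) (hc : t ≠ c)
    (κ : ↥(CQ Q t) →* H) : κ ⟨c, M.c_mem_CQ t⟩ ∈ Q := by
  by_contra hcon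
  set φ : ↥(CQ Q t) →* Spor.Co1 := π.comp κ with hφ
  have hcN : (⟨c, M.c_mem_CQ t⟩ : ↥(CQ Q t)) ∉ φ.ker := by
    intro h
    apply hcon
    rw [← M.ker]
    exact h
  have hle : φ.ker.map (CQ Q t).subtype ≤ CQQ Q t := by
    rintro _ ⟨n, hn, rfl⟩
    rw [mem_CQQ]
    refine ⟨(mem_CQ.1 n.2).1, ?_⟩
    intro p hp
    rcases M.comm_mem (mem_CQ.1 n.2).1 (mem_CQ.1 hp).1 with h | h
    · exact h
    · exfalso
      apply hcN
      have hmem : n⁻¹ * ((⟨p, hp⟩ : ↥(CQ Q t))⁻¹ * n * (⟨p, hp⟩ : ↥(CQ Q t))⁻¹⁻¹) ∈ φ.ker :=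
        φ.ker.mul_mem (φ.ker.inv_mem hn) ((MonoidHom.normal_ker φ).conj_mem n hn _)
      have : (⟨c, M.c_mem_CQ t⟩ : ↥(CQ Q t)) =
          n⁻¹ * ((⟨p, hp⟩ : ↥(CQ Q t))⁻¹ * n * (⟨p, hp⟩ : ↥(CQ Q t))⁻¹⁻¹) := by
        apply Subtype.ext
        show c = n.1⁻¹ * (p⁻¹ * n.1 * p⁻¹⁻¹)
        have h' : n.1 * p = p * n.1 * c := h
        calc c = n.1⁻¹ * p⁻¹ * (p * n.1 * c) := by group
          _ = n.1⁻¹ * p⁻¹ * (n.1 * p) := by rw [h']
          _ = n.1⁻¹ * (p⁻¹ * n.1 * p⁻¹⁻¹) := by group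
      rw [this]
      exact hmem
  have hfinW : Finite (CQQ Q t) := by
    have : Finite Q := Nat.finite_of_card_ne_zero (by rw [M.card]; norm_num)
    exact Finite.of_injective (fun x : CQQ Q t => (⟨x.1, (mem_CQQ.1 x.2).1⟩ : Q))
      (fun a b h => Subtype.ext (congrArg (fun u : Q => u.1) h))
  have hN4 : Nat.card φ.ker ≤ 4 := by
    rw [← Subgroup.card_map_of_injective (K := φ.ker) (CQ Q t).subtype_injective]
    exact le_trans (Subgroup.card_le_of_le hle) (M.card_CQQ ht h1 hc)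
  have h2 := φ.ker.card_mul_index
  rw [Subgroup.index_ker, M.card_CQ ht h1 hc] at h2
  have h3 : Nat.card φ.range ∣ 4157776806543360000 := by
    rw [← card_Co1]
    exact Subgroup.card_subgroup_dvd_card _
  generalize Nat.card φ.range = r at h2 h3
  generalize Nat.card φ.ker = n at h2 hN4
  interval_cases n
  · omega
  · have : r = 16777216 := by omega
    rw [this] at h3; norm_num at h3
  · have : r = 8388608 := by omega
    rw [this] at h3; norm_num at h3
  · omega
  · have : r = 4194304 := by omega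
    rw [this] at h3; norm_num at h3

theorem pm_of_cong {x y : leechLattice} (hx : sqNorm x.1 = 32) (hy : sqNorm y.1 = 32)
    (h : ∃ w : leechLattice, x + y = w + w) : y = x ∨ y = -x := by
  obtain ⟨w, hw⟩ := h
  have hX : x.1 + y.1 = w.1 + w.1 := congrArg Subtype.val hw
  have n1 := sqNorm_add x.1 y.1
  have n2 : sqNorm (w.1 + w.1) = 4 * sqNorm w.1 := by rw [sqNorm_add, dotInt_self]; ring
  have hD : x.1 - y.1 = (w.1 - y.1) + (w.1 - y.1) := by
    have : x.1 = w.1 + w.1 - y.1 := by rw [← hX]; abel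
    rw [this]; abel
  have n3 := bform_dotInt.q_sub x.1 y.1
  rw [dotInt_self, dotInt_self, dotInt_self] at n3
  have n4 : sqNorm ((w.1 - y.1) + (w.1 - y.1)) = 4 * sqNorm (w.1 - y.1) := by
    rw [sqNorm_add, dotInt_self]; ring
  rw [hX, n2] at n1
  rw [hD, n4] at n3
  by_cases h0 : w.1 = 0
  · right
    apply Subtype.ext
    show y.1 = -x.1
    rw [h0, add_zero] at hX
    exact (neg_eq_of_add_eq_zero_right hX).symm
  · by_cases h1 : w.1 - y.1 = 0
    · left
      apply Subtype.ext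
      rw [h1, add_zero] at hD
      exact (sub_eq_zero.1 hD).symm
    · exfalso
      have m1 := min_norm w.2 h0
      have m2 := min_norm (leechLattice.sub_mem w.2 y.2) h1
      omega

theorem lift_stab (M : MS Q c π T) {t : H} {v : leechLattice} (hT : T v t) (hv : sqNorm v.1 = 32)
    (g : Co0) (hg : g • v = v) : ∃ h : H, π h = QuotientGroup.mk g ∧ h * t = t * h := by
  obtain ⟨h0, hh0⟩ := M.surj (QuotientGroup.mk g)
  have h1 := M.T_conj h0 g hh0.symm v t hT
  rw [hg] at h1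
  rcases M.T_uniq _ _ _ hT h1 with e | e
  · refine ⟨h0, hh0, ?_⟩
    calc h0 * t = (h0 * t * h0⁻¹) * h0 := by group
      _ = t * h0 := by rw [e]
  · obtain ⟨n1, n2⟩ := M.ne_of_type hT (Or.inl hv)
    obtain ⟨y, hyQ, hy⟩ := M.exists_flip (M.T_mem _ _ hT) n1 n2
    refine ⟨y⁻¹ * h0, ?_, ?_⟩
    · rw [map_mul, map_inv, (M.ker y).2 hyQ, hh0]; simp
    · calc y⁻¹ * h0 * t = y⁻¹ * (h0 * t * h0⁻¹) * h0 := by group
        _ = y⁻¹ * (y * t * y⁻¹) * h0 := by rw [e, hy]
        _ = t * (y⁻¹ * h0) := by group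

/-- (A2) -/
theorem le_Q_of_normalized (M : MS Q c π T) {t : H} {v : leechLattice} (hT : T v t)
    (hv : sqNorm v.1 = 32) (R : Subgroup H) (hR1 : ∀ r ∈ R, r * t = t * r)
    (hR2 : ∀ h : H, h * t = t * h → ∀ r ∈ R, h * r * h⁻¹ ∈ R) (hR3 : Nat.card R = 2 ^ 24) :
    R ≤ Q := by
  haveI hs : IsSimpleGroup ↥(MulAction.stabilizer Co0 v) := Co2_simple hv
  set μ : ↥(MulAction.stabilizer Co0 v) →* Spor.Co1 :=
    (QuotientGroup.mk' (Subgroup.center Co0)).comp (MulAction.stabilizer Co0 v).subtype with hμ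
  set S' : Subgroup ↥(MulAction.stabilizer Co0 v) := (R.map π).comap μ with hS'
  have hnorm : S'.Normal := by
    refine ⟨fun n hn k => ?_⟩
    obtain ⟨r, hr, hrn⟩ := hn
    obtain ⟨h, hh1, hh2⟩ := M.lift_stab hT hv k.1 k.2
    refine ⟨h * r * h⁻¹, hR2 h hh2 r hr, ?_⟩
    rw [map_mul, map_mul, map_inv, hrn, hh1, map_mul, map_mul, map_inv]
    rfl
  rcases hnorm.eq_bot_or_eq_top with hb | htop
  · intro r hr
    have fin : ∀ g : Co0, g • v = v → (QuotientGroup.mk g : Spor.Co1) = π r → r ∈ Q := by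
      intro g hg hgr
      have : (⟨g, hg⟩ : ↥(MulAction.stabilizer Co0 v)) ∈ S' := ⟨r, hr, hgr.symm⟩
      rw [hb, Subgroup.mem_bot] at this
      have hg1 : g = 1 := congrArg Subtype.val this
      rw [← M.ker, ← hgr, hg1]
      rfl
    obtain ⟨g, hg⟩ := QuotientGroup.mk_surjective (π r)
    have h1 := M.T_conj r g hg v t hT
    have h2 : r * t * r⁻¹ = t := by rw [hR1 r hr]; group
    rw [h2] at h1
    have h3 := M.T_mul _ _ _ _ hT h1
    rw [(M.sq_iff hT).2 (by rw [hv])] at h3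
    rcases pm_of_cong hv (by rw [Co0_sqNorm]; exact hv) ((M.T_one _).1 h3) with e | e
    · exact fin g e hg
    · apply fin (negCo0 * g)
      · rw [mul_smul, e, negCo0_smul', neg_neg]
      · rw [← hg]
        show (QuotientGroup.mk negCo0 : Spor.Co1) * QuotientGroup.mk g = _
        rw [(QuotientGroup.eq_one_iff negCo0).2 negCo0_mem_center, one_mul]
  · exfalso
    have hfinR : Finite R := Nat.finite_of_card_ne_zero (by rw [hR3]; norm_num)
    have k1 : Nat.card μ.ker ≤ 2 := by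
      rw [← Subgroup.card_map_of_injective (K := μ.ker) (MulAction.stabilizer Co0 v).subtype_injective,
        ← card_center_Co0]
      apply Subgroup.card_le_of_le
      rintro _ ⟨a, ha, rfl⟩
      exact (QuotientGroup.eq_one_iff a.1).1 ha
    have k2 : μ.range ≤ R.map π := by
      rintro _ ⟨a, rfl⟩
      have : a ∈ S' := by rw [htop]; trivial
      exact this
    have k3 : Nat.card μ.range ≤ 2 ^ 24 := by
      rw [← hR3]
      exact le_trans (Subgroup.card_le_of_le k2) (Nat.le_of_dvd Nat.card_pos (Subgroup.card_map_dvd R π))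
    have k4 := μ.ker.card_mul_index
    rw [Subgroup.index_ker, card_stab32 hv] at k4
    have := Nat.mul_le_mul k1 k3
    rw [k4] at this
    norm_num at this

end MS

end Cfsg.Agent.Lib.Helper10
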