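import Mathlib
import Cfsg.Agent.Lib.Helper10.Monster3

set_option autoImplicit false
open Cfsg

namespace Cfsg.Agent.Lib.Helper10

open Cfsg.Agent.Lib.Helper28

theorem mem_cz {G : Type*} [Group G] {z x : G} : x ∈ Subgroup.centralizer ({z} : Set G) ↔ x * z = z * x := by
  rw [Subgroup.mem_centralizer_iff]
  constructor
  · intro h
    exact (h z rfl).symm
  · intro h y hy
    rw [Set.mem_singleton_iff.1 hy]
    exact h.symm

/-- conjugation by `b` as a homomorphism from a subgroup `P` of `C(z)` whose elements commute with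
`b⁻¹ z b` back into `C(z)` -/
def conjHom {G : Type*} [Group G] {z : G} (b : G) (P : Subgroup (Subgroup.centralizer ({z} : Set G)))
    (hP : ∀ x ∈ P, x.1 * (b⁻¹ * z * b) = (b⁻¹ * z * b) * x.1) :
    ↥P →* Subgroup.centralizer ({z} : Set G) where
  toFun x := ⟨b * x.1.1 * b⁻¹, by
    rw [mem_cz]
    have := hP x.1 x.2
    calc b * x.1.1 * b⁻¹ * z = b * (x.1.1 * (b⁻¹ * z * b)) * b⁻¹ := by group
      _ = b * ((b⁻¹ * z * b) * x.1.1) * b⁻¹ := by rw [this]
      _ = z * (b * x.1.1 * b⁻¹) := by group⟩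
  map_one' := by
    apply Subtype.ext
    show b * 1 * b⁻¹ = 1
    group
  map_mul' x y := by
    apply Subtype.ext
    show b * (x.1.1 * y.1.1) * b⁻¹ = (b * x.1.1 * b⁻¹) * (b * y.1.1 * b⁻¹)
    group

theorem conjHom_val {G : Type*} [Group G] {z : G} (b : G) (P : Subgroup (Subgroup.centralizer ({z} : Set G)))
    (hP : ∀ x ∈ P, x.1 * (b⁻¹ * z * b) = (b⁻¹ * z * b) * x.1) (x : ↥P) :
    (conjHom b P hP x).1 = b * x.1.1 * b⁻¹ := rfl

theorem conjHom_inj {G : Type*} [Group G] {z : G} (b : G) (P : Subgroup (Subgroup.centralizer ({z} : Set G)))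
    (hP : ∀ x ∈ P, x.1 * (b⁻¹ * z * b) = (b⁻¹ * z * b) * x.1) : Function.Injective (conjHom b P hP) := by
  intro x y h
  have h' : b * x.1.1 * b⁻¹ = b * y.1.1 * b⁻¹ := congrArg Subtype.val h
  apply Subtype.ext
  apply Subtype.ext
  exact mul_left_cancel (mul_right_cancel h')

/-- a conjugate of `z` in `Q` is not of type 2 -/
theorem no_type2 {G : Type*} [Group G] (z : G) (Q : Subgroup (Subgroup.centralizer ({z} : Set G)))
    [hQn : Q.Normal] {π : Subgroup.centralizer ({z} : Set G) →* Spor.Co1}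
    {T : leechLattice → Subgroup.centralizer ({z} : Set G) → Prop} (M : MS Q (zC z) π T)
    (a : G) (t : Subgroup.centralizer ({z} : Set G)) (ht : t.1 = a * z * a⁻¹) (v : leechLattice)
    (hT : T v t) (hv : sqNorm v.1 = 32) : False := by
  obtain ⟨t1, tc⟩ := M.ne_of_type hT (Or.inl hv)
  have tQ := M.T_mem _ _ hT
  have z1 : z ≠ 1 := fun h => M.c_ne (Subtype.ext h)
  -- first homomorphism: conjugation by a⁻¹ on C_Q(t)
  have hP1 : ∀ x ∈ CQ Q t, x.1 * (a⁻¹⁻¹ * z * a⁻¹) = (a⁻¹⁻¹ * z * a⁻¹) * x.1 := by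
    intro x hx
    have := congrArg Subtype.val (mem_CQ.1 hx).2
    rw [inv_inv, ← ht]
    exact this
  have hu := M.hom_c_mem tQ t1 tc (conjHom a⁻¹ (CQ Q t) hP1)
  set u := conjHom a⁻¹ (CQ Q t) hP1 ⟨zC z, M.c_mem_CQ t⟩ with hudef
  have uval : u.1 = a⁻¹ * z * a := by
    rw [hudef, conjHom_val, inv_inv]; rfl
  have u1 : u ≠ 1 := by
    intro h
    have h' : a⁻¹ * z * a = 1 := by rw [← uval, h]; rfl
    apply z1
    calc z = a * (a⁻¹ * z * a) * a⁻¹ := by group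
      _ = 1 := by rw [h']; group
  have uc : u ≠ zC z := by
    intro h
    have h' : a⁻¹ * z * a = z := by rw [← uval, h]; rfl
    apply tc
    apply Subtype.ext
    rw [ht]
    show a * z * a⁻¹ = z
    calc a * z * a⁻¹ = a * (a⁻¹ * z * a) * a⁻¹ := by rw [h']
      _ = z := by group
  -- second homomorphism: conjugation by a on C_Q(u)
  have hP2 : ∀ x ∈ CQ Q u, x.1 * (a⁻¹ * z * a) = (a⁻¹ * z * a) * x.1 := by
    intro x hx
    have := congrArg Subtype.val (mem_CQ.1 hx).2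
    rw [← uval]
    exact this
  set κ := conjHom a (CQ Q u) hP2 with hκ
  have cardR : Nat.card κ.range = 2 ^ 24 := by
    rw [← M.card_CQ hu u1 uc]
    exact (Nat.card_congr (MonoidHom.ofInjective (conjHom_inj a (CQ Q u) hP2)).toEquiv).symm
  have hR1 : ∀ r ∈ κ.range, r * t = t * r := by
    rintro _ ⟨q, rfl⟩
    apply Subtype.ext
    show (a * q.1.1 * a⁻¹) * t.1 = t.1 * (a * q.1.1 * a⁻¹)
    rw [ht]
    have hq := mem_cz.1 q.1.2
    calc a * q.1.1 * a⁻¹ * (a * z * a⁻¹) = a * (q.1.1 * z) * a⁻¹ := by group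
      _ = a * (z * q.1.1) * a⁻¹ := by rw [hq]
      _ = a * z * a⁻¹ * (a * q.1.1 * a⁻¹) := by group
  have hR2 : ∀ h : Subgroup.centralizer ({z} : Set G), h * t = t * h → ∀ r ∈ κ.range, h * r * h⁻¹ ∈ κ.range := by
    rintro h hh _ ⟨q, rfl⟩
    have hh' : h.1 * (a * z * a⁻¹) = (a * z * a⁻¹) * h.1 := by
      rw [← ht]; exact congrArg Subtype.val hh
    have hmem : a⁻¹ * h.1 * a ∈ Subgroup.centralizer ({z} : Set G) := by
      rw [mem_cz]
      calc a⁻¹ * h.1 * a * z = a⁻¹ * (h.1 * (a * z * a⁻¹)) * a := by group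
        _ = a⁻¹ * ((a * z * a⁻¹) * h.1) * a := by rw [hh']
        _ = z * (a⁻¹ * h.1 * a) := by group
    set h1 : Subgroup.centralizer ({z} : Set G) := ⟨a⁻¹ * h.1 * a, hmem⟩ with hh1
    have hq' : h1 * q.1 * h1⁻¹ ∈ CQ Q u := by
      rw [mem_CQ]
      refine ⟨hQn.conj_mem _ (mem_CQ.1 q.2).1 _, ?_⟩
      have e1 : h1 * u = u * h1 := by
        apply Subtype.ext
        show (a⁻¹ * h.1 * a) * u.1 = u.1 * (a⁻¹ * h.1 * a)
        rw [uval]
        have hz := mem_cz.1 h.2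
        calc a⁻¹ * h.1 * a * (a⁻¹ * z * a) = a⁻¹ * (h.1 * z) * a := by group
          _ = a⁻¹ * (z * h.1) * a := by rw [hz]
          _ = a⁻¹ * z * a * (a⁻¹ * h.1 * a) := by group
      have e2 := (mem_CQ.1 q.2).2
      have e3 : h1⁻¹ * u = u * h1⁻¹ := by
        calc h1⁻¹ * u = h1⁻¹ * (u * h1) * h1⁻¹ := by group
          _ = h1⁻¹ * (h1 * u) * h1⁻¹ := by rw [e1]
          _ = u * h1⁻¹ := by group
      calc h1 * q.1 * h1⁻¹ * u = h1 * q.1 * (h1⁻¹ * u) := by group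
        _ = h1 * q.1 * (u * h1⁻¹) := by rw [e3]
        _ = h1 * (q.1 * u) * h1⁻¹ := by group
        _ = h1 * (u * q.1) * h1⁻¹ := by rw [e2]
        _ = (h1 * u) * q.1 * h1⁻¹ := by group
        _ = u * h1 * q.1 * h1⁻¹ := by rw [e1]
        _ = u * (h1 * q.1 * h1⁻¹) := by group
    refine ⟨⟨h1 * q.1 * h1⁻¹, hq'⟩, ?_⟩
    apply Subtype.ext
    show a * ((a⁻¹ * h.1 * a) * q.1.1 * (a⁻¹ * h.1 * a)⁻¹) * a⁻¹ = h.1 * (a * q.1.1 * a⁻¹) * h.1⁻¹
    group
  have hRQ := M.le_Q_of_normalized hT hv κ.range hR1 hR2 cardR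
  have hle : κ.range ≤ CQ Q t := fun r hr => mem_CQ.2 ⟨hRQ hr, hR1 r hr⟩
  have hfin : Finite (CQ Q t) := Nat.finite_of_card_ne_zero (by rw [M.card_CQ tQ t1 tc]; norm_num)
  have heq : κ.range = CQ Q t := Subgroup.eq_of_le_of_card_ge hle (by rw [cardR, M.card_CQ tQ t1 tc])
  have hab : ∀ r1 ∈ κ.range, ∀ r2 ∈ κ.range, r1 * r2 = r2 * r1 := by
    rintro _ ⟨q1, rfl⟩ _ ⟨q2, rfl⟩
    rcases M.comm_mem (mem_CQ.1 q1.2).1 (mem_CQ.1 q2.2).1 with h | h
    · rw [← map_mul, ← map_mul]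
      congr 1
      exact Subtype.ext h
    · have e1 : κ q1 * κ q2 = κ q2 * κ q1 * t := by
        apply Subtype.ext
        show (a * q1.1.1 * a⁻¹) * (a * q2.1.1 * a⁻¹) = (a * q2.1.1 * a⁻¹) * (a * q1.1.1 * a⁻¹) * t.1
        rw [ht]
        have h' : q1.1.1 * q2.1.1 = q2.1.1 * q1.1.1 * z := congrArg Subtype.val h
        calc a * q1.1.1 * a⁻¹ * (a * q2.1.1 * a⁻¹) = a * (q1.1.1 * q2.1.1) * a⁻¹ := by group
          _ = a * (q2.1.1 * q1.1.1 * z) * a⁻¹ := by rw [h']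
          _ = a * q2.1.1 * a⁻¹ * (a * q1.1.1 * a⁻¹) * (a * z * a⁻¹) := by group
      rcases M.comm_mem (hRQ ⟨q1, rfl⟩) (hRQ ⟨q2, rfl⟩) with h2 | h2
      · exact h2
      · exfalso
        rw [e1] at h2
        exact tc (mul_left_cancel h2)
  have hle2 : CQ Q t ≤ CQQ Q t := by
    intro x hx
    rw [mem_CQQ]
    refine ⟨(mem_CQ.1 hx).1, fun p hp => ?_⟩
    rw [← heq] at hx hp
    exact hab x hx p hp
  have hfinW : Finite (CQQ Q t) := by
    have : Finite Q := Nat.finite_of_card_ne_zero (by rw [M.card]; norm_num)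
    exact Finite.of_injective (fun x : CQQ Q t => (⟨x.1, (mem_CQQ.1 x.2).1⟩ : Q))
      (fun a b h => Subtype.ext (congrArg (fun u : Q => u.1) h))
  have := le_trans (Subgroup.card_le_of_le hle2) (M.card_CQQ tQ t1 tc)
  rw [M.card_CQ tQ t1 tc] at this
  norm_num at this

end Cfsg.Agent.Lib.Helper10
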