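import Mathlib
import Cfsg.Agent.Lib.Helper10.Monster4
import Cfsg.Agent.Lib.Helper10.MonoNormal

set_option autoImplicit false
open Cfsg

namespace Cfsg.Agent.Lib.Helper10

open Cfsg.Agent.Lib.Helper28

/-- `g` fixes the class of `v` modulo twice the lattice -/
def FixCls (v : leechLattice) (g : Co0) : Prop := ∃ w : leechLattice, g • v + v = w + w

theorem presCross_of_fixCls {g : Co0} (hg : FixCls (e8 none) g) : PresCross g := by
  obtain ⟨w, hw⟩ := hg
  intro x hx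
  obtain ⟨h1, h2, z, hz, h3⟩ := stdCross_subset_cross hx
  rw [← cross_e8]
  set Z : leechLattice := ⟨z, hz⟩
  refine ⟨(g • x : leechLattice).2, by rw [Co0_sqNorm]; exact h2,
    (e8 none - w + g • Z : leechLattice).1, (e8 none - w + g • Z : leechLattice).2, ?_⟩
  have e1 : e8 none - x = Z + Z := by
    apply Subtype.ext
    show (e8 none).1 - x.1 = z + z
    rw [h3, two_smul]
  have e2 := congrArg (fun u => g • u) e1
  simp only [Co0_smul_sub, Co0_smul_add] at e2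
  have e3 : e8 none - g • x = (e8 none - w + g • Z) + (e8 none - w + g • Z) := by
    have : g • x = g • e8 none - (g • Z + g • Z) := by rw [← e2]; abel
    have h' : g • e8 none = w + w - e8 none := by rw [← hw]; abel
    rw [this, h']; abel
  rw [two_smul]
  exact congrArg Subtype.val e3

theorem fixCls_of_presCross {g : Co0} (hg : PresCross g) : FixCls (e8 none) g := by
  have h1 : (e8 none).1 ∈ stdCross := ⟨none, 8, Or.inl rfl, rfl⟩
  have h2 := hg _ h1
  rw [← cross_e8] at h2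
  obtain ⟨-, -, z, hz, h3⟩ := h2
  refine ⟨e8 none - ⟨z, hz⟩, ?_⟩
  apply Subtype.ext
  show (g • e8 none : leechLattice).1 + (e8 none).1 = ((e8 none).1 - z) + ((e8 none).1 - z)
  have : (g • e8 none : leechLattice).1 = (e8 none).1 - (z + z) := by
    rw [← two_smul ℕ z, ← h3]; abel
  rw [this]; abel

theorem fixCls_conj {a g : Co0} {e : leechLattice} : FixCls (a • e) (a * g * a⁻¹) ↔ FixCls e g := by
  have h0 : (a * g * a⁻¹) • (a • e) = a • (g • e) := by
    rw [mul_smul, mul_smul, inv_smul_smul]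
  constructor
  · rintro ⟨w, hw⟩
    refine ⟨a⁻¹ • w, ?_⟩
    rw [h0, ← Co0_smul_add] at hw
    rw [← Co0_smul_add, ← hw, inv_smul_smul]
  · rintro ⟨w, hw⟩
    refine ⟨a • w, ?_⟩
    rw [h0, ← Co0_smul_add, hw, Co0_smul_add]

namespace MS

variable {H : Type*} [Group H] {Q : Subgroup H} {c : H} {π : H →* Spor.Co1}
  {T : leechLattice → H → Prop}

theorem lift_fixCls (M : MS Q c π T) {t : H} {v : leechLattice} (hT : T v t)
    (hv : sqNorm v.1 = 32 ∨ sqNorm v.1 = 48 ∨ sqNorm v.1 = 64)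
    (g : Co0) (hg : FixCls v g) : ∃ h : H, π h = QuotientGroup.mk g ∧ h * t = t * h := by
  obtain ⟨w, hw⟩ := hg
  obtain ⟨h0, hh0⟩ := M.surj (QuotientGroup.mk g)
  have h1 := M.T_conj h0 g hh0.symm v t hT
  have e0 : g • v = v + ((w - v) + (w - v)) := by
    have : g • v = w + w - v := by rw [← hw]; abel
    rw [this]; abel
  rw [e0] at h1
  have h1' := M.T_shift h1
  rcases M.T_uniq _ _ _ hT h1' with e | e
  · refine ⟨h0, hh0, ?_⟩
    calc h0 * t = (h0 * t * h0⁻¹) * h0 := by group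
      _ = t * h0 := by rw [e]
  · obtain ⟨n1, n2⟩ := M.ne_of_type hT hv
    obtain ⟨y, hyQ, hy⟩ := M.exists_flip (M.T_mem _ _ hT) n1 n2
    refine ⟨y⁻¹ * h0, ?_, ?_⟩
    · rw [map_mul, map_inv, (M.ker y).2 hyQ, hh0]; simp
    · calc y⁻¹ * h0 * t = y⁻¹ * (h0 * t * h0⁻¹) * h0 := by group
        _ = y⁻¹ * (y * t * y⁻¹) * h0 := by rw [e, hy]
        _ = t * (y⁻¹ * h0) := by group

theorem fixCls_of_comm (M : MS Q c π T) {t : H} {v : leechLattice} (hT : T v t)
    (hv : (32 : ℤ) ∣ sqNorm v.1) {r : H} (hr : r * t = t * r) {g : Co0}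
    (hg : (QuotientGroup.mk g : Spor.Co1) = π r) : FixCls v g := by
  have h1 := M.T_conj r g hg v t hT
  have h2 : r * t * r⁻¹ = t := by rw [hr]; group
  rw [h2] at h1
  have h3 := M.T_mul _ _ _ _ h1 hT
  rw [(M.sq_iff hT).2 hv] at h3
  exact (M.T_one _).1 h3

end MS

theorem card_comap_mk (K : Subgroup Spor.Co1) :
    Nat.card (K.comap (QuotientGroup.mk' (Subgroup.center Co0))) = 2 * Nat.card K := by
  have h1 := Subgroup.index_comap_of_surjective K (QuotientGroup.mk'_surjective (Subgroup.center Co0))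
  have h2 := (K.comap (QuotientGroup.mk' (Subgroup.center Co0))).card_mul_index
  have h3 := K.card_mul_index
  rw [h1, card_Co0] at h2
  have h4 : Nat.card Spor.Co1 = 4157776806543360000 := card_Co1
  rw [h4] at h3
  have hpos : 0 < K.index := by
    rcases Nat.eq_zero_or_pos K.index with h | h
    · rw [h] at h3; omega
    · exact h
  have : Nat.card (K.comap (QuotientGroup.mk' (Subgroup.center Co0))) * K.index = (2 * Nat.card K) * K.index := by
    rw [h2, mul_assoc, h3]; norm_num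
  exact Nat.eq_of_mul_eq_mul_right hpos this

theorem card_comap_conj (a : Co0) (X : Subgroup Co0) :
    Nat.card (X.comap (MulAut.conj a).toMonoidHom) = Nat.card X := by
  have h1 := Subgroup.index_comap_of_surjective X (f := (MulAut.conj a).toMonoidHom) (MulAut.conj a).surjective
  have h2 := (X.comap (MulAut.conj a).toMonoidHom).card_mul_index
  have h3 := X.card_mul_index
  rw [h1] at h2
  have hpos : 0 < X.index := by
    rcases Nat.eq_zero_or_pos X.index with h | h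
    · rw [h, card_Co0] at h3; omega
    · exact h
  exact Nat.eq_of_mul_eq_mul_right hpos (h2.trans h3.symm)

namespace MS

variable {H : Type*} [Group H] {Q : Subgroup H} {c : H} {π : H →* Spor.Co1}
  {T : leechLattice → H → Prop}

/-- the type 4 analogue of (A2) -/
theorem map_of_type4 (M : MS Q c π T) {t : H} {v : leechLattice} (hT : T v t)
    (hv : sqNorm v.1 = 64) (R : Subgroup H) (hR1 : ∀ r ∈ R, r * t = t * r)
    (hR2 : ∀ h : H, h * t = t * h → ∀ r ∈ R, h * r * h⁻¹ ∈ R) (hR3 : Nat.card R = 2 ^ 24)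
    (hR4 : ¬ R ≤ Q) (a : Co0) (ha : a • e8 none = v) :
    (R.map π).comap (QuotientGroup.mk' (Subgroup.center Co0)) =
      signGrp.map (MulAut.conj a).toMonoidHom := by
  set X := (R.map π).comap (QuotientGroup.mk' (Subgroup.center Co0)) with hX
  have hfinR : Finite R := Nat.finite_of_card_ne_zero (by rw [hR3]; norm_num)
  have hcX : Nat.card X = 2 * Nat.card (R.map π) := card_comap_mk _
  have hle : Nat.card (R.map π) ≤ 2 ^ 24 := by
    rw [← hR3]; exact Nat.le_of_dvd Nat.card_pos (Subgroup.card_map_dvd R π)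
  have hgt : 1 < Nat.card (R.map π) := by
    rw [Subgroup.one_lt_card_iff_ne_bot]
    intro hb
    apply hR4
    intro r hr
    have : π r ∈ R.map π := ⟨r, hr, rfl⟩
    rw [hb, Subgroup.mem_bot] at this
    exact (M.ker r).1 this
  have key := mono_normal (X.comap (MulAut.conj a).toMonoidHom) ?_ ?_
    (by rw [card_comap_conj, hcX]; omega) (by rw [card_comap_conj, hcX]; omega)
  · rw [← key, Subgroup.map_comap_eq_self_of_surjective (MulAut.conj a).surjective]
  · intro x hx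
    obtain ⟨r, hr, hrx⟩ := hx
    apply presCross_of_fixCls
    rw [← fixCls_conj (a := a), ha]
    exact M.fixCls_of_comm hT (by rw [hv]; norm_num) (hR1 r hr) hrx.symm
  · intro n hn x hx
    obtain ⟨r, hr, hrx⟩ := hx
    have hn' : FixCls v (a * n * a⁻¹) := by
      rw [← ha, fixCls_conj]; exact fixCls_of_presCross hn
    obtain ⟨h, hh1, hh2⟩ := M.lift_fixCls hT (Or.inr (Or.inr hv)) _ hn'
    refine ⟨h * r * h⁻¹, hR2 h hh2 r hr, ?_⟩
    rw [map_mul, map_mul, map_inv, hrx, hh1]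
    show _ = (QuotientGroup.mk (a * (n * x * n⁻¹) * a⁻¹) : Spor.Co1)
    have : a * (n * x * n⁻¹) * a⁻¹ = (a * n * a⁻¹) * (a * x * a⁻¹) * (a * n * a⁻¹)⁻¹ := by group
    rw [this]
    rfl

theorem card_inf_of_type4 (M : MS Q c π T) {t : H} {v : leechLattice} (hT : T v t)
    (hv : sqNorm v.1 = 64) (R : Subgroup H) (hR1 : ∀ r ∈ R, r * t = t * r)
    (hR2 : ∀ h : H, h * t = t * h → ∀ r ∈ R, h * r * h⁻¹ ∈ R) (hR3 : Nat.card R = 2 ^ 24)
    (hR4 : ¬ R ≤ Q) : Nat.card (R.map π) = 2 ^ 11 ∧ Nat.card (R ⊓ Q : Subgroup H) = 2 ^ 13 := by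
  obtain ⟨a, ha⟩ := Co0_trans64 (e8 none) v (sqNorm_e8 none) hv
  have h1 := M.map_of_type4 hT hv R hR1 hR2 hR3 hR4 a ha
  have h2 := card_comap_mk (R.map π)
  rw [h1, Subgroup.card_map_of_injective (MulAut.conj a).injective, card_signGrp] at h2
  have h3 : Nat.card (R.map π) = 2 ^ 11 := by omega
  refine ⟨h3, ?_⟩
  set φ : ↥R →* Spor.Co1 := π.comp R.subtype with hφ
  have k1 := φ.ker.card_mul_index
  have k2 : φ.range = R.map π := by
    rw [hφ, MonoidHom.range_comp, Subgroup.range_subtype]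
  have k3 : φ.ker.map R.subtype = R ⊓ Q := by
    ext x
    constructor
    · rintro ⟨y, hy, rfl⟩
      exact ⟨y.2, (M.ker y.1).1 hy⟩
    · rintro ⟨hx1, hx2⟩
      exact ⟨⟨x, hx1⟩, (M.ker x).2 hx2, rfl⟩
  rw [Subgroup.index_ker, k2, h3, hR3, ← Subgroup.card_map_of_injective (K := φ.ker) R.subtype_injective, k3] at k1
  omega

end MS

/-- the subgroup `Q^a ∩ C(z)` for a conjugate `t = a z a⁻¹` of `z` in `Q`, `t ≠ z` -/
theorem conj_R {G : Type*} [Group G] (z : G) (Q : Subgroup (Subgroup.centralizer ({z} : Set G)))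
    [hQn : Q.Normal] {π : Subgroup.centralizer ({z} : Set G) →* Spor.Co1}
    {T : leechLattice → Subgroup.centralizer ({z} : Set G) → Prop} (M : MS Q (zC z) π T)
    (a : G) (t : Subgroup.centralizer ({z} : Set G)) (ht : t.1 = a * z * a⁻¹) (tQ : t ∈ Q)
    (tc : t ≠ zC z) :
    ∃ R : Subgroup (Subgroup.centralizer ({z} : Set G)),
      (∀ r, r ∈ R ↔ ∃ q ∈ Q, r.1 = a * q.1 * a⁻¹) ∧ Nat.card R = 2 ^ 24 ∧
      (∀ r ∈ R, r * t = t * r) ∧
      (∀ h : Subgroup.centralizer ({z} : Set G), h * t = t * h → ∀ r ∈ R, h * r * h⁻¹ ∈ R) ∧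
      (∀ r1 ∈ R, ∀ r2 ∈ R, r1 * r2 = r2 * r1 ∨ r1 * r2 = r2 * r1 * t) ∧ ¬ R ≤ Q := by
  have z1 : z ≠ 1 := fun h => M.c_ne (Subtype.ext h)
  have t1 : t ≠ 1 := by
    intro h
    have h' : a * z * a⁻¹ = 1 := by rw [← ht, h]; rfl
    apply z1
    calc z = a⁻¹ * (a * z * a⁻¹) * a := by group
      _ = 1 := by rw [h']; group
  have hP1 : ∀ x ∈ CQ Q t, x.1 * (a⁻¹⁻¹ * z * a⁻¹) = (a⁻¹⁻¹ * z * a⁻¹) * x.1 := by
    intro x hx
    have := congrArg Subtype.val (mem_CQ.1 hx).2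
    rw [inv_inv, ← ht]
    exact this
  have hu := M.hom_c_mem tQ t1 tc (conjHom a⁻¹ (CQ Q t) hP1)
  set u := conjHom a⁻¹ (CQ Q t) hP1 ⟨zC z, M.c_mem_CQ t⟩ with hudef
  have uval : u.1 = a⁻¹ * z * a := by
    rw [hudef, conjHom_val, inv_inv]; rfl
  have u1 : u ≠ 1 := by
    intro h
    have h' : a⁻¹ * z * a = 1 := by rw [← uval, h]; rfl
    apply z1
    calc z = a * (a⁻¹ * z * a) * a⁻¹ := by group
      _ = 1 := by rw [h']; group
  have uc : u ≠ zC z := by
    intro h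
    have h' : a⁻¹ * z * a = z := by rw [← uval, h]; rfl
    apply tc
    apply Subtype.ext
    rw [ht]
    show a * z * a⁻¹ = z
    calc a * z * a⁻¹ = a * (a⁻¹ * z * a) * a⁻¹ := by rw [h']
      _ = z := by group
  have hP2 : ∀ x ∈ CQ Q u, x.1 * (a⁻¹ * z * a) = (a⁻¹ * z * a) * x.1 := by
    intro x hx
    have := congrArg Subtype.val (mem_CQ.1 hx).2
    rw [← uval]
    exact this
  set κ := conjHom a (CQ Q u) hP2 with hκ
  have cardR : Nat.card κ.range = 2 ^ 24 := by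
    rw [← M.card_CQ hu u1 uc]
    exact (Nat.card_congr (MonoidHom.ofInjective (conjHom_inj a (CQ Q u) hP2)).toEquiv).symm
  have hR1 : ∀ r ∈ κ.range, r * t = t * r := by
    rintro _ ⟨q, rfl⟩
    apply Subtype.ext
    show (a * q.1.1 * a⁻¹) * t.1 = t.1 * (a * q.1.1 * a⁻¹)
    rw [ht]
    have hq := mem_cz.1 q.1.2
    calc a * q.1.1 * a⁻¹ * (a * z * a⁻¹) = a * (q.1.1 * z) * a⁻¹ := by group
      _ = a * (z * q.1.1) * a⁻¹ := by rw [hq]
      _ = a * z * a⁻¹ * (a * q.1.1 * a⁻¹) := by group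
  have hR2 : ∀ h : Subgroup.centralizer ({z} : Set G), h * t = t * h → ∀ r ∈ κ.range, h * r * h⁻¹ ∈ κ.range := by
    rintro h hh _ ⟨q, rfl⟩
    have hh' : h.1 * (a * z * a⁻¹) = (a * z * a⁻¹) * h.1 := by
      rw [← ht]; exact congrArg Subtype.val hh
    have hmem : a⁻¹ * h.1 * a ∈ Subgroup.centralizer ({z} : Set G) := by
      rw [mem_cz]
      calc a⁻¹ * h.1 * a * z = a⁻¹ * (h.1 * (a * z * a⁻¹)) * a := by group
        _ = a⁻¹ * ((a * z * a⁻¹) * h.1) * a := by rw [hh']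
        _ = z * (a⁻¹ * h.1 * a) := by group
    set h1 : Subgroup.centralizer ({z} : Set G) := ⟨a⁻¹ * h.1 * a, hmem⟩ with hh1
    have hq' : h1 * q.1 * h1⁻¹ ∈ CQ Q u := by
      rw [mem_CQ]
      refine ⟨hQn.conj_mem _ (mem_CQ.1 q.2).1 _, ?_⟩
      have e1 : h1 * u = u * h1 := by
        apply Subtype.ext
        show (a⁻¹ * h.1 * a) * u.1 = u.1 * (a⁻¹ * h.1 * a)
        rw [uval]
        have hz := mem_cz.1 h.2
        calc a⁻¹ * h.1 * a * (a⁻¹ * z * a) = a⁻¹ * (h.1 * z) * a := by group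
          _ = a⁻¹ * (z * h.1) * a := by rw [hz]
          _ = a⁻¹ * z * a * (a⁻¹ * h.1 * a) := by group
      have e2 := (mem_CQ.1 q.2).2
      have e3 : h1⁻¹ * u = u * h1⁻¹ := by
        calc h1⁻¹ * u = h1⁻¹ * (u * h1) * h1⁻¹ := by group
          _ = h1⁻¹ * (h1 * u) * h1⁻¹ := by rw [e1]
          _ = u * h1⁻¹ := by group
      calc h1 * q.1 * h1⁻¹ * u = h1 * q.1 * (h1⁻¹ * u) := by group
        _ = h1 * q.1 * (u * h1⁻¹) := by rw [e3]
        _ = h1 * (q.1 * u) * h1⁻¹ := by group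
        _ = h1 * (u * q.1) * h1⁻¹ := by rw [e2]
        _ = (h1 * u) * q.1 * h1⁻¹ := by group
        _ = u * h1 * q.1 * h1⁻¹ := by rw [e1]
        _ = u * (h1 * q.1 * h1⁻¹) := by group
    refine ⟨⟨h1 * q.1 * h1⁻¹, hq'⟩, ?_⟩
    apply Subtype.ext
    show a * ((a⁻¹ * h.1 * a) * q.1.1 * (a⁻¹ * h.1 * a)⁻¹) * a⁻¹ = h.1 * (a * q.1.1 * a⁻¹) * h.1⁻¹
    group
  have hcomm : ∀ r1 ∈ κ.range, ∀ r2 ∈ κ.range, r1 * r2 = r2 * r1 ∨ r1 * r2 = r2 * r1 * t := by
    rintro _ ⟨q1, rfl⟩ _ ⟨q2, rfl⟩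
    rcases M.comm_mem (mem_CQ.1 q1.2).1 (mem_CQ.1 q2.2).1 with h | h
    · left
      rw [← map_mul, ← map_mul]
      congr 1
      exact Subtype.ext h
    · right
      apply Subtype.ext
      show (a * q1.1.1 * a⁻¹) * (a * q2.1.1 * a⁻¹) = (a * q2.1.1 * a⁻¹) * (a * q1.1.1 * a⁻¹) * t.1
      rw [ht]
      have h' : q1.1.1 * q2.1.1 = q2.1.1 * q1.1.1 * z := congrArg Subtype.val h
      calc a * q1.1.1 * a⁻¹ * (a * q2.1.1 * a⁻¹) = a * (q1.1.1 * q2.1.1) * a⁻¹ := by group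
        _ = a * (q2.1.1 * q1.1.1 * z) * a⁻¹ := by rw [h']
        _ = a * q2.1.1 * a⁻¹ * (a * q1.1.1 * a⁻¹) * (a * z * a⁻¹) := by group
  refine ⟨κ.range, ?_, cardR, hR1, hR2, hcomm, ?_⟩
  · intro r
    constructor
    · rintro ⟨q, rfl⟩
      exact ⟨q.1, (mem_CQ.1 q.2).1, rfl⟩
    · rintro ⟨q, hq, hr⟩
      have hqu : q ∈ CQ Q u := by
        rw [mem_CQ]
        refine ⟨hq, ?_⟩
        apply Subtype.ext
        show q.1 * u.1 = u.1 * q.1
        rw [uval]
        have hz := mem_cz.1 r.2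
        rw [hr] at hz
        calc q.1 * (a⁻¹ * z * a) = a⁻¹ * (a * q.1 * a⁻¹ * z) * a := by group
          _ = a⁻¹ * (z * (a * q.1 * a⁻¹)) * a := by rw [hz]
          _ = a⁻¹ * z * a * q.1 := by group
      exact ⟨⟨q, hqu⟩, Subtype.ext hr.symm⟩
  · intro hRQ
    have hle : κ.range ≤ CQ Q t := fun r hr => mem_CQ.2 ⟨hRQ hr, hR1 r hr⟩
    have hfin : Finite (CQ Q t) := Nat.finite_of_card_ne_zero (by rw [M.card_CQ tQ t1 tc]; norm_num)
    have heq : κ.range = CQ Q t := Subgroup.eq_of_le_of_card_ge hle (by rw [cardR, M.card_CQ tQ t1 tc])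
    have hab : ∀ r1 ∈ κ.range, ∀ r2 ∈ κ.range, r1 * r2 = r2 * r1 := by
      intro r1 h1 r2 h2
      rcases hcomm r1 h1 r2 h2 with e | e1
      · exact e
      · rcases M.comm_mem (hRQ h1) (hRQ h2) with e2 | e2
        · exact e2
        · exfalso
          rw [e1] at e2
          exact tc (mul_left_cancel e2)
    have hle2 : CQ Q t ≤ CQQ Q t := by
      intro x hx
      rw [mem_CQQ]
      refine ⟨(mem_CQ.1 hx).1, fun p hp => ?_⟩
      rw [← heq] at hx hp
      exact hab x hx p hp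
    have hfinW : Finite (CQQ Q t) := by
      have : Finite Q := Nat.finite_of_card_ne_zero (by rw [M.card]; norm_num)
      exact Finite.of_injective (fun x : CQQ Q t => (⟨x.1, (mem_CQQ.1 x.2).1⟩ : Q))
        (fun a b h => Subtype.ext (congrArg (fun u : Q => u.1) h))
    have := le_trans (Subgroup.card_le_of_le hle2) (M.card_CQQ tQ t1 tc)
    rw [M.card_CQ tQ t1 tc] at this
    norm_num at this

end Cfsg.Agent.Lib.Helper10
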