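import Mathlib
import Cfsg.Agent.Lib.Helper10.Monster5

set_option autoImplicit false
open Cfsg

namespace Cfsg.Agent.Lib.Helper10

open Cfsg.Agent.Lib.Helper28
open scoped Pointwise

/-- the monomial group -/
def monoGrp : Subgroup Co0 where
  carrier := {g | PresCross g}
  one_mem' := by
    intro v hv
    rw [one_smul]; exact hv
  mul_mem' := by
    intro a b ha hb v hv
    rw [mul_smul]
    exact ha _ (hb v hv)
  inv_mem' := by
    intro a ha
    obtain ⟨σ, c, hc, rfl⟩ := exists_mE ha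
    rw [mE_inv]
    exact mE_pres _ _ _

theorem mem_monoGrp {g : Co0} : g ∈ monoGrp ↔ PresCross g := Iff.rfl

theorem permHom_eq (σ : ↥M24) : permHom σ = mE σ ∅ isC_empty := rfl

theorem sign_sup_perm : signGrp ⊔ permHom.range = monoGrp := by
  apply le_antisymm
  · apply sup_le
    · rintro _ ⟨c, hc, rfl⟩
      exact mE_pres _ _ _
    · rintro _ ⟨σ, rfl⟩
      exact mE_pres σ ∅ isC_empty
  · intro g hg
    obtain ⟨σ, c, hc, rfl⟩ := exists_mE hg
    have : mE σ c hc = mE 1 c hc * permHom σ := by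
      rw [permHom_eq, mE_mul]
      apply mE_congr
      · exact (one_mul σ).symm
      · rw [Finset.smul_finset_empty]
        exact (symmDiff_bot c).symm
    rw [this]
    exact Subgroup.mul_mem_sup ⟨c, hc, rfl⟩ ⟨σ, rfl⟩

theorem negCo0_eq : negCo0 = mE 1 Finset.univ isC_univ := by
  apply Co0_ext
  intro v
  funext i
  rw [negCo0_smul', mE_smul]
  simp [sgn]

theorem center_cases {x : Co0} (hx : x ∈ Subgroup.center Co0) : x = 1 ∨ x = negCo0 := by
  obtain ⟨y, hy1, hy2⟩ := (Nat.card_eq_two_iff' (1 : Subgroup.center Co0)).1 card_center_Co0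
  by_cases hx1 : x = 1
  · exact Or.inl hx1
  · right
    have a1 := hy2 ⟨x, hx⟩ (fun h => hx1 (congrArg Subtype.val h))
    have a2 := hy2 ⟨negCo0, negCo0_mem_center⟩ (fun h => Cfsg.Agent.Lib.Helper28.negCo0_ne_one (congrArg Subtype.val h))
    exact congrArg Subtype.val (a1.trans a2.symm)

theorem sign_sq {x : Co0} (hx : x ∈ signGrp) : x * x = 1 := by
  obtain ⟨c, hc, rfl⟩ := hx
  rw [mE_mul, ← mE_one]
  apply mE_congr
  · exact mul_one 1
  · show symmDiff c ((1 : Equiv.Perm GolayPt) • c) = ∅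
    rw [one_smul, symmDiff_self]; rfl

theorem sign_inf_perm {x : Co0} (h1 : x ∈ signGrp) (h2 : x ∈ permHom.range) : x = 1 := by
  obtain ⟨c, hc, rfl⟩ := h1
  obtain ⟨σ, hσ⟩ := h2
  rw [permHom_eq] at hσ
  obtain ⟨e1, e2⟩ := mE_inj hσ
  subst e1; subst e2
  exact mE_one

/-- abbreviation for the quotient map onto `Co1` -/
abbrev muC : Co0 →* Spor.Co1 := QuotientGroup.mk' (Subgroup.center Co0)

theorem muC_eq_iff {x y : Co0} : muC x = muC y ↔ y = x ∨ y = x * negCo0 := by
  constructor
  · intro h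
    have := QuotientGroup.eq.1 h
    rcases center_cases this with e | e
    · left; exact (inv_mul_eq_one.1 e).symm
    · right; rw [← e]; group
  · rintro (rfl | rfl)
    · rfl
    · apply QuotientGroup.eq.2
      have : x⁻¹ * (x * negCo0) = negCo0 := by group
      rw [this]; exact negCo0_mem_center

theorem conj_neg (a : Co0) : a * negCo0 * a⁻¹ = negCo0 := by
  rw [negCo0_comm a]; group

theorem sign_perm_inf_bot (a : Co0) :
    ((signGrp.map (MulAut.conj a).toMonoidHom).map muC) ⊓
      ((permHom.range.map (MulAut.conj a).toMonoidHom).map muC) = ⊥ := by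
  rw [eq_bot_iff]
  rintro _ ⟨⟨_, ⟨x, hx, rfl⟩, rfl⟩, ⟨_, ⟨y, hy, rfl⟩, hxy⟩⟩
  rw [Subgroup.mem_bot]
  have hxy' : muC (a * y * a⁻¹) = muC (a * x * a⁻¹) := hxy
  have hys : y ∈ signGrp := by
    rcases muC_eq_iff.1 hxy' with e | e
    · have : x = y := by
        have := mul_left_cancel (mul_right_cancel e)
        exact this
      rw [← this]; exact hx
    · have : x = y * negCo0 := by
        have e' : a * x * a⁻¹ = a * (y * negCo0) * a⁻¹ := by
          have e'' : a * (y * negCo0) * a⁻¹ = (a * y * a⁻¹) * (a * negCo0 * a⁻¹) := by group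
          rw [e, e'', conj_neg a]
        exact mul_left_cancel (mul_right_cancel e')
      have hy' : y = x * negCo0 := by
        rw [this, mul_assoc, negCo0_sq, mul_one]
      rw [hy']
      exact signGrp.mul_mem hx ⟨_, _, negCo0_eq⟩
  have y1 := sign_inf_perm hys hy
  show muC (a * x * a⁻¹) = 1
  rw [← hxy', y1]
  simp

theorem perm_mu_inj (a : Co0) :
    Function.Injective ((muC.comp (MulAut.conj a).toMonoidHom).comp permHom) := by
  rw [injective_iff_map_eq_one]
  intro σ hσ
  have h1 : muC (a * permHom σ * a⁻¹) = muC 1 := by rw [map_one]; exact hσ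
  have h2 : permHom σ = 1 := by
    rcases muC_eq_iff.1 h1 with e | e
    · have e' : a * permHom σ * a⁻¹ = a * 1 * a⁻¹ := by rw [← e]; group
      exact mul_left_cancel (mul_right_cancel e')
    · exfalso
      have e' : a * (permHom σ * negCo0) * a⁻¹ = a * 1 * a⁻¹ := by
        have : a * (permHom σ * negCo0) * a⁻¹ = (a * permHom σ * a⁻¹) * (a * negCo0 * a⁻¹) := by group
        rw [this, conj_neg, ← e]; group
      have e2 : permHom σ * negCo0 = 1 := mul_left_cancel (mul_right_cancel e')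
      have e3 : permHom σ = negCo0 := by
        calc permHom σ = permHom σ * (negCo0 * negCo0) := by rw [negCo0_sq, mul_one]
          _ = (permHom σ * negCo0) * negCo0 := by group
          _ = negCo0 := by rw [e2, one_mul]
      rw [permHom_eq, negCo0_eq] at e3
      have := (mE_inj e3).2
      exact absurd this.symm (Finset.univ_nonempty.ne_empty)
  exact permHom_inj (by rw [h2, map_one])

namespace MS

variable {H : Type*} [Group H] {Q : Subgroup H} {c : H} {π : H →* Spor.Co1}
  {T : leechLattice → H → Prop}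

theorem map_R_type4 (M : MS Q c π T) {t : H} {v : leechLattice} (hT : T v t)
    (hv : sqNorm v.1 = 64) (R : Subgroup H) (hR1 : ∀ r ∈ R, r * t = t * r)
    (hR2 : ∀ h : H, h * t = t * h → ∀ r ∈ R, h * r * h⁻¹ ∈ R) (hR3 : Nat.card R = 2 ^ 24)
    (hR4 : ¬ R ≤ Q) (a : Co0) (ha : a • e8 none = v) :
    R.map π = (signGrp.map (MulAut.conj a).toMonoidHom).map muC := by
  rw [← M.map_of_type4 hT hv R hR1 hR2 hR3 hR4 a ha,
    Subgroup.map_comap_eq_self_of_surjective (QuotientGroup.mk'_surjective _)]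

theorem map_CT_type4 (M : MS Q c π T) {t : H} {v : leechLattice} (hT : T v t)
    (hv : sqNorm v.1 = 64) (CT : Subgroup H) (hCT : ∀ h, h ∈ CT ↔ h * t = t * h)
    (a : Co0) (ha : a • e8 none = v) :
    CT.map π = (monoGrp.map (MulAut.conj a).toMonoidHom).map muC := by
  apply le_antisymm
  · rintro _ ⟨h, hh, rfl⟩
    obtain ⟨k, hk⟩ := QuotientGroup.mk_surjective (π h)
    have h1 := M.fixCls_of_comm hT (by rw [hv]; norm_num) ((hCT h).1 hh) hk
    have h2 : k = a * (a⁻¹ * k * a) * a⁻¹ := by group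
    rw [h2, ← ha, fixCls_conj] at h1
    refine ⟨k, ⟨a⁻¹ * k * a, presCross_of_fixCls h1, ?_⟩, hk⟩
    show a * (a⁻¹ * k * a) * a⁻¹ = k
    group
  · rintro _ ⟨_, ⟨n, hn, rfl⟩, rfl⟩
    have hn' : FixCls v (a * n * a⁻¹) := by
      rw [← ha, fixCls_conj]; exact fixCls_of_presCross hn
    obtain ⟨h, hh1, hh2⟩ := M.lift_fixCls hT (Or.inr (Or.inr hv)) _ hn'
    exact ⟨h, (hCT h).2 hh2, hh1⟩

end MS

end Cfsg.Agent.Lib.Helper10
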