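/-
The stabiliser of an octad: it induces the alternating group on the octad; regular action of the pointwise
stabiliser on the complement.
-/
import Cfsg.Agent.Lib.Helper10.M24Six
import Cfsg.Agent.Lib.Helper28.GolaySix
import Cfsg.Agent.Lib.Helper28.GolayOct2

set_option autoImplicit false

namespace Cfsg.Agent.Lib.Helper10

open Cfsg Cfsg.Agent.Lib.Helper28
open scoped Pointwise

theorem card_ker_restrict {o : Finset GolayPt} (ho : o ∈ octads) : Nat.card (restrictHom M24 o).ker = 16 := by
  rw [← (fixOctad ho).1]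
  apply Nat.card_congr
  exact
    { toFun := fun k => ⟨k.1.1.1, k.1.1.2, by
        show k.1.1.1 ∈ fixingSubgroup (Equiv.Perm GolayPt) (o : Set GolayPt)
        rw [mem_fixingSubgroup_iff]
        intro p hp
        have := MonoidHom.mem_ker.1 k.2
        exact congrArg (fun σ : Equiv.Perm o => ((σ ⟨p, hp⟩ : o) : GolayPt)) this⟩
      invFun := fun g => ⟨⟨⟨g.1, g.2.1⟩, by
          rw [MulAction.mem_stabilizer_iff]
          exact smul_eq_of_maps (fun p hp => by
            have := (mem_fixingSubgroup_iff _).1 g.2.2 p hp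
            show g.1 p ∈ o
            have h2 : g.1 p = p := this
            rw [h2]; exact hp)⟩, by
        rw [MonoidHom.mem_ker]
        apply Equiv.ext
        intro x
        apply Subtype.ext
        exact (mem_fixingSubgroup_iff _).1 g.2.2 x.1 x.2⟩
      left_inv := fun k => rfl
      right_inv := fun g => rfl }

/-- the stabiliser of an octad induces the alternating group on it -/
theorem range_restrict {o : Finset GolayPt} (ho : o ∈ octads) :
    (restrictHom M24 o).range = alternatingGroup ↥o := by
  apply Equiv.Perm.eq_alternatingGroup_of_index_eq_two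
  have h1 := Subgroup.card_mul_index (restrictHom M24 o).ker
  rw [Subgroup.index_ker, card_ker_restrict ho, card_stab_octad ho] at h1
  have h2 := Subgroup.card_mul_index (restrictHom M24 o).range
  rw [Nat.card_eq_fintype_card (α := Equiv.Perm ↥o), Fintype.card_perm, Fintype.card_coe, octad_card ho] at h2
  have h3 : Nat.card (restrictHom M24 o).range = 20160 := by omega
  rw [h3] at h2
  have : (8 : ℕ).factorial = 40320 := by decide
  omega

/-- an element fixing an octad pointwise and a further point is trivial -/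
theorem eq_one_of_fix_octad_pt {o : Finset GolayPt} (ho : o ∈ octads) {p : GolayPt} (hp : p ∉ o)
    {g : Equiv.Perm GolayPt} (hg : g ∈ M24) (hfix : ∀ x ∈ o, g x = x) (hgp : g p = p) : g = 1 := by
  obtain ⟨h, hh, h1, h2⟩ := octad_std1' ho hp
  have h3 : h * g * h⁻¹ ∈ fixG [23, 0, 1, 2, 3, 5, 4] := by
    refine ⟨M24.mul_mem (M24.mul_mem hh hg) (M24.inv_mem hh), ?_⟩
    intro f hf
    have hf' : f = 4 ∨ pt f ∈ stdOctad := by
      revert f; decide
    rcases hf' with rfl | hf'
    · rw [← h2]; simp [hgp]
    · rw [← h1] at hf'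
      obtain ⟨x, hx, hxe⟩ := Finset.mem_smul_finset.1 hf'
      have hxe' : h x = pt f := hxe
      rw [← hxe']; simp [hfix x hx]
  rw [fixG_base, Subgroup.mem_bot] at h3
  have : g = h⁻¹ * (h * g * h⁻¹) * h := by group
  rw [this, h3]; group

/-- the pointwise stabiliser of an octad is transitive on the complement -/
theorem exists_fix_octad_map {o : Finset GolayPt} (ho : o ∈ octads) {p q : GolayPt} (hp : p ∉ o) (hq : q ∉ o) :
    ∃ e ∈ M24, (∀ x ∈ o, e x = x) ∧ e p = q := by
  obtain ⟨h, hh, h1, h2⟩ := octad_std1' ho hp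
  have hy : h q ∉ stdOctad := by rw [← h1, apply_mem_smul_iff]; exact hq
  obtain ⟨u, hu, hu1, hu2, -⟩ := std_out hy
  have hu' : u ∈ M24 ⊓ fixingSubgroup (Equiv.Perm GolayPt) (stdOctad : Set GolayPt) := by
    rw [fixOctad_std]; exact ⟨hu, hu1⟩
  refine ⟨h⁻¹ * u * h, M24.mul_mem (M24.mul_mem (M24.inv_mem hh) hu) hh, ?_, ?_⟩
  · intro x hx
    have hx' : h x ∈ stdOctad := by rw [← h1, apply_mem_smul_iff]; exact hx
    have := (mem_fixingSubgroup_iff _).1 hu'.2 (h x) hx'
    have h3 : u (h x) = h x := this
    rw [Equiv.Perm.mul_apply, Equiv.Perm.mul_apply, h3]; simp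
  · rw [Equiv.Perm.mul_apply, Equiv.Perm.mul_apply, h2, hu2]; simp

end Cfsg.Agent.Lib.Helper10
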