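/-
Orbit data on the sextets with a general weight function.
-/
import Cfsg.Agent.Lib.Helper10.SextetOrb

set_option autoImplicit false

namespace Cfsg.Agent.Lib.Helper10

open Cfsg Cfsg.Agent.Lib.Helper28
open scoped Pointwise

/-- check of the roots: `rl i` is the list of the tetrads of the root of class `i` -/
noncomputable def sxRootChk' (φ : ℕ → ℕ) (lY : List ℕ) (rt v : ℕ → ℕ) (rl : ℕ → List ℕ) (pg : ℕ) (i : ℕ) : Bool :=
  strict (rt i) fun k => strict (mk24 sxArr k) fun t =>
    and (Nat.blt k 1771) (and (Nat.beq (fCl pg k) i) (and (isSxL (rl i)) (and (Nat.beq (pcF t) 4)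
      (and (Nat.beq (synd t) (synd ((rl i).headD 0))) (Nat.beq (InvL φ (rl i) lY) (v i))))))

/-- orbit data on the sextets from a certificate -/
theorem sextet_orbData' (φ : ℕ → ℕ) {β : Type*} [MulAction (Equiv.Perm GolayPt) β] (Y0 : β) (lY : List ℕ)
    (hY : ∀ g ∈ stabIn Y0, g • decL lY = decL lY) (hlY : incrL lY = true) {gens : List (List ℕ)}
    (hgens : ∀ L ∈ gens, validTbl L = true ∧ permOf L ∈ stabIn Y0) {rt v : ℕ → ℕ} {rl : ℕ → List ℕ} {pg r : ℕ}
    (h1 : forCheck gens sxStep rt pg 1771 = true)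
    (h2 : allBelow (fun k => Nat.blt (fCl pg k) r) 1771 = true)
    (h3 : allBelow (sxRootChk' φ lY rt v rl pg) r = true) (h4 : sepChk v r = true) :
    OrbData sextets (stabIn Y0) (fun X => Inv φ X (decL lY)) r v
      (fun i => countAcc (fun k => Nat.beq (fCl pg k) i) 1771 0) := by
  have h3' : ∀ i, i < r → rt i < 1771 ∧ fCl pg (rt i) = i ∧ Inv φ (Dsx (rt i)) (decL lY) = v i := by
    intro i hi
    have := allBelow_spec h3 i hi
    simp only [sxRootChk', strict_eq, Bool.and_eq_true] at this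
    obtain ⟨a1, a2, a3, a4, a5, a6⟩ := this
    refine ⟨Nat.blt_eq.mp a1, Nat.eq_of_beq_eq_true a2, ?_⟩
    have hl : incrL (rl i) = true := by
      rw [isSxL, Bool.and_eq_true] at a3
      exact a3.1
    rw [Dsx, decL_eq_sxt a3 (mk24_lt _ _) a4 a5, Inv_decL φ hl hlY]
    exact Nat.eq_of_beq_eq_true a6
  apply OrbData.of_cert sextets Dsx 1771 (fCl pg) rt _ r v
  · intro X hX; exact Dsx_cov hX
  · intro k hk; exact Dsx_mem hk
  · intro k hk l hl h; exact Dsx_inj hk hl h
  · apply forCheck_spec Dsx _ h1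
    intro L hL
    obtain ⟨hv, hK⟩ := hgens L hL
    exact ⟨hK, fun p k h => sxStep_spec hv (mem_stabIn.1 hK).1 h⟩
  · intro g hg X
    exact Inv_smul_of_fix φ X (hY g hg)
  · intro g hg y hy
    exact smul_mem_sextets (mem_stabIn.1 hg).1 hy
  · intro k hk
    exact Nat.blt_eq.mp (allBelow_spec h2 k hk)
  · intro i hi
    exact ⟨(h3' i hi).1, (h3' i hi).2.1⟩
  · intro i hi
    exact (h3' i hi).2.2
  · exact sepChk_spec h4

theorem decL_singleton (m : ℕ) : decL [m] = {unmask m} := by
  simp [decL]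

theorem smul_singleton_of_fix {g : Equiv.Perm GolayPt} {y : Finset GolayPt} (h : g • y = y) :
    g • ({y} : Finset (Finset GolayPt)) = {y} := by
  rw [Finset.smul_finset_singleton, h]

/-- the stabiliser of a set fixes the system consisting of this set -/
theorem stabIn_fix_singleton (m : ℕ) : ∀ g ∈ stabIn (unmask m), g • decL [m] = decL [m] := by
  intro g hg
  rw [decL_singleton]
  exact smul_singleton_of_fix (mem_stabIn.1 hg).2

/-- weight function counting the nonempty intersections -/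
def phi01 (k : ℕ) : ℕ := cond (Nat.beq k 0) 0 1

theorem Inv_phi01 (S : Finset (Finset GolayPt)) (Y : Finset GolayPt) :
    Inv phi01 S {Y} = (S.filter fun t => (t ∩ Y).Nonempty).card := by
  unfold Inv
  rw [Finset.card_filter]
  apply Finset.sum_congr rfl
  intro t _
  rw [Finset.sum_singleton]
  by_cases h : (t ∩ Y).Nonempty
  · have : (t ∩ Y).card ≠ 0 := Finset.card_ne_zero.2 h
    obtain ⟨n, hn⟩ := Nat.exists_eq_succ_of_ne_zero this
    rw [if_pos h, hn]
    rfl
  · rw [if_neg h]
    rw [Finset.not_nonempty_iff_eq_empty] at h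
    rw [h]
    rfl

end Cfsg.Agent.Lib.Helper10
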